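import Cfsg.Agent.Lib.J4T.XN

/-! J4T package ALL: see blueprint/J4T/README.md -/

set_option autoImplicit false

namespace H75.JT

open Subgroup Matrix H75.L7 H75.JT.Fr

variable {G : Type*} [Group G] [Finite G]

namespace St

variable {S : St G}

theorem all_comm {a l : G} (ha : a ∈ S.Q) (hl : l ∈ S.Q) {x y : F2} (e : S.θ a = tv x y) :
    ∃ t : F2, ∀ c, Commute (l * S.ζ c) a ↔ t + (x * c 0 + y * c 1) = 0 := by
  have k : ∃ t : F2, a * l * a⁻¹ = l * S.ζ (t • e2) := by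
    rcases cz_conj ha hl with h | h
    · exact ⟨0, by rw [h, zero_smul, ζ_zero, mul_one]⟩
    · exact ⟨1, by rw [h, one_smul, z_eq]⟩
  obtain ⟨t, k⟩ := k
  refine ⟨t, fun c => ?_⟩
  have h : a * (l * S.ζ c) * a⁻¹ = l * S.ζ (t • e2 + (c + (x * c 0 + y * c 1) • e2)) := by
    rw [S.ζ_add, ← mul_assoc l, ← k, ← cf_tv, ← e, ← S.ζ_conj a (K_Q ha)]
    group
  have n : ∀ (t s : F2) (c : V3), t • e2 + (c + s • e2) = c ↔ t + s = 0 := by decide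
  rw [← n t _ c, ← ζ_eq (F := S.toFr), ← mul_right_inj l, ← h]
  exact ⟨fun b => conj_eq_of_comm b.symm, fun b => (comm_of_conj_eq b).symm⟩

theorem all_gen {h l : G} (a : S.H h) (hl : S.H l) (h0 : Commute l (h * S.ζ ![1, 0, 0] * h⁻¹))
    (h1 : Commute l (h * S.ζ ![0, 1, 0] * h⁻¹)) (c : V3) : Commute l (h * S.ζ c * h⁻¹) := by
  have h2 : Commute l (h * S.ζ e2 * h⁻¹) := by rw [← z_eq, a.conj_z]; exact hl
  have sm : ∀ (t : F2) d, Commute l (h * S.ζ d * h⁻¹) → Commute l (h * S.ζ (t • d) * h⁻¹) := by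
    intro t d b
    rcases F2_cases t with rfl | rfl
    · rw [zero_smul, ζ_zero]; simp
    · rwa [one_smul]
  have e : ∀ c : V3, c = c 0 • ![1, 0, 0] + c 1 • ![0, 1, 0] + c 2 • e2 := by decide
  rw [e c, blk_mul, blk_mul]
  exact ((sm _ _ h0).mul_right (sm _ _ h1)).mul_right (sm _ _ h2)

theorem op_lift {h : G} (a : S.Op h) {v : W} (hv : v 2 = 0) :
    {l | l ∈ S.L ∧ S.φ l = v ∧ ∀ c, Commute l (h * S.ζ c * h⁻¹)}.ncard = 2 := by
  obtain ⟨l, hl, rfl⟩ := S.φ_sur v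
  have lQ := (QL hl).2 hv
  have q0 := blk_Q a.1 ![1, 0, 0]
  have q1 := blk_Q a.1 ![0, 1, 0]
  obtain ⟨x, y, e0⟩ := (R_Q q0).2.2
  obtain ⟨x', y', e1⟩ := (R_Q q1).2.2
  have nz : ∀ c, Out c → ∀ p q, S.θ (h * S.ζ c * h⁻¹) = tv p q → ¬ (p = 0 ∧ q = 0) := by
    rintro c hc p q e ⟨rfl, rfl⟩
    exact a.2 c hc ((R_Q (blk_Q a.1 c)).L_of (e.trans tv_zero))
  have n0 := nz _ (by decide) _ _ e0
  have n1 := nz _ (by decide) _ _ e1
  have n2 := nz (![1, 0, 0] + ![0, 1, 0]) (by decide) (x + x') (y + y')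
    (by rw [blk_mul, S.θ_mul _ (K_Q q0) _ (K_Q q1), e0, e1, tv_mul])
  obtain ⟨t, k0⟩ := all_comm q0 lQ e0
  obtain ⟨t', k1⟩ := all_comm q1 lQ e1
  have key : ∀ x y x' y' t t' : F2, ¬ (x = 0 ∧ y = 0) → ¬ (x' = 0 ∧ y' = 0) → ¬ (x + x' = 0 ∧ y + y' = 0) →
      (Finset.univ.filter fun c : V3 => t + (x * c 0 + y * c 1) = 0 ∧ t' + (x' * c 0 + y' * c 1) = 0).card = 2 := by
    decide +kernel
  rw [← key x y x' y' t t' n0 n1 n2, ← Set.ncard_coe_finset,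
    ← Set.ncard_image_of_injective (f := fun c => l * S.ζ c) _ fun c d e => ζ_eq.1 (mul_left_cancel e)]
  congr 1
  ext m
  simp only [Finset.coe_filter, Finset.mem_univ, true_and]
  constructor
  · rintro ⟨b1, b2, b3⟩
    obtain ⟨c, rfl⟩ := (φ_eq b1 hl).1 b2
    exact ⟨c, ⟨(k0 c).1 (b3 _), (k1 c).1 (b3 _)⟩, rfl⟩
  · rintro ⟨c, ⟨b0, b1⟩, rfl⟩
    have m := mul_mem hl (S.ζ_mem c)
    exact ⟨m, φ_mul_ζ hl c, all_gen a.1 (H_L m) ((k0 c).2 b0) ((k1 c).2 b1)⟩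

theorem all_n3 (hf : S.Fib) {h : G} (a : S.H h) : S.N3 h := by
  by_cases hK : h ∈ S.K
  · exact n3_K hK a
  rcases d1 a hK with b | b
  · exact xn b
  have fv : FF ![![1, 0, 0, 0], J *ᵥ ![1, 0, 0, 0], 0] := by decide
  obtain ⟨l, hl, e, k⟩ := Set.nonempty_of_ncard_ne_zero ((op_lift b fv.1).trans_ne two_ne_zero)
  obtain ⟨g, c, hg, hc, rfl⟩ := hf.ff l hl (e ▸ fv)
  have gK : g ∉ S.K := fun gK => by
    rw [S.ζ_conj g gK, φ_ζ] at e
    exact fv.2.1 (e ▸ rfl)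
  have ng : S.Nb g := (d1 hg gK).resolve_right fun o => o.2 c hc hl
  have u : S.H (g⁻¹ * h) := hg.inv.mul a
  have nu : S.N3 (g⁻¹ * h) := by
    by_cases uK : g⁻¹ * h ∈ S.K
    · exact n3_K uK u
    refine xn ⟨u, uK, fun d => L_of_cent (blk_Q u d) fun c' => ?_⟩
    have := (d1_blk hg a hc k c' d).symm.conj g⁻¹
    simpa [mul_assoc] using this
  simpa using N3.mul hg (xn ng) nu

end St

end H75.JT
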