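import Cfsg.Agent.Lib.J4T.Mat
import Cfsg.Agent.Lib.LargeExtra.Basic

/-! J4T: basic lemmas on frames -/

set_option autoImplicit false
set_option linter.unusedSectionVars false

namespace H75.JT

open Subgroup Matrix Cfsg H75.L7

variable {G : Type*} [Group G]

namespace Fr

variable {F : Fr G}

theorem ζ_zero (F : Fr G) : F.ζ 0 = 1 := by simpa using F.ζ_add 0 0
theorem ζ_sq (F : Fr G) (c : V3) : F.ζ c * F.ζ c = 1 := by rw [← F.ζ_add, add_self2, ζ_zero]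
theorem ζ_inv (F : Fr G) (c : V3) : (F.ζ c)⁻¹ = F.ζ c := inv_eq_of_mul_eq_one_right (F.ζ_sq c)
theorem ζ_eq {c d : V3} : F.ζ c = F.ζ d ↔ c = d :=
  ⟨fun h => V3_add_eq_zero.1 (F.ζ_inj _ (by rw [F.ζ_add, h, ζ_sq])), fun h => h ▸ rfl⟩
theorem ζ_one {c : V3} : F.ζ c = 1 ↔ c = 0 := by rw [← F.ζ_zero, ζ_eq]
theorem ζ_K (F : Fr G) (c : V3) : F.ζ c ∈ F.K := F.LK (F.ζ_mem c)
theorem φ_ζ (F : Fr G) (c : V3) : F.φ (F.ζ c) = 0 := (F.φ_ker _ (F.ζ_mem c)).2 ⟨c, rfl⟩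
theorem φ_one (F : Fr G) : F.φ 1 = 0 := F.ζ_zero ▸ F.φ_ζ 0
theorem φ_inv {l : G} (h : l ∈ F.L) : F.φ l⁻¹ = F.φ l :=
  W_add_eq_zero.1 (by rw [← F.φ_mul _ (inv_mem h) _ h, inv_mul_cancel, φ_one])
theorem φ_mul_ζ {l : G} (h : l ∈ F.L) (c : V3) : F.φ (l * F.ζ c) = F.φ l := by
  rw [F.φ_mul _ h _ (F.ζ_mem c), φ_ζ, add_zero]
theorem φ_eq {l l' : G} (h : l ∈ F.L) (h' : l' ∈ F.L) : F.φ l = F.φ l' ↔ ∃ c, l = l' * F.ζ c := by
  refine ⟨fun e => ?_, fun ⟨c, e⟩ => by rw [e, φ_mul_ζ h']⟩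
  obtain ⟨c, hc⟩ := (F.φ_ker _ (mul_mem (inv_mem h') h)).1
    (by rw [F.φ_mul _ (inv_mem h') _ h, φ_inv h', e, W_add_self])
  exact ⟨c, by rw [← hc]; group⟩
theorem comm_iff {l l' : G} (h : l ∈ F.L) (h' : l' ∈ F.L) : Commute l l' ↔ B (F.φ l) (F.φ l') = 0 := by
  rw [Commute, SemiconjBy, F.comm l h l' h', mul_eq_left, ζ_one]
theorem ζ_comm {l : G} (h : l ∈ F.L) (c : V3) : Commute l (F.ζ c) :=
  (comm_iff h (F.ζ_mem c)).2 (by rw [φ_ζ, B_zero_right])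
theorem conj_L {l l' : G} (h : l ∈ F.L) (h' : l' ∈ F.L) : l * l' * l⁻¹ = l' * F.ζ (B (F.φ l) (F.φ l')) := by
  rw [F.comm l h l' h', mul_assoc, mul_assoc, ← mul_assoc l, conj_eq_of_comm (ζ_comm h _)]
theorem σ_one (F : Fr G) : F.σ 1 = 1 := ((F.ker 1 (one_mem _)).1 (one_mem _)).1
theorem θ_one (F : Fr G) : F.θ 1 = 1 := ((F.ker 1 (one_mem _)).1 (one_mem _)).2
theorem σ_L {l : G} (h : l ∈ F.L) : F.σ l = 1 := ((F.ker l (F.LK h)).1 h).1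
theorem θ_L {l : G} (h : l ∈ F.L) : F.θ l = 1 := ((F.ker l (F.LK h)).1 h).2
theorem σ_inv {k : G} (h : k ∈ F.K) : F.σ k * F.σ k⁻¹ = 1 := by rw [← F.σ_mul _ h _ (inv_mem h), mul_inv_cancel, σ_one]
theorem σ_inv' {k : G} (h : k ∈ F.K) : F.σ k⁻¹ * F.σ k = 1 := by rw [← F.σ_mul _ (inv_mem h) _ h, inv_mul_cancel, σ_one]
theorem θ_inv {k : G} (h : k ∈ F.K) : F.θ k * F.θ k⁻¹ = 1 := by rw [← F.θ_mul _ h _ (inv_mem h), mul_inv_cancel, θ_one]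
theorem θ_inv' {k : G} (h : k ∈ F.K) : F.θ k⁻¹ * F.θ k = 1 := by rw [← F.θ_mul _ (inv_mem h) _ h, inv_mul_cancel, θ_one]
theorem σ_pow {k : G} (h : k ∈ F.K) (n : ℕ) : F.σ (k ^ n) = F.σ k ^ n := by
  induction n with
  | zero => simp [σ_one]
  | succ n ih => rw [pow_succ, F.σ_mul _ (pow_mem h n) _ h, ih, pow_succ]
theorem θ_pow {k : G} (h : k ∈ F.K) (n : ℕ) : F.θ (k ^ n) = F.θ k ^ n := by
  induction n with
  | zero => simp [θ_one]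
  | succ n ih => rw [pow_succ, F.θ_mul _ (pow_mem h n) _ h, ih, pow_succ]
theorem σ_conj {k x : G} (h : k ∈ F.K) (hx : x ∈ F.K) : F.σ (k * x * k⁻¹) = F.σ k * F.σ x * F.σ k⁻¹ := by
  rw [F.σ_mul _ (mul_mem h hx) _ (inv_mem h), F.σ_mul _ h _ hx]
theorem θ_conj {k x : G} (h : k ∈ F.K) (hx : x ∈ F.K) : F.θ (k * x * k⁻¹) = F.θ k * F.θ x * F.θ k⁻¹ := by
  rw [F.θ_mul _ (mul_mem h hx) _ (inv_mem h), F.θ_mul _ h _ hx]
theorem conj_mem_L {k l : G} (h : k ∈ F.K) (hl : l ∈ F.L) : k * l * k⁻¹ ∈ F.L :=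
  (F.ker _ (mul_mem (mul_mem h (F.LK hl)) (inv_mem h))).2
    ⟨by rw [σ_conj h (F.LK hl), σ_L hl, mul_one, σ_inv h], by rw [θ_conj h (F.LK hl), θ_L hl, mul_one, θ_inv h]⟩
theorem conj_mem_L' {k l : G} (h : k ∈ F.K) (hl : l ∈ F.L) : k⁻¹ * l * k ∈ F.L := by
  simpa using conj_mem_L (inv_mem h) hl
/-- equal images in `K / L` -/
theorem eq_mul_L {k k' : G} (h : k ∈ F.K) (h' : k' ∈ F.K) (e1 : F.σ k = F.σ k') (e2 : F.θ k = F.θ k') :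
    ∃ l ∈ F.L, k = l * k' :=
  ⟨k * k'⁻¹, (F.ker _ (mul_mem h (inv_mem h'))).2 ⟨by rw [F.σ_mul _ h _ (inv_mem h'), e1, σ_inv h'],
    by rw [F.θ_mul _ h _ (inv_mem h'), e2, θ_inv h']⟩, by group⟩
/-- `C(Z)` -/
theorem of_cent {g : G} (h : ∀ c, Commute g (F.ζ c)) : g ∈ F.K ∧ F.θ g = 1 := by
  have k : g ∈ F.K := F.nm g fun c => ⟨c, conj_eq_of_comm (h c)⟩
  refine ⟨k, cf_eq_one (F.θ_mem g k) (Matrix.ext_iff_mulVec.2 fun c => ?_)⟩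
  rw [one_mulVec, ← F.ζ_eq, ← F.ζ_conj g k, conj_eq_of_comm (h c)]
theorem cent_of {k : G} (h : k ∈ F.K) (e : F.θ k = 1) (c : V3) : Commute k (F.ζ c) :=
  comm_of_conj_eq (by rw [F.ζ_conj k h, e, cf_one, one_mulVec])
theorem z_eq (F : Fr G) : F.z = F.ζ e2 := rfl
theorem z2 (F : Fr G) : F.z * F.z = 1 := F.ζ_sq e2
theorem z_ne (F : Fr G) : F.z ≠ 1 := fun h => absurd (ζ_one.1 h) (by decide)
theorem z_L (F : Fr G) : F.z ∈ F.L := F.ζ_mem e2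
theorem z_inv (F : Fr G) : F.z⁻¹ = F.z := F.ζ_inv e2
theorem H.mul {g h : G} (a : F.H g) (b : F.H h) : F.H (g * h) := Commute.mul_left a b
theorem H.inv {g : G} (a : F.H g) : F.H g⁻¹ := Commute.inv_left a
theorem H.conj {g h : G} (a : F.H g) (b : F.H h) : F.H (g * h * g⁻¹) := (a.mul b).mul a.inv
theorem H.conj_z {g : G} (a : F.H g) : g * F.z * g⁻¹ = F.z := conj_eq_of_comm a
theorem H_one (F : Fr G) : F.H 1 := Commute.one_left _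
theorem H_L {l : G} (h : l ∈ F.L) : F.H l := ζ_comm h e2
theorem H_iff {k : G} (h : k ∈ F.K) : F.H k ↔ F.θ k 2 = e2 := by
  rw [← cf_e2 _ (F.θ_mem k h), ← F.ζ_eq, ← F.ζ_conj k h]
  exact ⟨conj_eq_of_comm, comm_of_conj_eq⟩
theorem φ_conj_two {k l : G} (h : k ∈ F.K) (hk : F.H k) (hl : l ∈ F.L) :
    F.φ (k * l * k⁻¹) 2 = F.σ k *ᵥ F.φ l 2 := by rw [F.φ_conj k h l hl, act_two ((H_iff h).1 hk)]
theorem ex_conj_z (F : Fr G) {c : V3} (h : c ≠ 0) : ∃ k ∈ F.K, k * F.z * k⁻¹ = F.ζ c := by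
  obtain ⟨g, hg, e⟩ := cf_trans c h
  obtain ⟨k, hk, -, rfl⟩ := F.sur 1 one_SL g hg
  exact ⟨k, hk, by rw [z_eq, F.ζ_conj k hk, e]⟩
theorem ex_conj_out (F : Fr G) {c : V3} (h : Out c) : ∃ k ∈ F.K, F.H k ∧ k * F.ζ ![1, 0, 0] * k⁻¹ = F.ζ c := by
  obtain ⟨g, hg, a, e⟩ := cf_trans2 c h.1 h.2
  obtain ⟨k, hk, -, rfl⟩ := F.sur 1 one_SL g hg
  exact ⟨k, hk, (H_iff hk).2 a, by rw [F.ζ_conj k hk, e]⟩
instance (c : V3) : Decidable (Out c) := inferInstanceAs (Decidable (_ ∧ _))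
theorem out_iff : ∀ c : V3, Out c ↔ c 0 = 1 ∨ c 1 = 1 := by decide

theorem cz_refl (F : Fr G) (x : G) : F.Cz x x := .inl rfl
theorem cz_z (F : Fr G) (x : G) : F.Cz (x * F.z) x := .inr rfl
theorem Cz.symm {x y : G} (h : F.Cz x y) : F.Cz y x :=
  h.imp Eq.symm fun e => by rw [e, mul_assoc, F.z2, mul_one]
theorem Cz.trans {x y w : G} (h : F.Cz x y) (h' : F.Cz y w) : F.Cz x w := by
  rcases h with rfl | rfl
  · exact h'
  · rcases h' with rfl | rfl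
    exacts [.inr rfl, .inl (by rw [mul_assoc, F.z2, mul_one])]
theorem Cz.mul_left {x y : G} (h : F.Cz x y) (g : G) : F.Cz (g * x) (g * y) :=
  h.imp (fun e => by rw [e]) fun e => by rw [e, mul_assoc]
theorem Cz.mul_right {x y g : G} (h : F.Cz x y) (c : F.H g) : F.Cz (x * g) (y * g) :=
  h.imp (fun e => by rw [e]) fun e => by rw [e, mul_assoc, mul_assoc, c.eq]
theorem Cz.mul {x y x' y' : G} (h : F.Cz x y) (h' : F.Cz x' y') (c : F.H y') : F.Cz (x * x') (y * y') :=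
  (h'.mul_left x).trans (h.mul_right c)
theorem Cz.conj {x y g : G} (h : F.Cz x y) (c : F.H g) : F.Cz (g * x * g⁻¹) (g * y * g⁻¹) :=
  (h.mul_left g).mul_right c.inv
theorem Cz.mem {x y : G} {X : Subgroup G} (h : F.Cz x y) (hz : F.z ∈ X) (hy : y ∈ X) : x ∈ X := by
  rcases h with rfl | rfl
  exacts [hy, mul_mem hy hz]
theorem Cz.φ {x y : G} (h : F.Cz x y) (hy : y ∈ F.L) : F.φ x = F.φ y := by
  rcases h with rfl | rfl
  exacts [rfl, φ_mul_ζ hy e2]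
theorem cz_ζ {c d : V3} : F.Cz (F.ζ c) (F.ζ d) ↔ c = d ∨ c = d + e2 := by
  rw [Cz, z_eq, ← F.ζ_add, ζ_eq, ζ_eq]
theorem cz_mul_ζ {x : G} {c : V3} : F.Cz (x * F.ζ c) x ↔ ¬ Out c := by
  rw [Cz, mul_eq_left, mul_right_inj, z_eq, ζ_eq, ζ_one, Out]; tauto

theorem R.K {r : G} (h : F.R r) : r ∈ F.K := h.1
theorem R.H {r : G} (h : F.R r) : F.H r := by
  obtain ⟨a, -, b, c, e⟩ := h
  rw [H_iff a, e, tv_two]
theorem R_L {l : G} (h : l ∈ F.L) : F.R l := ⟨F.LK h, σ_L h, 0, 0, by rw [θ_L h, tv_zero]⟩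
theorem R.mul {r s : G} (h : F.R r) (k : F.R s) : F.R (r * s) := by
  obtain ⟨a, b, c, d, e⟩ := h
  obtain ⟨a', b', c', d', e'⟩ := k
  exact ⟨mul_mem a a', by rw [F.σ_mul _ a _ a', b, b', mul_one], _, _, by rw [F.θ_mul _ a _ a', e, e', tv_mul]⟩
theorem R.inv {r : G} (h : F.R r) : F.R r⁻¹ := by
  obtain ⟨a, b, c, d, e⟩ := h
  refine ⟨inv_mem a, by simpa [b] using σ_inv a, c, d, ?_⟩
  have := congrArg (tv c d * ·) (θ_inv a)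
  simpa only [e, ← mul_assoc, tv_mul, CharTwo.add_self_eq_zero, tv_zero, one_mul, mul_one] using this
theorem R.conj {r k : G} (h : F.R r) (hk : k ∈ F.K) (hH : F.H k) : F.R (k * r * k⁻¹) := by
  obtain ⟨a, b, c, d, e⟩ := h
  exact ⟨mul_mem (mul_mem hk a) (inv_mem hk), by rw [σ_conj hk a, b, mul_one, σ_inv hk], _, _, by
    rw [θ_conj hk a, e, conj_tv _ (F.θ_mem k hk) ((H_iff hk).1 hH), mul_assoc, θ_inv hk, mul_one]⟩
theorem R.cz_ζ {r : G} (h : F.R r) (c : V3) : F.Cz (r * F.ζ c * r⁻¹) (F.ζ c) := by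
  obtain ⟨a, -, b, d, e⟩ := h
  rw [F.ζ_conj r a, e, cf_tv, Fr.cz_ζ]
  rcases F2_cases (b * c 0 + d * c 1) with h | h <;> simp [h]
/-- elements of `K` acting trivially on `Z / ⟨z⟩` -/
theorem θ_tv {k : G} (hk : k ∈ F.K) (h : ∀ c, F.Cz (k * F.ζ c * k⁻¹) (F.ζ c)) : ∃ a b, F.θ k = tv a b :=
  eq_tv _ (F.θ_mem k hk) fun c => by rw [← F.cz_ζ, ← F.ζ_conj k hk]; exact h c
theorem R.sq {r : G} (h : F.R r) : r * r ∈ F.L := by
  obtain ⟨a, b, c, d, e⟩ := h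
  rw [F.ker _ (mul_mem a a), F.σ_mul _ a _ a, F.θ_mul _ a _ a, b, e, tv_mul, mul_one, CharTwo.add_self_eq_zero,
    CharTwo.add_self_eq_zero, tv_zero]
  exact ⟨rfl, rfl⟩
theorem R.L_of {r : G} (h : F.R r) (e : F.θ r = 1) : r ∈ F.L := (F.ker r h.1).2 ⟨h.2.1, e⟩
theorem R.φ_conj {r l : G} {a b : F2} (h : F.R r) (e : F.θ r = tv a b) (hl : l ∈ F.L) :
    F.φ (r * l * r⁻¹) = ![F.φ l 0 + a • F.φ l 2, F.φ l 1 + b • F.φ l 2, F.φ l 2] := by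
  rw [F.φ_conj r h.1 l hl, h.2.1, e, act_tv]
theorem L_pow4 {l : G} (h : l ∈ F.L) : l ^ 4 = 1 := by
  rw [show 4 = 2 * 2 from rfl, pow_mul, pow_two, pow_two, F.sq l h, ζ_sq]
theorem L_two (F : Fr G) : IsPGroup 2 F.L := two_of_pow fun _ h => ⟨2, L_pow4 h⟩

/-- `Z` as a subgroup -/
def Z (F : Fr G) : Subgroup G where
  carrier := Set.range F.ζ
  one_mem' := ⟨0, F.ζ_zero⟩
  mul_mem' := by rintro _ _ ⟨c, rfl⟩ ⟨d, rfl⟩; exact ⟨c + d, F.ζ_add c d⟩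
  inv_mem' := by rintro _ ⟨c, rfl⟩; exact ⟨c, (F.ζ_inv c).symm⟩
theorem mem_Z {x : G} : x ∈ F.Z ↔ ∃ c, F.ζ c = x := Iff.rfl
theorem card_Z (F : Fr G) : Nat.card F.Z = 8 := by
  refine (Nat.card_range_of_injective (f := F.ζ) fun a b h => ζ_eq.1 h).trans ?_
  simp
/-- `R` as a subgroup -/
def RR (F : Fr G) : Subgroup G where
  carrier := {r | F.R r}
  one_mem' := R_L (one_mem _)
  mul_mem' := R.mul
  inv_mem' := R.inv
theorem mem_RR {x : G} : x ∈ F.RR ↔ F.R x := Iff.rfl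
theorem eqns_bas : True := by
  have := @Z.eq_1.{0}; have := @RR.eq_1.{0}
  trivial

/-- the preimage of a set of vectors -/
theorem ncard_pre (F : Fr G) (S : Set W) : {l | l ∈ F.L ∧ F.φ l ∈ S}.ncard = 8 * S.ncard := by
  choose s hs hs' using F.φ_sur
  have : {l | l ∈ F.L ∧ F.φ l ∈ S} = (fun x : V3 × W => s x.2 * F.ζ x.1) '' (Set.univ ×ˢ S) := by
    ext l
    constructor
    · rintro ⟨a, b⟩
      obtain ⟨c, e⟩ := (φ_eq a (hs _)).1 (hs' (F.φ l)).symm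
      exact ⟨(c, F.φ l), ⟨trivial, b⟩, e.symm⟩
    · rintro ⟨⟨c, u⟩, ⟨-, b⟩, rfl⟩
      exact ⟨mul_mem (hs u) (F.ζ_mem c), by rw [φ_mul_ζ (hs u), hs']; exact b⟩
  rw [this, Set.ncard_image_of_injective, Set.ncard_prod, Set.ncard_univ]
  · simp
  · rintro ⟨c, u⟩ ⟨d, v⟩ e
    have e' := congrArg F.φ e
    simp only [φ_mul_ζ (hs _), hs'] at e'
    subst e'
    simpa [ζ_eq] using e
theorem card_L (F : Fr G) : Nat.card F.L = 2 ^ 15 := by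
  have := F.ncard_pre Set.univ
  simp only [Set.mem_univ, and_true, Set.ncard_univ] at this
  rw [← SetLike.coe_sort_coe, Nat.card_coe_set_eq]
  simpa using this
/-- the preimage in `K` of a set of pairs -/
theorem ncard_preK (F : Fr G) (S : Set (M4 × M3)) (h : ∀ x ∈ S, x.1 ∈ SL ∧ x.2 ∈ GL3) :
    {k | k ∈ F.K ∧ (F.σ k, F.θ k) ∈ S}.ncard = 2 ^ 15 * S.ncard := by
  choose! s h1 h2 h3 using fun x (hx : x ∈ S) => F.sur x.1 (h x hx).1 x.2 (h x hx).2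
  have : {k | k ∈ F.K ∧ (F.σ k, F.θ k) ∈ S} = (fun x : G × (M4 × M3) => x.1 * s x.2) '' ((F.L : Set G) ×ˢ S) := by
    ext k
    constructor
    · rintro ⟨a, b⟩
      obtain ⟨l, hl, e⟩ := eq_mul_L a (h1 _ b) (h2 _ b).symm (h3 _ b).symm
      exact ⟨(l, _), ⟨hl, b⟩, e.symm⟩
    · rintro ⟨⟨l, x⟩, ⟨a, b⟩, rfl⟩
      refine ⟨mul_mem (F.LK a) (h1 x b), ?_⟩
      rw [F.σ_mul _ (F.LK a) _ (h1 x b), F.θ_mul _ (F.LK a) _ (h1 x b), σ_L a, θ_L a, one_mul, one_mul, h2 x b, h3 x b]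
      exact b
  rw [this, Set.InjOn.ncard_image, Set.ncard_prod, ← F.card_L, ← Nat.card_coe_set_eq]
  · rfl
  · rintro ⟨l, x⟩ ⟨a, b⟩ ⟨l', x'⟩ ⟨a', b'⟩ e
    have e1 := congrArg F.σ e
    have e2 := congrArg F.θ e
    simp only [F.σ_mul _ (F.LK a) _ (h1 x b), F.σ_mul _ (F.LK a') _ (h1 x' b'), F.θ_mul _ (F.LK a) _ (h1 x b),
      F.θ_mul _ (F.LK a') _ (h1 x' b'), σ_L a, σ_L a', θ_L a, θ_L a', one_mul, h2 x b, h2 x' b', h3 x b,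
      h3 x' b'] at e1 e2
    obtain rfl : x = x' := Prod.ext e1 e2
    simpa using e

variable [Finite G]

theorem Q_two (F : Fr G) : IsPGroup 2 F.Q := T_two _
theorem z_Q (F : Fr G) : F.z ∈ F.Q := self_le_T (two_zp F.z2) (mem_zpowers _)
theorem H_Q {x : G} (h : x ∈ F.Q) : F.H x := T_zp_comm F.z2 h
theorem H.conj_Q {h x : G} (a : F.H h) (hx : x ∈ F.Q) : h * x * h⁻¹ ∈ F.Q := (nm_zp a).T x hx
theorem H.conj_Q' {h x : G} (a : F.H h) (hx : x ∈ F.Q) : h⁻¹ * x * h ∈ F.Q := by simpa using a.inv.conj_Q hx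
theorem H.conj_Q_iff {h x : G} (a : F.H h) : h * x * h⁻¹ ∈ F.Q ↔ x ∈ F.Q :=
  ⟨fun k => by simpa [mul_assoc] using a.conj_Q' k, a.conj_Q⟩
/-- a 2-subgroup of `H` normalised by `H` lies in `Q` -/
theorem le_Q {Y : Subgroup G} (hY : IsPGroup 2 Y) (h1 : ∀ y ∈ Y, F.H y) (h2 : ∀ g, F.H g → Nm g Y) : Y ≤ F.Q :=
  le_T hY (fun y hy => nm_zp (h1 y hy)) fun g hg => h2 g (comm_of_nm_zp F.z2 hg)
theorem cent_Q (H : Ch2 G) {g : G} (h : ∀ x ∈ F.Q, Commute g x) : g ∈ F.Q :=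
  H.mem (two_zp F.z2) (by simpa using F.z_ne) h

end Fr

end H75.JT
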