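import Cfsg.Agent.Lib.J4T.Bas

/-! J4T: basic lemmas in the situation `St` -/

set_option autoImplicit false
set_option linter.unusedSectionVars false

namespace H75.JT

open Subgroup Matrix H75.L7 H75.JT.Fr

variable {G : Type*} [Group G] [Finite G]

namespace St

variable {S : St G}

theorem R_Q {x : G} (h : x ∈ S.Q) : S.R x := S.qs.QR x h
theorem K_Q {x : G} (h : x ∈ S.Q) : x ∈ S.K := (R_Q h).1
theorem σ_Q {x : G} (h : x ∈ S.Q) : S.σ x = 1 := (R_Q h).2.1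
theorem QL {l : G} (h : l ∈ S.L) : l ∈ S.Q ↔ S.φ l 2 = 0 := S.qs.QL l h
theorem ζ_Q (S : St G) (c : V3) : S.ζ c ∈ S.Q := (QL (S.ζ_mem c)).2 (by rw [φ_ζ]; rfl)
theorem blk_Q {h : G} (a : S.H h) (c : V3) : h * S.ζ c * h⁻¹ ∈ S.Q := a.conj_Q (S.ζ_Q c)
theorem cz_conj {x y : G} (hx : x ∈ S.Q) (hy : y ∈ S.Q) : S.Cz (x * y * x⁻¹) y := by
  simpa using (S.qs.cm x hx y hy).mul_right (H_Q hx).inv
theorem κ_Q {x : G} (h : x ∈ S.Q) : S.κ x = 0 := (S.κ_ker x (R_Q h)).2 h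
theorem κ_inv {r : G} (h : S.R r) : S.κ r⁻¹ = S.κ r :=
  V4_add_eq_zero.1 (by rw [← S.κ_mul _ _ h.inv h, inv_mul_cancel, κ_Q (one_mem _)])
theorem κ_sur (S : St G) (n : V4) : ∃ l ∈ S.L, S.κ l = n := by
  obtain ⟨l, hl, e⟩ := S.φ_sur ![0, 0, n]
  exact ⟨l, hl, by rw [S.κ_L l hl, e]; rfl⟩
theorem κ_eq {r r' : G} (h : S.R r) (h' : S.R r') : S.κ r = S.κ r' ↔ r'⁻¹ * r ∈ S.Q := by
  rw [← S.κ_ker _ (h'.inv.mul h), S.κ_mul _ _ h'.inv h, κ_inv h', V4_add_eq_zero, eq_comm]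
theorem R_sq {r : G} (h : S.R r) : r * r ∈ S.Q := by rw [← S.κ_ker _ (h.mul h), S.κ_mul _ _ h h, add_self2]
theorem R_comm {r s : G} (h : S.R r) (k : S.R s) : r * s * r⁻¹ * s⁻¹ ∈ S.Q := by
  rw [← S.κ_ker _ (((h.mul k).mul h.inv).mul k.inv), S.κ_mul _ _ ((h.mul k).mul h.inv) k.inv,
    S.κ_mul _ _ (h.mul k) h.inv, S.κ_mul _ _ h k, κ_inv h, κ_inv k, add_right_comm (S.κ r), add_self2, zero_add,
    add_self2]
theorem R_dec {r : G} (h : S.R r) : ∃ l ∈ S.L, ∃ x ∈ S.Q, r = l * x ∧ S.κ r = S.φ l 2 := by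
  obtain ⟨l, hl, e⟩ := S.κ_sur (S.κ r)
  exact ⟨l, hl, l⁻¹ * r, (κ_eq h (R_L hl)).1 e.symm, by group, by rw [← e, S.κ_L l hl]⟩
/-- the action of `R` on `Q ∩ L` modulo `z` -/
theorem act1 {r b : G} (h : S.R r) (hb : b ∈ S.L) (h2 : S.φ b 2 = 0) :
    S.Cz (r * b * r⁻¹) (b * S.ζ ![f (S.κ r) (S.φ b 1), f (S.κ r) (S.φ b 0), 0]) := by
  obtain ⟨l, hl, x, hx, rfl, e⟩ := R_dec h
  have a := (cz_conj hx ((QL hb).2 h2)).conj (H_L hl)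
  rw [conj_L hl hb] at a
  have a' : S.Cz (l * x * b * (l * x)⁻¹) (b * S.ζ (B (S.φ l) (S.φ b))) := by simpa [mul_assoc] using a
  refine a'.trans (Cz.mul_left (cz_ζ.2 ?_) b)
  rw [e]
  rcases F2_cases (f (S.φ l 0) (S.φ b 1) + f (S.φ l 1) (S.φ b 0)) with k | k
  · left; funext i; fin_cases i <;> simp [B, h2, k]
  · right; funext i; fin_cases i <;> simp [B, h2, k, e2]
/-- commutators of `Q` with `R` -/
theorem act2 {r x : G} {a b : F2} (h : S.R r) (hx : x ∈ S.Q) (e : S.θ x = tv a b) :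
    x * r * x⁻¹ * r⁻¹ ∈ S.L ∧ S.φ (x * r * x⁻¹ * r⁻¹) = ![a • S.κ r, b • S.κ r, 0] := by
  obtain ⟨l, hl, y, hy, rfl, e'⟩ := R_dec h
  have m := conj_mem_L (K_Q hx) hl
  have m' := mul_mem m (inv_mem hl)
  have c : S.Cz (x * (l * y) * x⁻¹ * (l * y)⁻¹) (x * l * x⁻¹ * l⁻¹) := by
    have := (((cz_conj hx hy).mul_right (H_Q hy).inv).mul_left (x * l * x⁻¹)).mul_right (H_L hl).inv
    simpa [mul_assoc] using this
  refine ⟨c.mem S.z_L m', ?_⟩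
  rw [c.φ m', S.φ_mul _ m _ (inv_mem hl), φ_inv hl, (R_Q hx).φ_conj e hl, e']
  funext i; fin_cases i <;> simp [add_right_comm _ _ (S.φ l _), add_self2]
theorem L_of_cent {x : G} (hx : x ∈ S.Q) (h : ∀ c, Commute x (S.ζ c)) : x ∈ S.L := (R_Q hx).L_of (of_cent h).2

/-- two blocks with a common element outside `⟨z⟩` are equal -/
theorem same {h h' : G} {c d : V3} (a : S.H h) (a' : S.H h') (hc : Out c) (e : h * S.ζ c * h⁻¹ = h' * S.ζ d * h'⁻¹) :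
    h'⁻¹ * h ∈ S.K := S.bl _ c d (a'.inv.mul a) hc (by
  calc _ = h'⁻¹ * (h * S.ζ c * h⁻¹) * h' := by group
    _ = _ := by rw [e]; group)
theorem blk_z {h : G} (a : S.H h) (c : V3) : h * S.ζ c * h⁻¹ * S.z = h * S.ζ (c + e2) * h⁻¹ := by
  rw [S.ζ_add, ← z_eq, mul_assoc, a.inv.eq]; group
theorem same' {h h' : G} {c d : V3} (a : S.H h) (a' : S.H h') (hc : Out c)
    (e : S.Cz (h * S.ζ c * h⁻¹) (h' * S.ζ d * h'⁻¹)) : h'⁻¹ * h ∈ S.K := by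
  rcases e with e | e
  exacts [same a a' hc e, same a a' hc (e.trans (blk_z a' d))]
/-- an element of `H` fixing an element of a block modulo `z` normalises the block -/
theorem stab {h g : G} {c : V3} (a : S.H h) (hg : S.H g) (hc : Out c)
    (e : S.Cz (g * (h * S.ζ c * h⁻¹) * g⁻¹) (h * S.ζ c * h⁻¹)) : h⁻¹ * g * h ∈ S.K := by
  have := same' (c := c) (d := c) (hg.mul a) a hc (by simpa [mul_assoc] using e)
  rwa [← mul_assoc] at this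
theorem blk_K {h k : G} (hk : k ∈ S.K) (c : V3) : h * k * S.ζ c * (h * k)⁻¹ = h * S.ζ (cf (S.θ k) *ᵥ c) * h⁻¹ := by
  rw [← S.ζ_conj k hk]; group
theorem out_K {k : G} (hk : k ∈ S.K) (a : S.H k) {c : V3} : Out (cf (S.θ k) *ᵥ c) ↔ Out c := by
  have e : ∀ d, cf (S.θ k) *ᵥ c = cf (S.θ k) *ᵥ d ↔ c = d := fun d => by
    rw [← S.ζ_eq, ← S.ζ_conj k hk, ← S.ζ_conj k hk, mul_left_inj, mul_right_inj, ζ_eq]
  have e1 := e 0
  have e3 := e e2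
  rw [mulVec_zero] at e1
  rw [(cf_e2 _ (S.θ_mem k hk)).2 ((H_iff hk).1 a)] at e3
  rw [Out, Out, Ne, Ne, e1, e3]
theorem cf_sur {k : G} (hk : k ∈ S.K) (d : V3) : ∃ c, cf (S.θ k) *ᵥ c = d :=
  ⟨cf (S.θ k⁻¹) *ᵥ d, by rw [mulVec_mulVec, ← cf_mul, θ_inv hk, cf_one, one_mulVec]⟩
theorem blk_mul (h : G) (c d : V3) : h * S.ζ (c + d) * h⁻¹ = h * S.ζ c * h⁻¹ * (h * S.ζ d * h⁻¹) := by
  rw [S.ζ_add]; group

theorem nb_symm {h : G} (a : S.Nb h) : S.Nb h⁻¹ := by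
  refine ⟨a.1.inv, fun k => a.2.1 (by simpa using inv_mem k), fun c => L_of_cent (blk_Q a.1.inv c) fun d => ?_⟩
  simpa [mul_assoc] using ((ζ_comm (a.2.2 d) c).symm.map (MulAut.conj h⁻¹))
theorem nb_two {h : G} (a : S.Nb h) (c : V3) : S.φ (h * S.ζ c * h⁻¹) 2 = 0 := (QL (a.2.2 c)).1 (blk_Q a.1 c)
theorem nb_ne {h : G} (a : S.Nb h) {c : V3} (hc : Out c) : S.φ (h * S.ζ c * h⁻¹) ≠ 0 := fun e => by
  obtain ⟨d, e⟩ := (S.φ_ker _ (a.2.2 c)).1 e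
  exact a.2.1 (S.bl h c d a.1 hc e)
theorem nb_add {h : G} (a : S.Nb h) (c d : V3) :
    S.φ (h * S.ζ (c + d) * h⁻¹) = S.φ (h * S.ζ c * h⁻¹) + S.φ (h * S.ζ d * h⁻¹) := by
  rw [blk_mul, S.φ_mul _ (a.2.2 c) _ (a.2.2 d)]
theorem nb_zero {h : G} (a : S.Nb h) {c : V3} (hc : ¬ Out c) : S.φ (h * S.ζ c * h⁻¹) = 0 := by
  rcases not_and_or.1 hc with e | e <;> rw [not_not.1 e]
  · simp [ζ_zero, φ_one]
  · rw [← z_eq, a.1.conj_z, z_eq, φ_ζ]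
theorem nb_right {h k : G} (a : S.Nb h) (hk : k ∈ S.K) (b : S.H k) : S.Nb (h * k) :=
  ⟨a.1.mul b, fun e => a.2.1 ((mul_mem_cancel_right hk).1 e), fun c => blk_K hk c ▸ a.2.2 _⟩
theorem nb_left {h k : G} (a : S.Nb h) (hk : k ∈ S.K) (b : S.H k) : S.Nb (k * h) :=
  ⟨b.mul a.1, fun e => a.2.1 ((mul_mem_cancel_left hk).1 e), fun c => by
    simpa [mul_assoc] using conj_mem_L hk (a.2.2 c)⟩
theorem φ_left {h k : G} (a : S.Nb h) (hk : k ∈ S.K) (c : V3) :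
    S.φ (k * h * S.ζ c * (k * h)⁻¹) = act (S.σ k) (S.θ k) (S.φ (h * S.ζ c * h⁻¹)) := by
  rw [← S.φ_conj k hk _ (a.2.2 c)]; simp [mul_assoc]
theorem ov_right {h k : G} {v : W} (a : S.Ov h v) (hk : k ∈ S.K) (b : S.H k) : S.Ov (h * k) v := by
  refine ⟨nb_right a.1 hk b, fun u => Iff.trans ⟨fun ⟨c, e⟩ => ⟨_, blk_K hk c ▸ e⟩, fun ⟨c, e⟩ => ?_⟩ (a.2 u)⟩
  obtain ⟨d, rfl⟩ := cf_sur hk c
  exact ⟨d, by rw [blk_K hk, e]⟩
theorem ov_left {h r : G} {v : W} (a : S.Ov h v) (hr : S.R r) : S.Ov (r * h) v := by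
  refine ⟨nb_left a.1 hr.K hr.H, fun u => Iff.trans (exists_congr fun c => ?_) (a.2 u)⟩
  obtain ⟨k, s, x, y, e⟩ := id hr
  rw [φ_left a.1 k, s, e, act_tv, nb_two a.1, smul_zero, smul_zero, add_zero, add_zero, ← nb_two a.1 c]
  exact Eq.congr_left (by funext i; fin_cases i <;> rfl)
theorem ov_of {h : G} {c : V3} (a : S.Nb h) (hc : Out c)
    (e : ∃ d, S.φ (h * S.ζ d * h⁻¹) = om (S.φ (h * S.ζ c * h⁻¹))) : S.Ov h (S.φ (h * S.ζ c * h⁻¹)) := by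
  obtain ⟨d, e⟩ := e
  have t := nb_two a c
  have n := nb_ne a hc
  have hd : Out d := by
    by_contra k
    rw [nb_zero a k] at e
    exact n (by rw [← om_cube (S.φ _), ← e]; decide)
  have z : ∀ {c d}, ¬ Out (c + d) → S.φ (h * S.ζ c * h⁻¹) = S.φ (h * S.ζ d * h⁻¹) := fun k =>
    W_add_eq_zero.1 (by rw [← nb_add a, nb_zero a k])
  have hcd : Out (c + d) := by
    by_contra k
    exact n (om_fix t ((z k).trans e).symm)
  have key : ∀ c d x : V3, Out c → Out d → Out (c + d) → ¬ Out x ∨ ¬ Out (x + c) ∨ ¬ Out (x + d) ∨ ¬ Out (x + (c + d)) := by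
    decide +kernel
  refine ⟨a, fun u => ⟨?_, ?_⟩⟩
  · rintro ⟨x, rfl⟩
    refine (key c d x hc hd hcd).imp (nb_zero a) (Or.imp z (Or.imp (fun k => (z k).trans e) fun k => ?_))
    rw [z k, nb_add a, e, om_om _ t]
  · rintro (rfl | rfl | rfl | rfl)
    exacts [⟨0, nb_zero a (by decide)⟩, ⟨c, rfl⟩, ⟨d, e⟩, ⟨c + d, by rw [nb_add a, e, om_om _ t]⟩]
theorem ov_ne {h : G} {v : W} (a : S.Ov h v) : v ≠ 0 := fun e => by
  have := (a.2 _).1 ⟨![1, 0, 0], rfl⟩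
  have n := nb_ne a.1 (c := ![1, 0, 0]) (by decide)
  rw [e, show om 0 = 0 by decide, show om 0 = 0 by decide] at this
  tauto
theorem ov_ex {h : G} {v : W} (a : S.Ov h v) : ∃ c, Out c ∧ S.φ (h * S.ζ c * h⁻¹) = v := by
  obtain ⟨c, e⟩ := (a.2 v).2 (.inr (.inl rfl))
  exact ⟨c, by_contra fun k => ov_ne a (e ▸ nb_zero a.1 k), e⟩
theorem mem_O {h : G} {c : V3} (a : S.H h) (hc : Out c) : h * S.ζ c * h⁻¹ ∈ S.O := ⟨h, c, a, hc, rfl⟩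
theorem O_conj {g b : G} (a : S.H g) (hb : b ∈ S.O) : g * b * g⁻¹ ∈ S.O := by
  obtain ⟨h, c, a', hc, rfl⟩ := hb
  exact ⟨g * h, c, a.mul a', hc, by group⟩
theorem O_Q {b : G} (hb : b ∈ S.O) : b ∈ S.Q := by
  obtain ⟨h, c, a', -, rfl⟩ := hb
  exact blk_Q a' c
theorem O_z {b : G} (hb : b ∈ S.O) : b * S.z ∈ S.O := by
  obtain ⟨h, c, a', hc, rfl⟩ := hb
  exact ⟨h, c + e2, a', by revert c; decide, blk_z a' c⟩

theorem H_ω (S : St G) : S.H S.ω := (H_iff S.ωK).2 (by rw [S.ωθ, ω0_two])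
theorem ω_ne (S : St G) : S.ω ≠ 1 := fun e => absurd (S.ωθ.symm.trans (e ▸ S.θ_one)) (by decide)
theorem ω_ord (S : St G) : orderOf S.ω = 3 := orderOf_eq_prime S.ω3 S.ω_ne
theorem ω_inv (S : St G) : S.ω⁻¹ = S.ω * S.ω := inv_eq_of_mul_eq_one_right (by rw [← S.ω3, pow_three])
theorem φ_ω {l : G} (h : l ∈ S.L) : S.φ (S.ω * l * S.ω⁻¹) = om (S.φ l) := by
  rw [S.φ_conj _ S.ωK l h, S.ωσ, S.ωθ, act_ω0]
theorem κ_ω {r : G} (h : S.R r) : S.κ (S.ω * r * S.ω⁻¹) = S.κ r := by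
  rw [S.κ_conj _ S.ωK S.H_ω r h, S.ωσ, one_mulVec]
/-- `ω` acts fixed point freely on `Q / ⟨z⟩` -/
theorem ω_fpf {x : G} (hx : x ∈ S.Q) (h : S.Cz (S.ω * x * S.ω⁻¹) x) : S.Cz x 1 := by
  obtain ⟨k, -, a, b, e⟩ := R_Q hx
  have tz : ∀ {x y}, y ∈ S.K → S.Cz x y → S.θ x = S.θ y := fun hy c => by
    rcases c with rfl | rfl
    exacts [rfl, by rw [S.θ_mul _ hy _ (S.LK S.z_L), θ_L S.z_L, mul_one]]
  have e1 := congrArg (· * S.θ S.ω) (tz k h)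
  rw [θ_conj S.ωK k, e, mul_assoc, θ_inv' S.ωK, mul_one, S.ωθ] at e1
  obtain ⟨rfl, rfl⟩ := (by decide +kernel : ∀ a b, ω0 * tv a b = tv a b * ω0 → a = 0 ∧ b = 0) a b e1
  have l := (R_Q hx).L_of (e.trans tv_zero)
  obtain ⟨c, rfl⟩ := (S.φ_ker x l).1 (om_fix ((QL l).1 hx) (by rw [← φ_ω l, h.φ l]))
  rw [S.ζ_conj _ S.ωK, S.ωθ, cz_ζ] at h
  rw [← S.ζ_zero, cz_ζ]
  exact (by decide +kernel : ∀ c : V3, cf ω0 *ᵥ c = c ∨ cf ω0 *ᵥ c = c + e2 → c = 0 ∨ c = 0 + e2) c h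

theorem es (S : St G) : H95.ES S.Q S.z where
  mem := S.z_Q
  ne_one := S.z_ne
  sq := S.z2
  central _ hx := H_Q hx
  comm x hx y hy := S.qs.cm x hx y hy
  nondeg x hx k := by
    have l := L_of_cent hx fun c => k _ (S.ζ_Q c)
    have t := (QL l).1 hx
    have : S.φ x = 0 := by
      have n : ∀ u : W, u 2 = 0 → f (S.φ x 0) (u 1) + f (S.φ x 1) (u 0) = 0 := fun u hu => by
        obtain ⟨y, hy, rfl⟩ := S.φ_sur u
        have := congrFun ((comm_iff l hy).1 (k y ((QL hy).2 hu))) 2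
        simpa [B] using this
      funext i
      by_contra c
      obtain ⟨m, hm⟩ := f_nd _ c
      fin_cases i
      · simpa [show f (S.φ x 0) m = 1 from hm] using n ![0, m, 0] rfl
      · simpa [show f (S.φ x 1) m = 1 from hm] using n ![m, 0, 0] rfl
      · exact c t
    obtain ⟨c, rfl⟩ := (S.φ_ker x l).1 this
    have n : ∀ a b, cf (tv a b) *ᵥ c = c := fun a b => by
      obtain ⟨y, hy, e⟩ := S.qs.Qs a b
      rw [← S.ζ_eq, ← e, ← S.ζ_conj y (K_Q hy), ← k y hy, mul_inv_cancel_right]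
    rw [ζ_one, z_eq, ζ_eq]
    exact (by decide +kernel : ∀ c : V3, (∀ a b, cf (tv a b) *ᵥ c = c) → c = 0 ∨ c = e2) c n
  nonab := by
    obtain ⟨y, hy, e⟩ := S.qs.Qs 1 0
    refine ⟨y, hy, _, S.ζ_Q ![1, 0, 0], fun k => ?_⟩
    have := conj_eq_of_comm k
    rw [S.ζ_conj y (K_Q hy), e, ζ_eq] at this
    revert this; decide +kernel

theorem card_Q (S : St G) : Nat.card S.Q = 2 ^ 13 := by
  choose x hx hx' using S.qs.Qs
  have e : (S.Q : Set G) = (fun p : G × F2 × F2 => p.1 * x p.2.1 p.2.2) ''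
      ({l | l ∈ S.L ∧ S.φ l ∈ {u : W | u 2 = 0}} ×ˢ Set.univ) := by
    ext y
    constructor
    · intro hy
      obtain ⟨k, s, a, b, e⟩ := R_Q hy
      obtain ⟨l, hl, e'⟩ := eq_mul_L k (K_Q (hx a b)) (s.trans (σ_Q (hx a b)).symm) (e.trans (hx' a b).symm)
      exact ⟨(l, a, b), ⟨⟨hl, (QL hl).1 ((mul_mem_cancel_right (hx a b)).1 (e' ▸ hy))⟩, trivial⟩, e'.symm⟩
    · rintro ⟨⟨l, a, b⟩, ⟨⟨hl, t⟩, -⟩, rfl⟩
      exact mul_mem ((QL hl).2 t) (hx a b)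
  have c : {u : W | u 2 = 0}.ncard = 256 := by
    have : {u : W | u 2 = 0} = Set.range fun p : V4 × V4 => ![p.1, p.2, 0] := by
      ext u
      exact ⟨fun h => ⟨(u 0, u 1), by funext i; fin_cases i <;> simp [show u 2 = 0 from h]⟩, fun ⟨p, e⟩ => e ▸ rfl⟩
    rw [this, Set.ncard_range_of_injective fun p p' e => Prod.ext (congrFun e 0) (congrFun e 1)]
    simp
  rw [← SetLike.coe_sort_coe, Nat.card_coe_set_eq, e, Set.InjOn.ncard_image, Set.ncard_prod, ncard_pre, c, Set.ncard_univ]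
  · simp
  · rintro ⟨l, a, b⟩ ⟨⟨hl, -⟩, -⟩ ⟨l', a', b'⟩ ⟨⟨hl', -⟩, -⟩ e
    have e1 := congrArg S.θ e
    simp only [S.θ_mul _ (S.LK hl) _ (K_Q (hx _ _)), S.θ_mul _ (S.LK hl') _ (K_Q (hx _ _)), θ_L hl, θ_L hl', one_mul,
      hx'] at e1
    obtain ⟨rfl, rfl⟩ := tv_inj _ _ _ _ e1
    simpa using e

/-- the centraliser of `ω` modulo `Q` in `H` -/
def M (S : St G) : Subgroup G where
  carrier := {h | S.H h ∧ h * S.ω * h⁻¹ * S.ω⁻¹ ∈ S.Q}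
  one_mem' := ⟨S.H_one, by simp⟩
  mul_mem' := by
    rintro g h ⟨a, b⟩ ⟨c, d⟩
    exact ⟨a.mul c, by simpa [mul_assoc] using mul_mem (a.conj_Q d) b⟩
  inv_mem' := by
    rintro g ⟨a, b⟩
    exact ⟨a.inv, by simpa [mul_assoc] using a.conj_Q' (inv_mem b)⟩
theorem mem_M {h : G} : h ∈ S.M ↔ S.H h ∧ h * S.ω * h⁻¹ * S.ω⁻¹ ∈ S.Q := Iff.rfl
/-- `Q⟨ω⟩` -/
def X (S : St G) : Subgroup G := S.Q ⊔ zpowers S.ω
theorem eqns_bas2 : True := by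
  have := @M.eq_1.{0}; have := @X.eq_1.{0}
  trivial
theorem n3_iff {h : G} : S.N3 h ↔ h * S.ω * h⁻¹ * S.ω⁻¹ ∈ S.Q ∨ h * S.ω * h⁻¹ * S.ω ∈ S.Q :=
  ⟨fun ⟨x, hx, e⟩ => e.imp (fun e => by simpa [e] using hx) fun e => by simpa [e] using hx,
    fun e => e.elim (fun e => ⟨_, e, .inl (by group)⟩) fun e => ⟨_, e, .inr (by group)⟩⟩
theorem conj_ωi {h : G} (e : h * S.ω * h⁻¹ * S.ω ∈ S.Q) : h * S.ω⁻¹ * h⁻¹ * S.ω⁻¹ ∈ S.Q := by
  simpa [mul_assoc] using S.H_ω.conj_Q (inv_mem e)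
theorem N3.mul {g h : G} (a : S.H g) (x : S.N3 g) (y : S.N3 h) : S.N3 (g * h) := by
  obtain ⟨p, hp, e⟩ := x
  obtain ⟨r, hr, e'⟩ := y
  have k : ∀ t, h * S.ω * h⁻¹ = r * t → g * h * S.ω * (g * h)⁻¹ = g * r * g⁻¹ * (g * t * g⁻¹) := fun t e => by
    calc _ = g * (h * S.ω * h⁻¹) * g⁻¹ := by group
      _ = _ := by rw [e]; group
  have i : ∀ t, g * S.ω * g⁻¹ = p * t → g * S.ω⁻¹ * g⁻¹ = t⁻¹ * p⁻¹ * t * t⁻¹ := fun t e => by
    calc _ = (g * S.ω * g⁻¹)⁻¹ := by group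
      _ = _ := by rw [e]; group
  have m := a.conj_Q hr
  rcases e' with e' | e' <;> rcases e with e | e
  · exact ⟨_, mul_mem m hp, .inl (by rw [k _ e', e, mul_assoc _ p])⟩
  · exact ⟨_, mul_mem m hp, .inr (by rw [k _ e', e, mul_assoc _ p])⟩
  · exact ⟨_, mul_mem m (S.H_ω.conj_Q' (inv_mem hp)), .inr (by rw [k _ e', i _ e, ← mul_assoc])⟩
  · exact ⟨_, mul_mem m (S.H_ω.inv.conj_Q' (inv_mem hp)), .inl (by rw [k _ e', i _ e, ← mul_assoc, inv_inv])⟩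
/-- a 3-element of `R ω^{±1}` lies in `Q ω^{±1}` -/
theorem Q_of_cube {r t : G} (h : S.R r) (ht : t = S.ω ∨ t = S.ω⁻¹) (e : (r * t) ^ 3 ∈ S.Q) : r ∈ S.Q := by
  have k : ∀ s, S.R s → S.R (t * s * t⁻¹) ∧ S.κ (t * s * t⁻¹) = S.κ s := fun s hs => by
    rcases ht with rfl | rfl
    · exact ⟨hs.conj S.ωK S.H_ω, κ_ω hs⟩
    · have := hs.conj (inv_mem S.ωK) S.H_ω.inv
      exact ⟨this, by rw [← κ_ω this]; simp [mul_assoc]⟩
  have t3 : t ^ 3 = 1 := by rcases ht with rfl | rfl <;> simp [S.ω3]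
  have : (r * t) ^ 3 = r * (t * r * t⁻¹) * (t * (t * r * t⁻¹) * t⁻¹) * t ^ 3 := by simp only [pow_succ]; group
  rw [this, t3, mul_one, ← S.κ_ker _ ((h.mul (k r h).1).mul (k _ (k r h).1).1),
    S.κ_mul _ _ (h.mul (k r h).1) (k _ (k r h).1).1, S.κ_mul _ _ h (k r h).1, (k _ (k r h).1).2, (k r h).2, add_self2,
    zero_add] at e
  exact (S.κ_ker r h).1 e
/-- an element of order 3 of `K ∩ H` with `σ = 1` and `θ` of order 3 lies in `Q ω^{±1}` -/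
theorem three {y : G} (hk : y ∈ S.K) (a : S.H y) (y3 : y ^ 3 = 1) (s : S.σ y = 1) (n : S.θ y ≠ 1) :
    ∃ x ∈ S.Q, y = x * S.ω ∨ y = x * S.ω⁻¹ := by
  have key : ∀ g ∈ GL3, g 2 = e2 → g * g * g = 1 → g ≠ 1 → (∃ a b, g * (ω0 * ω0) = tv a b) ∨ ∃ a b, g * ω0 = tv a b := by
    decide +kernel
  have c := θ_pow hk 3
  rw [y3, θ_one, pow_three'] at c
  rcases key _ (S.θ_mem y hk) ((H_iff hk).1 a) c.symm n with e | e
  · have r : S.R (y * S.ω⁻¹) := ⟨mul_mem hk (inv_mem S.ωK), by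
      rw [ω_inv, S.σ_mul _ hk _ (mul_mem S.ωK S.ωK), S.σ_mul _ S.ωK _ S.ωK, s, S.ωσ]; simp, by
      rwa [ω_inv, S.θ_mul _ hk _ (mul_mem S.ωK S.ωK), S.θ_mul _ S.ωK _ S.ωK, S.ωθ]⟩
    exact ⟨_, Q_of_cube r (.inl rfl) (by simp [y3]), .inl (by group)⟩
  · have r : S.R (y * S.ω) := ⟨mul_mem hk S.ωK, by rw [S.σ_mul _ hk _ S.ωK, s, S.ωσ, mul_one], by
      rwa [S.θ_mul _ hk _ S.ωK, S.ωθ]⟩
    exact ⟨_, Q_of_cube r (.inr rfl) (by simp [y3]), .inr (by group)⟩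
theorem n3_K {k : G} (hk : k ∈ S.K) (a : S.H k) : S.N3 k :=
  three (mul_mem (mul_mem hk S.ωK) (inv_mem hk)) (a.conj S.H_ω) (by rw [conj_pow, S.ω3]; group)
    (by rw [σ_conj hk S.ωK, S.ωσ, mul_one, σ_inv hk]) fun e => by
      rw [θ_conj hk S.ωK, S.ωθ] at e
      have := congrArg (fun x => S.θ k⁻¹ * x * S.θ k) e
      simp only [mul_one, θ_inv' hk, ← mul_assoc, one_mul] at this
      rw [mul_assoc, θ_inv' hk, mul_one] at this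
      exact absurd this (by decide)

end St

end H75.JT
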