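import Cfsg.Agent.Lib.J4T.FX

/-! J4T package LS: see blueprint/J4T/README.md -/

set_option autoImplicit false

namespace H75.JT

open Subgroup Matrix H75.L7

variable {G : Type*} [Group G] [Finite G]

theorem ls_card {β : Type*} {X Y : Subgroup G} (f : G → β) (S : Set β) (hS : S.Finite) (h1 : ∀ x ∈ X, f x ∈ S)
    (h2 : ∀ x ∈ X, ∀ y ∈ X, f x = f y → x⁻¹ * y ∈ Y) : Nat.card X ≤ S.ncard * Nat.card Y := by
  classical
  have : Finite S := hS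
  have k : ∀ s : β, ∃ r : G, (∃ x ∈ X, f x = s) → r ∈ X ∧ f r = s := fun s => by
    by_cases h : ∃ x ∈ X, f x = s
    · exact h.imp fun _ h _ => h
    · exact ⟨1, fun h' => absurd h' h⟩
  choose r hr using k
  rw [← Nat.card_coe_set_eq, ← Nat.card_prod]
  refine Nat.card_le_card_of_injective (fun x => (⟨f x, h1 x x.2⟩,
    ⟨(r (f x))⁻¹ * x, h2 _ (hr _ ⟨x, x.2, rfl⟩).1 _ x.2 (hr _ ⟨x, x.2, rfl⟩).2⟩)) fun x y e => ?_
  simp only [Prod.mk.injEq, Subtype.mk.injEq] at e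
  rw [e.1, mul_right_inj] at e
  exact Subtype.ext e.2

set_option synthInstance.maxSize 2000 in
set_option synthInstance.maxHeartbeats 200000 in
theorem ls_span : ∀ a b c : V3, a ≠ 0 → b ≠ 0 → a ≠ b → c ≠ 0 → c ≠ a → c ≠ b → c ≠ a + b → ∀ d : V3,
    (d = 0 ∨ d = a ∨ d = b ∨ d = a + b) ∨ d + c = 0 ∨ d + c = a ∨ d + c = b ∨ d + c = a + b := by
  decide +kernel

theorem ls_stab : ∀ a b : V3, a ≠ 0 → b ≠ 0 → a ≠ b →
    (GL3.filter fun t => cf t *ᵥ a = a ∧ cf t *ᵥ b = b).length ≤ 4 := by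
  decide +kernel

theorem ls_stab' {a b : V3} (ha : a ≠ 0) (hb : b ≠ 0) (n : a ≠ b) :
    {t | t ∈ GL3 ∧ cf t *ᵥ a = a ∧ cf t *ᵥ b = b}.ncard ≤ 4 := by
  refine le_trans ?_ ((List.toFinset_card_le _).trans (ls_stab a b ha hb n))
  rw [← Set.ncard_coe_finset]
  exact le_of_eq (congrArg _ (Set.ext fun t => by simp))

namespace Fr

variable {F : Fr G}

omit [Finite G] in
theorem ls_conj {g l : G} (h : g⁻¹ * l * g ∈ F.K) (c : V3) :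
    ∃ d, l * (g * F.ζ c * g⁻¹) * l⁻¹ = g * F.ζ d * g⁻¹ :=
  ⟨_, by rw [← F.ζ_conj _ h c]; group⟩

omit [Finite G] in
theorem ls_add (g : G) (c d : V3) : g * F.ζ (c + d) * g⁻¹ = g * F.ζ c * g⁻¹ * (g * F.ζ d * g⁻¹) := by
  rw [F.ζ_add]; group

omit [Finite G] in
theorem ls_φ {a l : G} (ha : a ∈ F.K) (hl : l ∈ F.L) : F.φ (a * l * a⁻¹) + F.φ l = F.φ (a * l * a⁻¹ * l⁻¹) := by
  rw [F.φ_mul _ (conj_mem_L ha hl) _ (inv_mem hl), φ_inv hl]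

theorem ls_AL {g : G} (h1 : ∀ l ∈ F.L, g * l * g⁻¹ ∈ F.K) (h2 : ∀ l ∈ F.L, g⁻¹ * l * g ∈ F.K) (c : V3) :
    g * F.ζ c * g⁻¹ ∈ F.L := by
  by_contra n
  have := fx1 (h1 _ (F.ζ_mem c)) n (by rw [← ls_add, add_self2, ζ_zero]; simp) le_rfl
    (Y := Set.range fun d => F.φ (g * F.ζ d * g⁻¹)) fun l hl => by
      obtain ⟨d, e⟩ := ls_conj (h2 l hl) c
      refine ⟨c + d, ?_⟩
      rw [ls_φ (h1 _ (F.ζ_mem c)) hl]
      show F.φ _ = _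
      rw [ls_add, ← e, show (g * F.ζ c * g⁻¹)⁻¹ = g * F.ζ c * g⁻¹ by
        conv_rhs => rw [← F.ζ_inv]
        group]
      simp only [mul_assoc]
  have k : (Set.range fun d => F.φ (g * F.ζ d * g⁻¹)).ncard ≤ 8 := by
    rw [← Set.image_univ]
    exact (Set.ncard_image_le).trans (by simp [Set.ncard_univ])
  rw [card_L] at this
  omega

theorem ls {g : G} (h1 : ∀ l ∈ F.L, g * l * g⁻¹ ∈ F.K) (h2 : ∀ l ∈ F.L, g⁻¹ * l * g ∈ F.K) : g ∈ F.K := by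
  have AL := ls_AL h1 h2
  by_contra gK
  obtain ⟨c, hc⟩ : ∃ c, F.φ (g * F.ζ c * g⁻¹) ≠ 0 := by
    by_contra n
    exact gK (F.nm g fun c => (F.φ_ker _ (AL c)).1 (by_contra fun m => n ⟨c, m⟩))
  have key : ∀ v, ∃ d, g * F.ζ d * g⁻¹ = F.ζ (B (F.φ (g * F.ζ c * g⁻¹)) v) := fun v => by
    obtain ⟨l, hl, rfl⟩ := F.φ_sur v
    obtain ⟨d, e⟩ := ls_conj (h2 l hl) c
    rw [conj_L hl (AL c), B_comm] at e
    exact ⟨c + d, by rw [ls_add, ← e, ← mul_assoc, ← ls_add, add_self2, ζ_zero]; simp⟩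
  obtain ⟨v, v', n1, n2, n3⟩ := fx_B hc
  obtain ⟨d, hd⟩ := key v
  obtain ⟨d', hd'⟩ := key v'
  have z1 : F.φ (g * F.ζ d * g⁻¹) = 0 := by rw [hd, φ_ζ]
  have z2 : F.φ (g * F.ζ d' * g⁻¹) = 0 := by rw [hd', φ_ζ]
  have ad : ∀ a b, F.φ (g * F.ζ (a + b) * g⁻¹) = F.φ (g * F.ζ a * g⁻¹) + F.φ (g * F.ζ b * g⁻¹) := fun a b => by
    rw [ls_add, F.φ_mul _ (AL a) _ (AL b)]
  have z0 : F.φ (g * F.ζ 0 * g⁻¹) = 0 := by simp [ζ_zero, φ_one]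
  have z3 : ∀ e, e = 0 ∨ e = d ∨ e = d' ∨ e = d + d' → F.φ (g * F.ζ e * g⁻¹) = 0 := by
    rintro _ (rfl | rfl | rfl | rfl)
    exacts [z0, z1, z2, by rw [ad, z1, z2, add_zero]]
  have hY : ∀ e, F.φ (g * F.ζ e * g⁻¹) ∈ ({0, F.φ (g * F.ζ c * g⁻¹)} : Set W) := fun e => by
    refine (ls_span d d' c (fun h => n1 ?_) (fun h => n2 ?_) (fun h => n3 ?_) (fun h => hc (h ▸ z0))
      (fun h => hc (h ▸ z1)) (fun h => hc (h ▸ z2)) (fun h => hc (z3 _ (by simp [h]))) e).imp (z3 e) fun h => ?_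
    · rw [← ζ_one (F := F), ← hd, h, ζ_zero]; simp
    · rw [← ζ_one (F := F), ← hd', h, ζ_zero]; simp
    · rw [← ζ_eq (F := F), ← hd, ← hd', h]
    · exact W_add_eq_zero.1 (by rw [← ad]; exact z3 _ h)
  have cY : ({0, F.φ (g * F.ζ c * g⁻¹)} : Set W).ncard ≤ 2 := (Set.ncard_insert_le _ _).trans (by simp)
  obtain ⟨L', hL'⟩ : ∃ L' : Subgroup G, L' = F.L.map (MulAut.conj g).toMonoidHom := ⟨_, rfl⟩
  have mem : ∀ x, x ∈ L' ↔ g⁻¹ * x * g ∈ F.L := fun x => hL' ▸ H95.mem_map_conj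
  have cL : Nat.card L' = 2 ^ 15 := by
    rw [hL', card_map_of_injective (MulAut.conj g).injective, card_L]
  have LK : L' ≤ F.K := fun x hx => by simpa [mul_assoc] using h1 _ ((mem x).1 hx)
  have sq : ∀ x ∈ L', x * x ∈ F.L := fun x hx => by
    have := AL (q (F.φ (g⁻¹ * x * g)))
    rw [← F.sq _ ((mem x).1 hx)] at this
    simpa [mul_assoc] using this
  have cm : ∀ x ∈ L', ∀ e, Commute x (g * F.ζ e * g⁻¹) := fun x hx e => by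
    have := (ζ_comm ((mem x).1 hx) e).eq
    calc x * (g * F.ζ e * g⁻¹) = g * (g⁻¹ * x * g * F.ζ e) * g⁻¹ := by group
      _ = _ := by rw [this]; group
  have val : ∀ a ∈ L', ∀ l ∈ F.L ⊓ L', F.φ (a * l * a⁻¹) + F.φ l ∈ ({0, F.φ (g * F.ζ c * g⁻¹)} : Set W) :=
    fun a ha l hl => by
      have e := conj_L ((mem a).1 ha) ((mem l).1 hl.2)
      have := hY (B (F.φ (g⁻¹ * a * g)) (F.φ (g⁻¹ * l * g)))
      rwa [ls_φ (LK ha) hl.1, show a * l * a⁻¹ * l⁻¹ =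
        g * (g⁻¹ * a * g * (g⁻¹ * l * g) * (g⁻¹ * a * g)⁻¹ * (g⁻¹ * l * g)⁻¹) * g⁻¹ by group, e,
        (ζ_comm ((mem l).1 hl.2) _).eq, mul_inv_cancel_right]
  obtain ⟨a, ha, aL⟩ : ∃ a ∈ L', a ∉ F.L := by
    by_contra n
    have e : L' = F.L := eq_of_le_of_card_ge (fun a ha => by_contra fun m => n ⟨a, ha, m⟩) (by rw [cL, card_L])
    obtain ⟨l, hl, rfl⟩ := F.φ_sur v
    exact n1 ((comm_iff (AL c) hl).1 (cm l (e ▸ hl) c).symm)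
  have c1 := fx1 (LK ha) aL (sq a ha) inf_le_left (val a ha)
  have θ1 : ∀ x ∈ L' ⊓ centralizer (F.Z : Set G), F.θ x = 1 := fun x hx =>
    (of_cent fun e => (mem_centralizer_iff.1 hx.2 _ ⟨e, rfl⟩).symm).2
  have c2 := ls_card (X := L') (Y := L' ⊓ centralizer (F.Z : Set G)) F.θ
    {t | t ∈ GL3 ∧ cf t *ᵥ B (F.φ (g * F.ζ c * g⁻¹)) v = B (F.φ (g * F.ζ c * g⁻¹)) v ∧
      cf t *ᵥ B (F.φ (g * F.ζ c * g⁻¹)) v' = B (F.φ (g * F.ζ c * g⁻¹)) v'} (Set.toFinite _)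
    (fun x hx => ⟨F.θ_mem x (LK hx), ζ_eq.1 (by rw [← F.ζ_conj x (LK hx), ← hd, conj_eq_of_comm (cm x hx d)]),
      ζ_eq.1 (by rw [← F.ζ_conj x (LK hx), ← hd', conj_eq_of_comm (cm x hx d')])⟩)
    fun x hx y hy e => mem_inf.2 ⟨mul_mem (inv_mem hx) hy, mem_centralizer_iff.2 (by
      rintro _ ⟨e', rfl⟩
      refine (cent_of (LK (mul_mem (inv_mem hx) hy)) ?_ e').eq.symm
      rw [F.θ_mul _ (inv_mem (LK hx)) _ (LK hy), ← e, θ_inv' (LK hx)])⟩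
  have c3 := ls_stab' n1 n2 n3
  have c4 := fx_sig (X := L' ⊓ centralizer (F.Z : Set G)) (Y := F.L ⊓ L') (fun x hx => LK hx.1)
    (fun x hx => by rw [← F.σ_mul _ (LK hx.1) _ (LK hx.1), σ_L (sq x hx.1)])
    fun x hx e => ⟨(F.ker x (LK hx.1)).2 ⟨e, θ1 x hx⟩, hx.1⟩
  have c5 : 2 ^ 13 ≤ Nat.card ↥(L' ⊓ centralizer (F.Z : Set G)) := by
    have := c2.trans (Nat.mul_le_mul_right _ c3)
    omega
  obtain ⟨b, hb, bL⟩ : ∃ b ∈ L' ⊓ centralizer (F.Z : Set G), b ∉ F.L := by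
    by_contra n
    have := card_le_of_le (show L' ⊓ centralizer (F.Z : Set G) ≤ F.L ⊓ L' from
      fun b hb => ⟨by_contra fun m => n ⟨b, hb, m⟩, hb.1⟩)
    omega
  have c6 := fx2 (LK hb.1) bL (sq b hb.1) (θ1 b hb) inf_le_left (val b hb.1)
  omega

theorem ls_sylow {T : Subgroup G} (hT : IsPGroup 2 T) (h : F.L ≤ T) : T ≤ F.K := by
  by_contra n
  obtain ⟨x, hx, xK, -, hn⟩ := H5.exists_mem_normalizer_of_lt hT
    (lt_of_le_of_ne (inf_le_left : T ⊓ F.K ≤ T) fun e => n (e ▸ inf_le_right))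
  exact xK ⟨hx, ls (fun l hl => (nm_of_mem hn l ⟨h hl, F.LK hl⟩).2) fun l hl => by
    simpa using (nm_of_mem (inv_mem hn) l ⟨h hl, F.LK hl⟩).2⟩

theorem exists_T (F : Fr G) : ∃ T : Sylow 2 G, (T : Subgroup G) ≤ F.K ∧ F.L ≤ T ∧ ∀ t ∈ (T : Subgroup G), F.H t := by
  obtain ⟨P, hP⟩ := F.L_two.exists_le_sylow
  have PK := ls_sylow P.isPGroup' hP
  obtain ⟨_, ⟨c, rfl⟩, hc, ho⟩ := H5.exists_mem_centralizer_orderOf_eq (N := F.Z) P.isPGroup'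
    (by rintro _ ⟨c, rfl⟩; exact hP (F.ζ_mem c))
    (fun k hk => Nm.mem (by rintro _ ⟨c, rfl⟩; exact ⟨_, (F.ζ_conj k (PK hk) c).symm⟩))
    fun e => F.z_ne (mem_bot.1 (e ▸ (⟨e2, rfl⟩ : F.z ∈ F.Z)))
  obtain ⟨k, hk, e⟩ := F.ex_conj_z (c := c) (by rintro rfl; simp [ζ_zero] at ho)
  have m : ∀ t, t ∈ ((k⁻¹ • P : Sylow 2 G) : Subgroup G) ↔ k * t * k⁻¹ ∈ (P : Subgroup G) := fun t => by
    rw [Sylow.coe_subgroup_smul, mem_pointwise_smul_iff_inv_smul_mem]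
    simp
  have hl : F.L ≤ (k⁻¹ • P : Sylow 2 G) := fun l hl => (m l).2 (hP (conj_mem_L hk hl))
  refine ⟨k⁻¹ • P, ls_sylow (Sylow.isPGroup' _) hl, hl, fun t ht => ?_⟩
  have := mem_centralizer_iff.1 hc _ ((m t).1 ht)
  rw [← e, conj_mul, conj_mul] at this
  exact (by simpa using this : t * F.z = F.z * t)

end Fr

end H75.JT
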