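import Cfsg.Agent.Lib.J4T.FX
import Cfsg.Agent.Lib.J4T.LS

/-! J4T package CI1: see blueprint/J4T/README.md -/

set_option autoImplicit false

namespace H75.JT

open Subgroup Matrix H75.L7

variable {G : Type*} [Group G] [Finite G]

theorem ci1_fix : ∀ t ∈ GL3, t * t = 1 → ∃ a b : V3, a ≠ 0 ∧ b ≠ 0 ∧ a ≠ b ∧ cf t *ᵥ a = a ∧ cf t *ᵥ b = b := by
  decide +kernel

theorem ci1_pig {β : Type*} (f : V3 → β) {S : Set β} (hS : S.Finite) (h : S.ncard ≤ 4) (hf : ∀ c, f c ∈ S) :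
    ∃ c d, c + d ≠ 0 ∧ f c = f d := by
  obtain ⟨c, -, d, -, n, e⟩ := Set.exists_ne_map_eq_of_ncard_lt_of_maps_to (s := Set.univ) (t := S) (f := f)
    (by rw [Set.ncard_univ]; simp; omega) (fun c _ => hf c) hS
  exact ⟨c, d, fun e => n (V3_add_eq_zero.1 e), e⟩

theorem ci1_four : ∀ i : Fin 3, (Finset.univ.filter fun b : V3 => b i = 0).card = 4 := by decide +kernel

theorem ci1_single (u : W) (i : Fin 3) (m : V4) : B u (Pi.single i m) i = 0 := by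
  fin_cases i <;> simp [B]

namespace Fr

variable {F : Fr G}

theorem ci_cent (hC : ∀ h, F.H h → h ∈ F.K) {h : G} {c : V3} (hc : c ≠ 0) (e : Commute h (F.ζ c)) : h ∈ F.K := by
  obtain ⟨k, hk, e'⟩ := F.ex_conj_z hc
  have : k⁻¹ * h * k ∈ F.K := hC _ (by
    show _ * _ = _ * _
    calc k⁻¹ * h * k * F.z = k⁻¹ * (h * (k * F.z * k⁻¹)) * k := by group
      _ = k⁻¹ * ((k * F.z * k⁻¹) * h) * k := by rw [e', e.eq]
      _ = _ := by group)
  simpa [mul_assoc] using mul_mem (mul_mem hk this) (inv_mem hk)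

theorem ci_ti (hC : ∀ h, F.H h → h ∈ F.K) {g : G} {c d : V3} (hc : c ≠ 0) (e : g * F.ζ c * g⁻¹ = F.ζ d) :
    g ∈ F.K := by
  obtain ⟨k, hk, e1⟩ := F.ex_conj_z hc
  obtain ⟨k', hk', e2⟩ := F.ex_conj_z (c := d) (by
    rintro rfl
    exact hc (ζ_one.1 (by simpa [ζ_zero] using e)))
  have : k'⁻¹ * g * k ∈ F.K := hC _ (comm_of_conj_eq (by
    calc _ = k'⁻¹ * (g * (k * F.z * k⁻¹) * g⁻¹) * k' := by group
      _ = _ := by rw [e1, e, ← e2]; group))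
  simpa [mul_assoc] using mul_mem (mul_mem hk' this) (inv_mem hk)

omit [Finite G] in
theorem ci1_sq (g : G) (c : V3) : g * F.ζ c * g⁻¹ * (g * F.ζ c * g⁻¹) = 1 := by
  rw [← ls_add, add_self2, ζ_zero]; simp

theorem ci1_cent (hC : ∀ h, F.H h → h ∈ F.K) {g x : G} {c : V3} (hc : c ≠ 0) (e : Commute x (g * F.ζ c * g⁻¹)) :
    g⁻¹ * x * g ∈ F.K := ci_cent hC hc (by
  show _ * _ = _ * _
  calc g⁻¹ * x * g * F.ζ c = g⁻¹ * (x * (g * F.ζ c * g⁻¹)) * g := by group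
    _ = _ := by rw [e.eq]; group)

/-- an element of `K'` that moves `a` by an element of `Z` commutes with `a` -/
theorem ci1_comm (hC : ∀ h, F.H h → h ∈ F.K) {g x : G} (gK : g ∉ F.K) (hx : g⁻¹ * x * g ∈ F.K) {c e : V3}
    (h : x * (g * F.ζ c * g⁻¹) * x⁻¹ = g * F.ζ c * g⁻¹ * F.ζ e) : e = 0 := by
  obtain ⟨d, hd⟩ := ls_conj hx c
  have k : g * F.ζ (c + d) * g⁻¹ = F.ζ e := by
    rw [ls_add, ← hd, h, ← mul_assoc, ci1_sq, one_mul]
  by_cases n : c + d = 0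
  · rw [n, ζ_zero] at k
    exact ζ_one.1 (by simpa using k.symm)
  · exact absurd (ci_ti hC n k) gK

theorem ci1_commZ (hC : ∀ h, F.H h → h ∈ F.K) {g : G} (gK : g ∉ F.K) {c e : V3} (h : g * F.ζ c * g⁻¹ ∈ F.K)
    (hx : g⁻¹ * F.ζ e * g ∈ F.K) : Commute (g * F.ζ c * g⁻¹) (F.ζ e) := by
  have k := F.ζ_conj _ (inv_mem h) e
  have := ci1_comm hC gK hx (c := c) (e := cf (F.θ (g * F.ζ c * g⁻¹)⁻¹) *ᵥ e + e) (by
    rw [F.ζ_add, ← k, F.ζ_inv]; group)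
  rw [V3_add_eq_zero.1 this] at k
  exact Commute.inv_left_iff.1 (comm_of_conj_eq k)

theorem ci1 (hC : ∀ h, F.H h → h ∈ F.K) {g : G} (h : ∀ c, g * F.ζ c * g⁻¹ ∈ F.K) : g ∈ F.K := by
  by_contra gK
  have n2 : e2 ≠ 0 := by decide
  have tsq : ∀ c, F.θ (g * F.ζ c * g⁻¹) * F.θ (g * F.ζ c * g⁻¹) = 1 := fun c => by
    rw [← F.θ_mul _ (h c) _ (h c), ci1_sq, θ_one]
  obtain ⟨a, b, a0, b0, ab, ha, hb⟩ := ci1_fix _ (F.θ_mem _ (h e2)) (tsq e2)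
  have fx : ∀ a, cf (F.θ (g * F.ζ e2 * g⁻¹)) *ᵥ a = a → ∀ c, cf (F.θ (g * F.ζ c * g⁻¹)) *ᵥ a = a := fun a ha c =>
    ζ_eq.1 (by
      rw [← F.ζ_conj _ (h c)]
      exact conj_eq_of_comm (ci1_commZ hC gK (h c)
        (ci1_cent hC n2 (comm_of_conj_eq (by rw [F.ζ_conj _ (h e2), ha])).symm)))
  obtain ⟨c, d, n, e⟩ := ci1_pig (fun c => F.θ (g * F.ζ c * g⁻¹)) (Set.toFinite _) (ls_stab' a0 b0 ab)
    fun c => ⟨F.θ_mem _ (h c), fx a ha c, fx b hb c⟩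
  have θ1 : ∀ c', F.θ (g * F.ζ c' * g⁻¹) = 1 := fun c' => (of_cent fun e' => ci1_commZ hC gK (h c')
    (ci1_cent hC n (cent_of (h _) (by rw [ls_add, F.θ_mul _ (h c) _ (h d), ← show _ = _ from e, tsq]) e').symm)).2
  have AL : ∀ c, g * F.ζ c * g⁻¹ ∈ F.L := fun c => by
    by_contra cL
    have c1 := fx_sig (X := F.Z.map (MulAut.conj g).toMonoidHom) (Y := F.Z.map (MulAut.conj g).toMonoidHom ⊓ F.L)
      (by rintro _ ⟨_, ⟨c, rfl⟩, rfl⟩; exact h c)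
      (by
        rintro _ ⟨_, ⟨c, rfl⟩, rfl⟩
        exact (F.σ_mul _ (h c) _ (h c)).symm.trans (by rw [ci1_sq, σ_one]))
      (by rintro _ ⟨_, ⟨c, rfl⟩, rfl⟩ e; exact ⟨⟨_, ⟨c, rfl⟩, rfl⟩, (F.ker _ (h c)).2 ⟨e, θ1 c⟩⟩)
    rw [card_map_of_injective (MulAut.conj g).injective, card_Z] at c1
    obtain ⟨⟨_, ⟨_, ⟨c0, rfl⟩, rfl⟩, hL⟩, n0⟩ := ne_bot_iff_exists_ne_one.1
      (show F.Z.map (MulAut.conj g).toMonoidHom ⊓ F.L ≠ ⊥ from fun e => by rw [e, card_bot] at c1; omega)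
    have c0n : c0 ≠ 0 := by
      rintro rfl
      exact n0 (Subtype.ext (by simp [ζ_zero]))
    have c2 := fx_cent hL
    have c3 := fx2 (h c) cL (by rw [ci1_sq]; exact one_mem _) (θ1 c)
      (X := F.L ⊓ centralizer {g * F.ζ c0 * g⁻¹}) inf_le_left
      (Y := (fun d => F.φ (g * F.ζ d * g⁻¹)) '' (Set.univ \ {c})) fun l hl => by
        obtain ⟨d, e⟩ := ls_conj (ci1_cent hC c0n (mem_cent.1 hl.2)) c
        have k : g * F.ζ (c + d) * g⁻¹ = g * F.ζ c * g⁻¹ * l * (g * F.ζ c * g⁻¹)⁻¹ * l⁻¹ := by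
          rw [ls_add, ← e, inv_eq_of_mul_eq_one_right (ci1_sq g c)]
          simp only [mul_assoc]
        refine ⟨c + d, ⟨trivial, fun m => cL ?_⟩, ?_⟩
        · rw [← show c + d = c from m, k]
          exact mul_mem (conj_mem_L (h c) hl.1) (inv_mem hl.1)
        · rw [ls_φ (h c) hl.1, ← k]
    have c4 : ((fun d => F.φ (g * F.ζ d * g⁻¹)) '' (Set.univ \ {c})).ncard ≤ 7 :=
      (Set.ncard_image_le).trans (by rw [Set.ncard_sdiff_singleton_of_mem (Set.mem_univ c), Set.ncard_univ]; simp)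
    exact absurd (c2.trans (c3.trans (Nat.mul_le_mul_left _ c4))) (by norm_num)
  have key : ∀ i m, B (F.φ (g * F.ζ e2 * g⁻¹)) (Pi.single i m) = 0 := fun i m => by
    obtain ⟨l, hl, e⟩ := F.φ_sur (Pi.single i m)
    obtain ⟨c, d, n, e'⟩ := ci1_pig (fun c => B (F.φ (g * F.ζ c * g⁻¹)) (Pi.single i m))
      (S := (Finset.univ.filter fun b : V3 => b i = 0 : Finset V3)) (Set.toFinite _)
      (by rw [Set.ncard_coe_finset, ci1_four]) fun c => by simp [ci1_single]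
    have k := ci1_cent hC n ((comm_iff (AL (c + d)) hl).2 (by
      rw [ls_add, F.φ_mul _ (AL c) _ (AL d), B_add_left, e, show _ = _ from e', add_self2])).symm
    rw [← e, B_comm]
    exact ci1_comm hC gK k (conj_L hl (AL e2))
  obtain ⟨d, e⟩ := (F.φ_ker _ (AL e2)).1 (B_nd fun v => by
    rw [← Finset.univ_sum_single v, Fin.sum_univ_three, B_add_right, B_add_right, key, key, key]; simp)
  exact gK (ci_ti hC n2 e)

end Fr

end H75.JT
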