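import Cfsg.Agent.Lib.J4T.CI1

/-! J4T package CI2: see blueprint/J4T/README.md -/

set_option autoImplicit false

namespace H75.JT

open Subgroup Matrix H75.L7

variable {G : Type*} [Group G] [Finite G]

set_option synthInstance.maxSize 2000 in
set_option synthInstance.maxHeartbeats 200000 in
theorem ci2_lin : ∀ a b : V3, a ≠ 0 → b ≠ 0 → a ≠ b → ∃ i, ∀ s ∈ GL3, cf s *ᵥ a = a → cf s *ᵥ b = b → s ≠ 1 →
    ∀ t ∈ GL3, cf t *ᵥ a = a → cf t *ᵥ b = b → t ≠ 1 → s ≠ t → ∀ x : V3, x i = 0 →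
    s i 0 * x 0 + s i 1 * x 1 + s i 2 * x 2 = 0 → t i 0 * x 0 + t i 1 * x 1 + t i 2 * x 2 = 0 → x = 0 := by
  decide +kernel

theorem ci2_fix : ∀ t ∈ GL3, t ≠ 1 → (Finset.univ.filter fun c : V3 => cf t *ᵥ c = c).card ≤ 4 := by
  decide +kernel

theorem ci2_row {s : M4} (hs : s ∈ SL) {g : M3} {u : W} {i : Fin 3} (h : act s g u = u) (e : u i = 0) (k : Fin 4) :
    g i 0 * u 0 k + g i 1 * u 1 k + g i 2 * u 2 k = 0 := by
  have := congrFun h i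
  rw [act_apply, e, ← mulVec_smul, ← mulVec_smul, ← mulVec_smul, ← mulVec_add, ← mulVec_add] at this
  exact congrFun (SL_inj hs (this.trans (mulVec_zero s).symm)) k

namespace Fr

variable {F : Fr G}

theorem ci2_Z {a : G} (ha : a ∈ F.K) (n : F.θ a ≠ 1) : Nat.card ↥(F.Z ⊓ centralizer {a}) ≤ 4 := by
  refine le_trans ?_ (ci2_fix _ (F.θ_mem a ha) n)
  rw [← Set.ncard_coe_finset]
  refine le_trans ?_ (Set.ncard_image_le (f := F.ζ))
  refine (Nat.card_coe_set_eq _).le.trans (Set.ncard_le_ncard ?_)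
  rintro _ ⟨⟨c, rfl⟩, h⟩
  exact ⟨c, by simpa using ζ_eq.1 (by rw [← F.ζ_conj a ha, conj_eq_of_comm (mem_cent.1 h).symm]), rfl⟩

theorem ci2_low {a : G} (ha : a ∈ F.K) (n : F.θ a ≠ 1) (aa : a * a = 1) :
    2 ^ 7 ≤ Nat.card ↥(F.L ⊓ centralizer {a}) := by
  let P : Subgroup G :=
    { carrier := {l | l ∈ F.L ∧ F.φ l ∈ {u | act (F.σ a) (F.θ a) u = u}}
      one_mem' := ⟨one_mem _, by rw [φ_one]; exact act_zero _ _⟩
      mul_mem' := fun {x y} p q => ⟨mul_mem p.1 q.1, by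
        rw [F.φ_mul _ p.1 _ q.1, Set.mem_ofPred_eq, act_add, show _ = _ from p.2, show _ = _ from q.2]⟩
      inv_mem' := fun {x} p => ⟨inv_mem p.1, by rw [φ_inv p.1]; exact p.2⟩ }
  have cP : Nat.card P = 8 * {u | act (F.σ a) (F.θ a) u = u}.ncard := (Nat.card_coe_set_eq _).trans (F.ncard_pre _)
  have c1 := ls_card (X := F.L) (Y := P) (fun l => act (F.σ a) (F.θ a) (F.φ l) + F.φ l)
    {u | act (F.σ a) (F.θ a) u = u} (Set.toFinite _) (fun l _ => by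
      rw [Set.mem_ofPred_eq, act_add, ← act_mul, ← F.σ_mul a ha a ha, ← F.θ_mul a ha a ha, aa, σ_one, θ_one,
        act_one_one, add_comm]) fun x hx y hy e => ⟨mul_mem (inv_mem hx) hy, by
      rw [F.φ_mul _ (inv_mem hx) _ hy, φ_inv hx, Set.mem_ofPred_eq, act_add, ← W_add_eq_zero, add_add_add_comm,
        show _ = _ from e, W_add_self]⟩
  have ai : a⁻¹ = a := inv_eq_of_mul_eq_one_right aa
  have c2 := ls_card (X := P) (Y := F.L ⊓ centralizer {a}) (fun l => a * l * a⁻¹ * l⁻¹)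
    (F.Z ⊓ centralizer {a} : Subgroup G) (Set.toFinite _) (fun l hl => by
      obtain ⟨c, e⟩ := (F.φ_ker _ (mul_mem (conj_mem_L ha hl.1) (inv_mem hl.1))).1 (by
        rw [← ls_φ ha hl.1, F.φ_conj a ha l hl.1, show _ = _ from hl.2, W_add_self])
      refine ⟨⟨c, e.symm⟩, mem_cent.2 (comm_of_conj_eq ?_).symm⟩
      calc a * (a * l * a⁻¹ * l⁻¹) * a⁻¹ = a * a * (a * l * a * l⁻¹)⁻¹ := by group
        _ = (a * l * a⁻¹ * l⁻¹)⁻¹ := by rw [aa, one_mul, ai]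
        _ = _ := by rw [e, ζ_inv])
    fun x hx y hy e => mem_inf.2 ⟨mul_mem (inv_mem hx.1) hy.1, mem_cent.2 (by
      show _ * _ = _ * _
      calc x⁻¹ * y * a = x⁻¹ * (a * y * a⁻¹ * y⁻¹)⁻¹ * (a * y) := by group
        _ = _ := by rw [← show _ = _ from e]; group)⟩
  have c3 := ci2_Z ha n
  rw [← Nat.card_coe_set_eq] at c2
  rw [card_L, cP] at c1
  have c4 : 2 ^ 6 ≤ {u | act (F.σ a) (F.θ a) u = u}.ncard := by nlinarith
  have := c2.trans (Nat.mul_le_mul_right _ c3)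
  omega

theorem ci2 (hC : ∀ h, F.H h → h ∈ F.K) {g : G} {c : V3} (hc : c ≠ 0) (h : g * F.ζ c * g⁻¹ ∈ F.K) : g ∈ F.K := by
  by_contra gK
  have θ1 : ∀ d, g * F.ζ d * g⁻¹ ∈ F.K → F.θ (g * F.ζ d * g⁻¹) = 1 → d = 0 := fun d hd e => by
    by_contra n
    exact gK (inv_mem_iff.1 (ci1 hC fun c => by simpa using ci1_cent hC n (cent_of hd e c).symm))
  have tsq : ∀ {x}, x ∈ F.K → x * x = 1 → F.θ x * F.θ x = 1 := fun hx e => by rw [← F.θ_mul _ hx _ hx, e, θ_one]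
  have cm : ∀ {x a}, x ∈ F.K → cf (F.θ x) *ᵥ a = a → Commute x (F.ζ a) := fun hx e =>
    comm_of_conj_eq (by rw [F.ζ_conj _ hx, e])
  obtain ⟨a, b, a0, b0, ab, ha, hb⟩ := ci1_fix _ (F.θ_mem _ h) (tsq h (ci1_sq g c))
  have ka := ci1_cent hC hc (cm h ha).symm
  have kb := ci1_cent hC hc (cm h hb).symm
  obtain ⟨d, e, d0, e0, de, hd, he⟩ := ci1_fix _ (F.θ_mem _ ka) (tsq ka (by simpa using ci1_sq (F := F) g⁻¹ a))
  have mK : ∀ d, cf (F.θ (g⁻¹ * F.ζ a * g)) *ᵥ d = d → g * F.ζ d * g⁻¹ ∈ F.K := fun d hd => ci_cent hC a0 (by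
    show _ * _ = _ * _
    calc g * F.ζ d * g⁻¹ * F.ζ a = g * (F.ζ d * (g⁻¹ * F.ζ a * g)) * g⁻¹ := by group
      _ = _ := by rw [← (cm ka hd).eq]; group)
  have dK := mK d hd
  have eK := mK e he
  have fx : ∀ {d a}, g * F.ζ d * g⁻¹ ∈ F.K → g⁻¹ * F.ζ a * g ∈ F.K → cf (F.θ (g * F.ζ d * g⁻¹)) *ᵥ a = a :=
    fun p q => ζ_eq.1 (by rw [← F.ζ_conj _ p, conj_eq_of_comm (ci1_commZ hC gK p q)])
  obtain ⟨i, hi⟩ := ci2_lin a b a0 b0 ab
  have dn : F.θ (g * F.ζ d * g⁻¹) ≠ 1 := fun m => d0 (θ1 d dK m)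
  have lin := hi _ (F.θ_mem _ dK) (fx dK ka) (fx dK kb) dn _ (F.θ_mem _ eK) (fx eK ka) (fx eK kb)
    (fun m => e0 (θ1 e eK m)) fun m => de (V3_add_eq_zero.1 (θ1 _ (by rw [ls_add]; exact mul_mem dK eK) (by
      rw [ls_add, F.θ_mul _ dK _ eK, ← m, tsq dK (ci1_sq g d)])))
  have c1 := ci2_low dK dn (ci1_sq g d)
  have c2 := ci2_Z dK dn
  have c3 := ls_card (X := F.L ⊓ centralizer {g * F.ζ d * g⁻¹}) (Y := F.Z ⊓ centralizer {g * F.ζ d * g⁻¹})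
    (fun l => F.φ l i) Set.univ (Set.toFinite _) (fun _ _ => trivial) fun x hx y hy m => by
      have hl := mul_mem (inv_mem hx) hy
      have z : F.φ (x⁻¹ * y) i = 0 := by
        rw [F.φ_mul _ (inv_mem hx.1) _ hy.1, φ_inv hx.1, Pi.add_apply, show _ = _ from m, add_self2]
      obtain ⟨e', k⟩ := ls_conj (ci1_cent hC d0 (mem_cent.1 hl.2)) e
      have k' : e' + e = 0 := by
        have : g * F.ζ (e' + e) * g⁻¹ ∈ F.L := by
          rw [ls_add, ← k, mul_assoc, mul_assoc, ← mul_assoc _ _ (g * F.ζ e * g⁻¹)]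
          refine mul_mem hl.1 ?_
          simpa only [inv_eq_of_mul_eq_one_right (ci1_sq g e)] using conj_mem_L eK (inv_mem hl.1)
        exact θ1 _ (F.LK this) (θ_L this)
      rw [V3_add_eq_zero.1 k'] at k
      have f1 := F.φ_conj _ dK _ hl.1
      have f2 := F.φ_conj _ eK _ hl.1
      rw [conj_eq_of_comm (mem_cent.1 hl.2).symm] at f1
      rw [conj_eq_of_comm (comm_of_conj_eq k).symm] at f2
      obtain ⟨c', p⟩ := (F.φ_ker _ hl.1).1 (funext fun j => funext fun k => congrFun (lin (fun j => F.φ (x⁻¹ * y) j k)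
        (congrFun z k) (ci2_row (F.σ_mem _ dK) f1.symm z k) (ci2_row (F.σ_mem _ eK) f2.symm z k)) j)
      exact mem_inf.2 ⟨⟨c', p.symm⟩, hl.2⟩
  rw [Set.ncard_univ, show Nat.card V4 = 16 by simp] at c3
  omega

end Fr

end H75.JT
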