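import Cfsg.Agent.Lib.J4T.CI2
import Cfsg.Agent.Lib.J4T.LS

/-! J4T package CI3: see blueprint/J4T/README.md -/

set_option autoImplicit false

namespace H75.JT

open Subgroup Matrix H75.L7

variable {G : Type*} [Group G] [Finite G]

theorem ci3_dih {a b : G} (ha : a * a = 1) (hb : b * b = 1) (h : ∀ g : G, g * a * g⁻¹ ≠ b) :
    ∃ i : G, i * i = 1 ∧ i ≠ 1 ∧ Commute i a ∧ Commute i b := by
  have ia : a⁻¹ = a := inv_eq_of_mul_eq_one_right ha
  have ib : b⁻¹ = b := inv_eq_of_mul_eq_one_right hb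
  have e1 : a * (a * b) * a⁻¹ = (a * b)⁻¹ := by
    rw [← mul_assoc, ha, one_mul, _root_.mul_inv_rev, ib]
  have ek : ∀ k : ℕ, a * (a * b) ^ k * a⁻¹ = ((a * b) ^ k)⁻¹ := fun k => by
    rw [← conj_pow, e1, inv_pow]
  have hr : b = a * (a * b) := by rw [← mul_assoc, ha, one_mul]
  have hn := pow_orderOf_eq_one (a * b)
  have h0 := orderOf_pos (a * b)
  have hd := @orderOf_dvd_iff_pow_eq_one _ _ (a * b)
  generalize a * b = r at *
  rcases Nat.even_or_odd' (orderOf r) with ⟨m, hm | hm⟩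
  · have i2 : r ^ m * r ^ m = 1 := by rw [← pow_add, ← two_mul, ← hm, hn]
    have ca : Commute (r ^ m) a := by
      have := ek m
      rw [inv_eq_of_mul_eq_one_right i2, mul_inv_eq_iff_eq_mul] at this
      exact this.symm
    refine ⟨r ^ m, i2, fun e => ?_, ca, hr ▸ ca.mul_right (Commute.self_pow r m).symm⟩
    have := Nat.le_of_dvd (by omega) (hd.2 e)
    omega
  · refine absurd ?_ (h (r ^ m))
    have e2 : r ^ m * r ^ m * r = 1 := by rw [← pow_add, ← two_mul, ← pow_succ, ← hm, hn]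
    have e3 : r ^ m * a = a * (r ^ m)⁻¹ := by
      rw [← ek m, ← mul_assoc, ← mul_assoc, ha, one_mul, ia]
    rw [e3, hr, mul_assoc, ← _root_.mul_inv_rev, inv_eq_of_mul_eq_one_right e2]

namespace Fr

variable {F : Fr G}

theorem ci3_fix {s : G} (hs : s ∈ F.K) (s2 : s * s = 1) : ∃ c, c ≠ 0 ∧ Commute (F.ζ c) s := by
  have e := F.ζ_conj s hs e2
  generalize cf (F.θ s) *ᵥ e2 = d at e
  by_cases h : e2 + d = 0
  · rw [V3_add_eq_zero] at h
    exact ⟨e2, by decide, (comm_of_conj_eq (e.trans (by rw [h]))).symm⟩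
  · refine ⟨e2 + d, h, (comm_of_conj_eq ?_).symm⟩
    have e' : s * F.ζ d * s⁻¹ = F.ζ e2 := by
      rw [← e, inv_eq_of_mul_eq_one_right s2]
      calc s * (s * F.ζ e2 * s) * s = s * s * F.ζ e2 * (s * s) := by group
        _ = F.ζ e2 := by rw [s2, one_mul, mul_one]
    calc s * F.ζ (e2 + d) * s⁻¹ = s * F.ζ e2 * s⁻¹ * (s * F.ζ d * s⁻¹) := by rw [F.ζ_add]; group
      _ = F.ζ (e2 + d) := by rw [e, e', ← F.ζ_add, add_comm]

theorem ci3_cent (H : Ch2 G) (hC : ∀ h, F.H h → h ∈ F.K) {s x : G} (hs : s ∈ F.K) (s2 : s * s = 1)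
    (s1 : s ≠ 1) (hx : Commute x s) : x ∈ F.K := by
  obtain ⟨c, c0, hc⟩ := ci3_fix hs s2
  have nz : Nm (F.ζ c) (T (zpowers s)) := (nm_zp hc).T
  obtain ⟨T0, hT, -, -⟩ := F.exists_T
  obtain ⟨P, hP⟩ := ((two_zp (F.ζ_sq c)).to_sup_of_normal_right' (T_two (zpowers s))
    (zp_le nz)).exists_le_sylow
  obtain ⟨h, rfl⟩ := MulAction.exists_smul_eq G T0 P
  have key : ∀ y ∈ zpowers (F.ζ c) ⊔ T (zpowers s), h⁻¹ * y * h⁻¹⁻¹ ∈ F.K := fun y hy => by
    have := hP hy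
    rw [Sylow.coe_subgroup_smul, Subgroup.mem_pointwise_smul_iff_inv_smul_mem] at this
    exact hT (by simpa using this)
  have hK : h⁻¹ ∈ F.K := ci2 hC c0 (key _ (mem_sup_left (mem_zpowers _)))
  have OK : ∀ o ∈ T (zpowers s), o ∈ F.K := fun o ho => by
    have := mul_mem (mul_mem (inv_mem hK) (key o (mem_sup_right ho))) hK
    simpa [mul_assoc] using this
  obtain ⟨d, d0, hd⟩ : ∃ d, d ≠ 0 ∧ F.ζ d ∈ T (zpowers s) := by
    by_contra hn
    refine hn ⟨c, c0, H.mem (two_zp s2) (by simpa using s1) fun o ho => ?_⟩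
    have e := F.ζ_conj o (OK o ho) c
    generalize cf (F.θ o) *ᵥ c = d at e
    by_cases h0 : d + c = 0
    · rw [V3_add_eq_zero] at h0
      exact (comm_of_conj_eq (e.trans (by rw [h0]))).symm
    · refine absurd ⟨d + c, h0, ?_⟩ hn
      have := mul_mem ho (nz _ (inv_mem ho))
      rw [F.ζ_inv] at this
      rw [F.ζ_add, ← e]
      simpa only [mul_assoc] using this
  exact ci2 hC d0 (OK _ ((nm_zp hx).T _ hd))

theorem ci3 [IsSimpleGroup G] (F : Fr G) (H : Ch2 G) : ∃ h, F.H h ∧ h ∉ F.K := by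
  by_contra hn
  have hC : ∀ h, F.H h → h ∈ F.K := fun h a => by_contra fun b => hn ⟨h, a, b⟩
  obtain ⟨s, sL, hs⟩ := F.φ_sur ![![1, 0, 0, 0], 0, 0]
  have s2 : s * s = 1 := by rw [F.sq s sL, hs, ζ_one]; decide
  have sZ : ∀ c, s ≠ F.ζ c := fun c e => by
    rw [e, φ_ζ] at hs
    exact absurd hs (by decide)
  obtain ⟨g, hg⟩ : ∃ g, g ∉ F.K := by
    by_contra h
    have h : ∀ g, g ∈ F.K := fun g => by_contra fun b => h ⟨g, b⟩
    have hN : F.Z.Normal := ⟨fun x hx g => by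
      obtain ⟨c, rfl⟩ := mem_Z.1 hx
      exact mem_Z.2 ⟨_, (F.ζ_conj g (h g) c).symm⟩⟩
    rcases hN.eq_bot_or_eq_top with e | e
    · exact F.z_ne (mem_bot.1 (e ▸ mem_Z.2 ⟨e2, rfl⟩))
    · obtain ⟨c, hc⟩ := mem_Z.1 (e ▸ mem_top s : s ∈ F.Z)
      exact sZ c hc.symm
  have e0 : e2 ≠ 0 := by decide
  obtain ⟨i, i2, i1, c1, c2⟩ := ci3_dih (a := g * F.ζ e2 * g⁻¹) (b := s)
    (by rw [conj_mul, F.ζ_sq]; simp) s2 fun x e => by
      have e' : x * g * F.ζ e2 * (x * g)⁻¹ = s := by rw [← e]; group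
      exact sZ _ (e'.symm.trans (F.ζ_conj _ (ci2 hC e0 (e' ▸ F.LK sL)) _))
  have s1 : s ≠ 1 := F.ζ_zero ▸ sZ 0
  exact hg (ci2 hC e0 (ci3_cent H hC (ci3_cent H hC (F.LK sL) s2 s1 c2) i2 i1 c1.symm))

end Fr

end H75.JT
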