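import Cfsg.Agent.Lib.J4T.Bas2

/-! J4T package CM: see blueprint/J4T/README.md -/

set_option autoImplicit false

namespace H75.JT

open Subgroup Matrix H75.L7 H75.JT.Fr

variable {G : Type*} [Group G] [Finite G]

omit [Finite G] in
theorem cm_orb (C : Subgroup G) (a : G) :
    {b | ∃ c ∈ C, b = c * a * c⁻¹}.ncard * {c | c ∈ C ∧ c * a * c⁻¹ = a}.ncard = Nat.card C := by
  let C' : Subgroup (ConjAct G) := C
  have h := (MulAction.stabilizer C' a).index_mul_card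
  rw [MulAction.index_stabilizer] at h
  have e1 : MulAction.orbit C' a = {b | ∃ c ∈ C, b = c * a * c⁻¹} := by
    ext b
    constructor
    · rintro ⟨⟨c, hc⟩, rfl⟩
      exact ⟨c, hc, rfl⟩
    · rintro ⟨c, hc, rfl⟩
      exact ⟨⟨c, hc⟩, rfl⟩
  have e2 : Nat.card (MulAction.stabilizer C' a) = {c | c ∈ C ∧ c * a * c⁻¹ = a}.ncard := by
    rw [← Nat.card_coe_set_eq]
    exact Nat.card_congr ⟨fun x => ⟨x.1.1, x.1.2, x.2⟩, fun y => ⟨⟨y.1, y.2.1⟩, y.2.2⟩, fun _ => rfl, fun _ => rfl⟩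
  rw [e1, e2] at h
  exact h

theorem cm_list {α : Type} {l : List α} (h : l.Nodup) : {s | s ∈ l}.ncard = l.length := by
  classical
  rw [← List.coe_toFinset, Set.ncard_coe_finset, List.toFinset_card_of_nodup h]

omit [Finite G] in
theorem cm_cnt (F : Fr G) (p : M3 → Prop) [DecidablePred p] :
    {k | k ∈ F.K ∧ p (F.θ k)}.ncard = 2 ^ 15 * (120 * (GL3.filter p).length) := by
  have h := F.ncard_preK ({s | s ∈ SL} ×ˢ {g | g ∈ GL3.filter p}) fun x hx =>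
    ⟨hx.1, List.mem_of_mem_filter hx.2⟩
  rw [Set.ncard_prod, cm_list SL_nodup, cm_list (GL_nodup.filter _), SL_length] at h
  rw [← h]
  congr 1
  ext k
  constructor
  · rintro ⟨a, b⟩
    exact ⟨a, F.σ_mem k a, List.mem_filter.2 ⟨F.θ_mem k a, decide_eq_true b⟩⟩
  · rintro ⟨a, -, b⟩
    exact ⟨a, of_decide_eq_true (List.mem_filter.1 b).2⟩

namespace St

variable {S : St G}

theorem mem_X {x : G} : x ∈ S.X ↔ ∃ y ∈ S.Q, ∃ i : ℕ, x = y * S.ω ^ i := by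
  have hp : ∀ i : ℕ, S.H (S.ω ^ i) := fun i => Commute.pow_left S.H_ω i
  constructor
  · intro hx
    let Y : Subgroup G :=
      { carrier := {x | ∃ y ∈ S.Q, ∃ i : ℕ, x = y * S.ω ^ i}
        one_mem' := ⟨1, one_mem _, 0, by simp⟩
        mul_mem' := by
          rintro _ _ ⟨y, hy, i, rfl⟩ ⟨y', hy', j, rfl⟩
          exact ⟨y * (S.ω ^ i * y' * (S.ω ^ i)⁻¹), mul_mem hy ((hp i).conj_Q hy'), i + j, by
            rw [pow_add]; group⟩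
        inv_mem' := by
          rintro _ ⟨y, hy, i, rfl⟩
          refine ⟨(S.ω ^ i)⁻¹ * y⁻¹ * S.ω ^ i, (hp i).conj_Q' (inv_mem hy), 2 * i, ?_⟩
          have : S.ω ^ i * S.ω ^ (2 * i) = 1 := by
            rw [← pow_add, show i + 2 * i = 3 * i by ring, pow_mul, S.ω3, one_pow]
          rw [mul_assoc, this, mul_one, _root_.mul_inv_rev] }
    have : S.X ≤ Y := sup_le (fun y hy => ⟨y, hy, 0, by simp⟩)
      (zpowers_le.2 ⟨1, one_mem _, 1, by simp⟩)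
    exact this hx
  · rintro ⟨y, hy, i, rfl⟩
    exact mul_mem (mem_sup_left hy) (mem_sup_right (pow_mem (mem_zpowers _) i))

theorem X_le_M (S : St G) : S.X ≤ S.M := by
  refine sup_le (fun x hx => ⟨H_Q hx, ?_⟩) (zpowers_le.2 ⟨S.H_ω, by simp⟩)
  have := mul_mem hx (S.H_ω.conj_Q (inv_mem hx))
  simpa [mul_assoc] using this

theorem X_le_K (S : St G) : S.X ≤ S.K := sup_le (fun _ hx => K_Q hx) (zpowers_le.2 S.ωK)

theorem nm_X {h : G} (a : S.H h) (b : S.N3 h) : Nm h S.X := by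
  intro x hx
  obtain ⟨y, hy, i, rfl⟩ := mem_X.1 hx
  have w : S.ω ∈ S.X := mem_sup_right (mem_zpowers _)
  have e : h * S.ω * h⁻¹ ∈ S.X := by
    obtain ⟨p, hp, e | e⟩ := b
    · rw [e]; exact mul_mem (mem_sup_left hp) w
    · rw [e]; exact mul_mem (mem_sup_left hp) (inv_mem w)
  have : h * (y * S.ω ^ i) * h⁻¹ = h * y * h⁻¹ * (h * S.ω * h⁻¹) ^ i := by rw [conj_pow]; group
  rw [this]
  exact mul_mem (mem_sup_left (a.conj_Q hy)) (pow_mem e i)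

theorem card_X (S : St G) : Nat.card S.X = 3 * 2 ^ 13 := by
  have c3 : Nat.card (zpowers S.ω) = 3 := by rw [Nat.card_zpowers, S.ω_ord]
  have d : ∀ x ∈ S.Q, x ∈ zpowers S.ω → x = 1 := fun x h1 h2 => by
    have a1 := S.Q.orderOf_dvd_natCard h1
    have a2 := (zpowers S.ω).orderOf_dvd_natCard h2
    rw [S.card_Q] at a1
    rw [c3] at a2
    exact orderOf_eq_one_iff.1 (Nat.eq_one_of_dvd_coprimes (by norm_num) a1 a2)
  rw [← c3, ← S.card_Q, mul_comm, ← Nat.card_prod]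
  symm
  refine Nat.card_eq_of_bijective (fun p => ⟨p.1.1 * p.2.1, mul_mem (mem_sup_left p.1.2) (mem_sup_right p.2.2)⟩)
    ⟨?_, ?_⟩
  · rintro ⟨⟨y, hy⟩, w, hw⟩ ⟨⟨y', hy'⟩, w', hw'⟩ e
    have e1 : y * w = y' * w' := congrArg Subtype.val e
    have e2 : y'⁻¹ * y = w' * w⁻¹ := by
      rw [inv_mul_eq_iff_eq_mul, ← mul_assoc, ← e1, mul_inv_cancel_right]
    have e3 := d _ (mul_mem (inv_mem hy') hy) (e2 ▸ mul_mem hw' (inv_mem hw))
    obtain rfl : y' = y := inv_mul_eq_one.1 e3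
    obtain rfl : w = w' := mul_left_cancel e1
    rfl
  · rintro ⟨x, hx⟩
    obtain ⟨y, hy, i, rfl⟩ := mem_X.1 hx
    exact ⟨(⟨y, hy⟩, ⟨_, pow_mem (mem_zpowers _) i⟩), rfl⟩

theorem cm_M {k : G} (hk : k ∈ S.K) :
    k ∈ S.M ↔ S.θ k 2 = e2 ∧ ∃ a b, S.θ k * ω0 = tv a b * ω0 * S.θ k := by
  constructor
  · rintro ⟨a, b⟩
    refine ⟨(H_iff hk).1 a, ?_⟩
    obtain ⟨h1, -, x, y, e⟩ := R_Q b
    refine ⟨x, y, ?_⟩
    rw [← e, ← S.ωθ, ← S.θ_mul _ hk _ S.ωK, ← S.θ_mul _ h1 _ S.ωK, ← S.θ_mul _ (mul_mem h1 S.ωK) _ hk]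
    congr 1
    group
  · rintro ⟨a, x, y, e⟩
    have a' := (H_iff hk).2 a
    refine ⟨a', (n3_iff.1 (n3_K hk a')).resolve_right fun b => ?_⟩
    obtain ⟨h1, -, x', y', e'⟩ := R_Q b
    have e1 : S.θ k * ω0 = tv x' y' * (ω0 * ω0) * S.θ k := by
      rw [← e', ← S.ωθ, ← S.θ_mul _ hk _ S.ωK, ← S.θ_mul _ S.ωK _ S.ωK, ← S.θ_mul _ h1 _ (mul_mem S.ωK S.ωK),
        ← S.θ_mul _ (mul_mem h1 (mul_mem S.ωK S.ωK)) _ hk, ← S.ω_inv]
      congr 1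
      group
    have e2 := congrArg (· * S.θ k⁻¹) (e.symm.trans e1)
    simp only [mul_assoc, θ_inv hk, mul_one] at e2
    have : ∀ a b c d, tv a b * ω0 ≠ tv c d * (ω0 * ω0) := by decide
    exact this _ _ _ _ e2

theorem mem_M_of {k : G} (hk : k ∈ S.K) (e : ∃ x y, S.θ k = tv x y) : k ∈ S.M := by
  obtain ⟨x, y, e⟩ := e
  have : ∀ x y, ∃ a b, tv x y * ω0 = tv a b * ω0 * tv x y := by decide
  rw [cm_M hk, e]
  exact ⟨tv_two x y, this x y⟩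

theorem MK_dec {k : G} (hk : k ∈ S.K) (hM : k ∈ S.M) (e : S.σ k = 1) : ∃ r, S.R r ∧ ∃ i : ℕ, k = r * S.ω ^ i := by
  have key : ∀ g ∈ GL3, g 2 = e2 → (∃ a b, g * ω0 = tv a b * ω0 * g) →
      (∃ a b, g = tv a b) ∨ (∃ a b, g * ω0 = tv a b) ∨ ∃ a b, g * (ω0 * ω0) = tv a b := by decide +kernel
  obtain ⟨h1, h2⟩ := (cm_M hk).1 hM
  rcases key _ (S.θ_mem k hk) h1 h2 with h | h | h
  · exact ⟨k, ⟨hk, e, h⟩, 0, by simp⟩
  · refine ⟨k * S.ω, ⟨mul_mem hk S.ωK, by rw [S.σ_mul _ hk _ S.ωK, e, S.ωσ, mul_one], by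
      rwa [S.θ_mul _ hk _ S.ωK, S.ωθ]⟩, 2, ?_⟩
    rw [mul_assoc, ← pow_succ', S.ω3, mul_one]
  · refine ⟨k * (S.ω * S.ω), ⟨mul_mem hk (mul_mem S.ωK S.ωK), by
      rw [S.σ_mul _ hk _ (mul_mem S.ωK S.ωK), S.σ_mul _ S.ωK _ S.ωK, e, S.ωσ]; simp, by
      rwa [S.θ_mul _ hk _ (mul_mem S.ωK S.ωK), S.θ_mul _ S.ωK _ S.ωK, S.ωθ]⟩, 1, ?_⟩
    rw [mul_assoc, ← pow_two, ← pow_add, S.ω3, mul_one]

theorem ex_inv (S : St G) : ∃ t ∈ S.K, S.H t ∧ S.σ t = 1 ∧ S.θ t = !![0, 1, 0; 1, 0, 0; 0, 0, 1] ∧ t ∉ S.M ∧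
    ∀ h, S.H h → S.N3 h → h ∈ S.M ∨ h * t ∈ S.M := by
  obtain ⟨t, ht, e1, e2⟩ := S.sur 1 one_SL !![0, 1, 0; 1, 0, 0; 0, 0, 1] (mem_GL_of (by decide))
  have a : S.H t := (H_iff ht).2 (by rw [e2]; decide)
  have n : t ∉ S.M := fun h => by
    have := ((cm_M ht).1 h).2
    rw [e2] at this
    revert this
    decide
  refine ⟨t, ht, a, e1, e2, n, fun h b c => ?_⟩
  rcases n3_iff.1 c with c | c
  · exact .inl ⟨b, c⟩
  · have d := (n3_iff.1 (n3_K ht a)).resolve_left fun d => n ⟨a, d⟩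
    refine .inr ⟨b.mul a, ?_⟩
    have := mul_mem (b.conj_Q d) (conj_ωi c)
    simpa [mul_assoc] using this

theorem card_MK (S : St G) : Nat.card ↥(S.M ⊓ S.K) = 2 ^ 20 * 45 := by
  have h := cm_cnt S.toFr fun g => g 2 = e2 ∧ ∃ a b, g * ω0 = tv a b * ω0 * g
  have l : (GL3.filter fun g => decide (g 2 = e2 ∧ ∃ a b, g * ω0 = tv a b * ω0 * g)).length = 12 := by
    decide +kernel
  rw [l] at h
  have e : ((S.M ⊓ S.K : Subgroup G) : Set G) =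
      {k | k ∈ S.K ∧ S.θ k 2 = e2 ∧ ∃ a b, S.θ k * ω0 = tv a b * ω0 * S.θ k} := by
    ext k
    exact ⟨fun a => ⟨a.2, (cm_M a.2).1 a.1⟩, fun a => ⟨(cm_M a.1).2 a.2, a.1⟩⟩
  rw [← e, ← Nat.card_coe_set_eq] at h
  exact h.trans (by norm_num)

theorem card_H (c : S.O.ncard = 1386) : Nat.card (centralizer ({S.z} : Set G)) = 2 ^ 21 * 10395 := by
  have o : Out ![1, 0, 0] := by decide
  have h := cm_cnt S.toFr fun g => g 2 = e2 ∧ cf g *ᵥ ![1, 0, 0] = ![1, 0, 0]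
  have l : (GL3.filter fun g => decide (g 2 = e2 ∧ cf g *ᵥ ![1, 0, 0] = ![1, 0, 0])).length = 4 := by
    decide +kernel
  rw [l] at h
  have k := cm_orb (centralizer ({S.z} : Set G)) (S.ζ ![1, 0, 0])
  have e1 : {b | ∃ c ∈ centralizer ({S.z} : Set G), b = c * S.ζ ![1, 0, 0] * c⁻¹} = S.O := by
    ext b
    constructor
    · rintro ⟨g, hg, rfl⟩
      exact mem_O (mem_cent.1 hg) o
    · rintro ⟨g, d, hg, hd, rfl⟩
      obtain ⟨k, -, hk, e⟩ := S.ex_conj_out hd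
      exact ⟨g * k, mem_cent.2 (hg.mul hk), by rw [← e]; group⟩
  have e2 : {c | c ∈ centralizer ({S.z} : Set G) ∧ c * S.ζ ![1, 0, 0] * c⁻¹ = S.ζ ![1, 0, 0]} =
      {k | k ∈ S.K ∧ S.θ k 2 = e2 ∧ cf (S.θ k) *ᵥ ![1, 0, 0] = ![1, 0, 0]} := by
    ext g
    constructor
    · rintro ⟨a, b⟩
      have hK := S.bl g _ _ (mem_cent.1 a) o b
      rw [S.ζ_conj g hK, ζ_eq] at b
      exact ⟨hK, (H_iff hK).1 (mem_cent.1 a), b⟩
    · rintro ⟨hK, a, b⟩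
      exact ⟨mem_cent.2 ((H_iff hK).2 a), by rw [S.ζ_conj g hK, b]⟩
  rw [e1, e2, c, h] at k
  rw [← k]
  norm_num

theorem card_M (hn : ∀ h, S.H h → S.N3 h) (c : S.O.ncard = 1386) : Nat.card S.M = 2 ^ 20 * 10395 := by
  obtain ⟨t, -, a, -, -, n, d⟩ := S.ex_inv
  have le : S.M ≤ centralizer ({S.z} : Set G) := fun h hh => mem_cent.2 hh.1
  have i : (S.M.subgroupOf (centralizer ({S.z} : Set G))).index = 2 := by
    rw [index_eq_two_iff]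
    refine ⟨⟨t, mem_cent.2 a⟩, fun b => ?_⟩
    have hb : S.H b.1 := mem_cent.1 b.2
    by_cases m : b.1 ∈ S.M
    · exact .inr ⟨m, fun m' => n ((S.M.mul_mem_cancel_left m).1 m')⟩
    · exact .inl ⟨(d _ hb (hn _ hb)).resolve_left m, m⟩
  have h := (S.M.subgroupOf (centralizer ({S.z} : Set G))).index_mul_card
  rw [i, card_H c, Nat.card_congr (subgroupOfEquivOfLe le).toEquiv] at h
  omega

end St

end H75.JT
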