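import Cfsg.Agent.Lib.J4T.ALL

/-! J4T package CNT: see blueprint/J4T/README.md -/

set_option autoImplicit false

namespace H75.JT

open Subgroup Matrix H75.L7 H75.JT.Fr

theorem cnt_dbl {α β : Type*} [Finite α] [Finite β] (s : Set α) (t : Set β) (r : α → β → Prop) {m n : ℕ}
    (hm : ∀ a ∈ s, {b | b ∈ t ∧ r a b}.ncard = m) (hn : ∀ b ∈ t, {a | a ∈ s ∧ r a b}.ncard = n) :
    s.ncard * m = t.ncard * n := by
  classical
  have := Fintype.ofFinite α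
  have := Fintype.ofFinite β
  rw [Set.ncard_eq_toFinset_card', Set.ncard_eq_toFinset_card']
  refine Finset.card_mul_eq_card_mul r (fun a ha => ?_) fun b hb => ?_
  · rw [← hm a (Set.mem_toFinset.1 ha), Set.ncard_eq_toFinset_card']
    congr 1; ext; simp
  · rw [← hn b (Set.mem_toFinset.1 hb), Set.ncard_eq_toFinset_card']
    congr 1; ext; simp

theorem cnt_fib {α β : Type*} [Finite α] [Finite β] (s : Set α) (t : Set β) (g : α → β) {n : ℕ}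
    (h1 : ∀ a ∈ s, g a ∈ t) (hn : ∀ b ∈ t, {a | a ∈ s ∧ g a = b}.ncard = n) : s.ncard = t.ncard * n := by
  rw [← cnt_dbl s t (fun a b => g a = b) (m := 1) (fun a ha => ?_) hn, mul_one]
  rw [Set.ncard_eq_one]
  exact ⟨g a, Set.ext fun b => ⟨fun h => h.2.symm, fun h => ⟨h ▸ h1 a ha, h.symm⟩⟩⟩

theorem cnt_W {P : W → Prop} (P' : V4 × V4 → Prop) [DecidablePred P'] (h : ∀ u, P u → u 2 = 0)
    (e : ∀ a b, P ![a, b, 0] ↔ P' (a, b)) : {u | P u}.ncard = (Finset.univ.filter P').card := by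
  have i : Function.Injective fun p : V4 × V4 => (![p.1, p.2, 0] : W) := fun p q e =>
    Prod.ext (congrFun e 0) (congrFun e 1)
  rw [← Set.ncard_coe_finset, ← Set.ncard_image_of_injective _ i]
  congr 1
  ext u
  constructor
  · intro hu
    have e' : u = ![u 0, u 1, 0] := by
      ext1 i; fin_cases i <;> simp [h u hu]
    exact ⟨(u 0, u 1), by simpa using (e _ _).1 (e' ▸ hu), e'.symm⟩
  · rintro ⟨p, hp, rfl⟩
    exact (e _ _).2 (by simpa using hp)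

theorem cnt_pu (a b : V4) : PU ![a, b, 0] ↔ (a ≠ 0 ∨ b ≠ 0) ∧ (a = 0 ∨ b = 0 ∨ a = b) := by
  constructor
  · rintro ⟨h, n, x, y, e⟩
    refine ⟨by_contra fun c => h ?_, ?_⟩
    · push Not at c
      rw [c.1, c.2]; ext1 i; fin_cases i <;> rfl
    · have h0 : a = x • n := congrFun e 0
      have h1 : b = y • n := congrFun e 1
      rcases F2_cases x with rfl | rfl <;> rcases F2_cases y with rfl | rfl <;> simp [h0, h1]
  · rintro ⟨h, rfl | rfl | rfl⟩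
    · exact ⟨fun c => h.elim (fun h => h rfl) fun h => h (congrFun c 1), b, 0, 1, by simp⟩
    · exact ⟨fun c => h.elim (fun h => h (congrFun c 0)) fun h => h rfl, a, 1, 0, by simp⟩
    · exact ⟨fun c => h.elim (fun h => h (congrFun c 0)) fun h => h (congrFun c 0), a, 1, 1, by simp⟩

theorem cnt_pu2 {u : W} (h : PU u) : u 2 = 0 := by
  obtain ⟨-, n, a, b, rfl⟩ := h
  rfl

theorem cnt_ff (a b : V4) : FF ![a, b, 0] ↔ a ≠ 0 ∧ (b = J *ᵥ a ∨ b = J *ᵥ (J *ᵥ a)) :=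
  ⟨fun h => h.2, fun h => ⟨rfl, h⟩⟩

theorem cnt_disj {u : W} (h : PU u) : ¬ FF u := by
  obtain ⟨-, n, a, b, rfl⟩ := h
  revert n a b
  decide +kernel

theorem cnt_45 : {u | PU u ∧ True}.ncard = 45 := by
  rw [cnt_W (fun p => (p.1 ≠ 0 ∨ p.2 ≠ 0) ∧ (p.1 = 0 ∨ p.2 = 0 ∨ p.1 = p.2)) (fun u h => cnt_pu2 h.1)
    fun a b => by rw [cnt_pu, and_true]]
  decide +kernel

theorem cnt_30 : {u | FF u}.ncard = 30 := by
  rw [cnt_W (fun p => p.1 ≠ 0 ∧ (p.2 = J *ᵥ p.1 ∨ p.2 = J *ᵥ (J *ᵥ p.1))) (fun u h => h.1) cnt_ff]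
  decide +kernel

theorem cnt_tab : ∀ n : V4, n ≠ 0 → ∀ m ∈ [J *ᵥ n, J *ᵥ (J *ᵥ n)],
    (Finset.univ.filter fun p : V4 × V4 => ((p.1 ≠ 0 ∨ p.2 ≠ 0) ∧ (p.1 = 0 ∨ p.2 = 0 ∨ p.1 = p.2)) ∧
      (f p.1 m + f p.2 n = 1 ∨ f p.1 (n + m) + f p.2 m = 1)).card = 36 ∧
    (Finset.univ.filter fun p : V4 × V4 => (p.1 ≠ 0 ∧ (p.2 = J *ᵥ p.1 ∨ p.2 = J *ᵥ (J *ᵥ p.1))) ∧
      (f p.1 m + f p.2 n = 1 ∨ f p.1 (n + m) + f p.2 m = 1)).card = 12 := by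
  decide +kernel

theorem cnt_e2 : ∀ t : F2, t • e2 ≠ 0 ↔ t = 1 := by decide

theorem cnt_36 {v : W} (hv : FF v) : {u | PU u ∧ (B u v ≠ 0 ∨ B u (om v) ≠ 0)}.ncard = 36 ∧
    {u | FF u ∧ (B u v ≠ 0 ∨ B u (om v) ≠ 0)}.ncard = 12 := by
  have e : ∀ a b : V4, (B ![a, b, 0] v ≠ 0 ∨ B ![a, b, 0] (om v) ≠ 0) ↔
      (f a (v 1) + f b (v 0) = 1 ∨ f a (v 0 + v 1) + f b (v 1) = 1) := fun a b => by
    rw [B_W1 rfl hv.1, B_W1 rfl ((om_two v).trans hv.1), cnt_e2, cnt_e2]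
    rfl
  obtain ⟨h1, h2⟩ := cnt_tab (v 0) hv.2.1 (v 1) (by simpa using hv.2.2)
  rw [← h1, ← h2]
  exact ⟨cnt_W _ (fun u h => cnt_pu2 h.1) fun a b => by rw [cnt_pu, e],
    cnt_W _ (fun u h => h.1.1) fun a b => by rw [cnt_ff, e]⟩

variable {G : Type*} [Group G] [Finite G]

namespace St

variable {S : St G}

theorem cnt_OL (hf : S.Fib) (P : W → Prop) : {b | b ∈ S.O ∧ b ∈ S.L ∧ S.φ b ≠ 0 ∧ P (S.φ b)}.ncard =
    {u | PU u ∧ P u}.ncard * 4 + 8 * {u | FF u ∧ P u}.ncard := by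
  rw [← S.ncard_pre, ← cnt_fib {b | b ∈ S.O ∧ b ∈ S.L ∧ PU (S.φ b) ∧ P (S.φ b)} _ S.φ (fun a h => h.2.2)
    fun v hv => ?_, ← Set.ncard_union_eq]
  · congr 1
    ext b
    constructor
    · rintro ⟨h1, h2, h3, h4⟩
      exact ((hf.ty b h1 h2).resolve_left h3).imp (fun h => ⟨h1, h2, h, h4⟩) fun h => ⟨h2, h, h4⟩
    · rintro (⟨h1, h2, h3, h4⟩ | ⟨h2, h3, h4⟩)
      · exact ⟨h1, h2, h3.1, h4⟩
      · exact ⟨hf.ff b h2 h3, h2, fun c => h3.2.1 (congrFun c 0), h4⟩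
  · exact Set.disjoint_left.2 fun b h h' => cnt_disj h.2.2.1 h'.2.1
  · rw [← hf.pu v hv.1]
    congr 1
    ext b
    exact ⟨fun h => ⟨h.1.1, h.1.2.1, h.2⟩, fun h => ⟨⟨h.1, h.2.1, h.2.2 ▸ hv⟩, h.2.2⟩⟩

theorem cnt_six (S : St G) : {b | b ∈ S.O ∧ b ∈ S.L ∧ S.φ b = 0}.ncard = 6 := by
  have e : {b | b ∈ S.O ∧ b ∈ S.L ∧ S.φ b = 0} = S.ζ '' ↑(Finset.univ.filter Out) := by
    ext b
    constructor
    · rintro ⟨⟨h, c, a, hc, rfl⟩, h2, h3⟩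
      obtain ⟨d, hd⟩ := (S.φ_ker _ h2).1 h3
      have hK := S.bl h c d a hc hd
      exact ⟨_, by simpa using (out_K hK a).2 hc, (S.ζ_conj h hK c).symm⟩
    · rintro ⟨c, hc, rfl⟩
      exact ⟨by simpa using mem_O S.H_one (by simpa using hc : Out c), S.ζ_mem c, S.φ_ζ c⟩
  rw [e, Set.ncard_image_of_injective _ fun c d => ζ_eq.1, Set.ncard_coe_finset]
  decide

theorem cnt_426 (hf : S.Fib) : (S.O ∩ S.L).ncard = 426 := by
  have h1 := cnt_OL hf fun _ => True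
  rw [cnt_45, show {u | FF u ∧ True} = {u | FF u} by simp, cnt_30] at h1
  have e : S.O ∩ S.L = {b | b ∈ S.O ∧ b ∈ S.L ∧ S.φ b = 0} ∪ {b | b ∈ S.O ∧ b ∈ S.L ∧ S.φ b ≠ 0 ∧ True} := by
    ext b
    simp only [Set.mem_inter_iff, Set.mem_union, Set.mem_setOf_eq, SetLike.mem_coe]
    tauto
  rw [e, Set.ncard_union_eq (Set.disjoint_left.2 fun b h h' => h'.2.2.1 h.2.2), h1, S.cnt_six]

theorem cnt_ffinv {g : G} {c : V3} (a : S.Nb g) (hv : FF (S.φ (g * S.ζ c * g⁻¹))) :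
    ∃ v, FF v ∧ S.Ov g⁻¹ v := by
  refine (ty (nb_symm a)).resolve_left ?_
  rintro ⟨n, hn⟩
  obtain ⟨r, hr, rfl⟩ := S.κ_sur n
  obtain ⟨d, hd, e⟩ := ov_ex hn
  have h1 := sh2 hn.1 (R_L hr) hd (x := 1) (y := 0) (by rw [e]; simp)
  rw [inv_inv] at h1
  have hQ : g * r * g⁻¹ ∉ S.Q := fun h => ov_ne hn (by
    rw [κ_Q (a.1.conj_Q_iff.1 h)]; ext1 i; fin_cases i <;> rfl)
  have h2 := sh1 a.1 a.2.1 h1 hQ (by simpa [mul_assoc] using R_L hr)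
  have h3 : ∀ m : V4, ¬ FF ![m, 0, 0] ∧ ¬ FF (om ![m, 0, 0]) ∧ ¬ FF (om (om ![m, 0, 0])) := by decide +kernel
  obtain ⟨s1, s2, s3⟩ := h3 (S.κ (g * r * g⁻¹))
  rcases (h2.2 _).1 ⟨c, rfl⟩ with h | h | h | h <;> rw [h] at hv
  exacts [hv.2.1 rfl, s1 hv, s2 hv, s3 hv]

theorem cnt_nL {g a : G} {v : W} (ov : S.Ov g⁻¹ v) (h2 : v 2 = 0) (ha : a ∈ S.L) (hQ : a ∈ S.Q) :
    g * a * g⁻¹ ∉ S.L ↔ B (S.φ a) v ≠ 0 ∨ B (S.φ a) (om v) ≠ 0 := by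
  have gH : S.H g := by simpa using ov.1.1.inv
  have e : g * a * g⁻¹ ∈ S.L ↔ ∀ d, B (S.φ a) (S.φ (g⁻¹ * S.ζ d * g⁻¹⁻¹)) = 0 := by
    have k : ∀ d, Commute (g * a * g⁻¹) (S.ζ d) ↔ B (S.φ a) (S.φ (g⁻¹ * S.ζ d * g⁻¹⁻¹)) = 0 := fun d => by
      rw [← comm_iff ha (ov.1.2.2 d)]
      exact ⟨fun h => by simpa [mul_assoc] using h.conj g⁻¹, fun h => by simpa [mul_assoc] using h.conj g⟩
    exact ⟨fun h d => (k d).1 (ζ_comm h d), fun h => L_of_cent (gH.conj_Q hQ) fun d => (k d).2 (h d)⟩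
  rw [e, ← not_and_or, not_iff_not]
  constructor
  · intro h
    obtain ⟨d, hd⟩ := (ov.2 v).2 (.inr (.inl rfl))
    obtain ⟨d', hd'⟩ := (ov.2 (om v)).2 (.inr (.inr (.inl rfl)))
    exact ⟨hd ▸ h d, hd' ▸ h d'⟩
  · rintro ⟨p, q⟩ d
    rcases (ov.2 _).1 ⟨d, rfl⟩ with h | h | h | h <;> rw [h]
    · have := B_add_right (S.φ a) 0 0
      rwa [add_zero, add_self2] at this
    · exact p
    · exact q
    · rw [om_om v h2, B_add_right, p, q, add_zero]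

theorem cnt (hf : S.Fib) : S.O.ncard = 1386 := by
  have key := cnt_dbl (S.O \ S.L) {l | l ∈ S.L ∧ S.φ l ∈ {u | FF u}}
    (fun a l => ∃ h c, S.H h ∧ Out c ∧ a = h * S.ζ c * h⁻¹ ∧ ∀ d, Commute l (h * S.ζ d * h⁻¹)) (m := 60) (n := 240)
    ?_ ?_
  · rw [S.ncard_pre, cnt_30] at key
    have := Set.ncard_inter_add_ncard_diff_eq_ncard S.O S.L
    rw [cnt_426 hf] at this
    omega
  · rintro _ ⟨⟨h, c, a, hc, rfl⟩, hL⟩
    have hK : h ∉ S.K := fun e => hL (conj_mem_L e (S.ζ_mem c))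
    have op := (d1 a hK).resolve_left fun e => hL (e.2.2 c)
    rw [cnt_fib _ {u | FF u} S.φ (n := 2) (fun l hl => hl.1.2) fun v hv => ?_, cnt_30]
    rw [← op_lift op hv.1]
    congr 1
    ext l
    constructor
    · rintro ⟨⟨⟨h1, -⟩, h', c', a', -, e, h2⟩, h3⟩
      refine ⟨h1, h3, fun d => ?_⟩
      have := blk_K (h := h') (same a a' hc e) d
      rw [mul_inv_cancel_left] at this
      exact this ▸ h2 _
    · rintro ⟨h1, h2, h3⟩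
      exact ⟨⟨⟨h1, h2 ▸ hv⟩, h, c, a, hc, rfl, h3⟩, h2⟩
  · rintro l ⟨hL, hv⟩
    obtain ⟨g, c, a, hc, rfl⟩ := hf.ff l hL hv
    have hK : g ∉ S.K := fun e => hv.2.1 (by rw [S.ζ_conj g e, φ_ζ]; rfl)
    have nb := (d1 a hK).resolve_right fun e => e.2 c hc hL
    obtain ⟨v, hv', ov⟩ := cnt_ffinv nb hv
    have h1 := cnt_OL hf fun u => B u v ≠ 0 ∨ B u (om v) ≠ 0
    rw [(cnt_36 hv').1, (cnt_36 hv').2] at h1
    rw [show 240 = 36 * 4 + 8 * 12 from rfl, ← h1]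
    refine Eq.trans ?_ (Set.ncard_image_of_injective _ (MulAut.conj g).injective)
    congr 1
    ext b
    constructor
    · rintro ⟨⟨hO, hb⟩, h, c', a', hc', rfl, e⟩
      have hO' := O_conj a.inv hO
      have h2 : g⁻¹ * (h * S.ζ c' * h⁻¹) * g⁻¹⁻¹ ∈ S.L := L_of_cent (O_Q hO') fun d => by
        simpa [mul_assoc] using (d1_blk a a' hc e d c').symm.conj g⁻¹
      have h3 := (cnt_nL ov hv'.1 h2 (O_Q hO')).1 (by simpa [mul_assoc] using hb)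
      refine ⟨_, ⟨hO', h2, fun z => ?_, h3⟩, by simp [mul_assoc]⟩
      have b0 : ∀ w, B 0 w = 0 := fun w => by
        have := B_add_left 0 0 w
        rwa [add_zero, add_self2] at this
      rw [z, b0, b0] at h3
      exact h3.elim (fun h => h rfl) fun h => h rfl
    · rintro ⟨_, ⟨⟨h, c', a', hc', rfl⟩, h2, -, h3⟩, rfl⟩
      have hO := mem_O a' hc'
      refine ⟨⟨O_conj a hO, (cnt_nL ov hv'.1 h2 (O_Q hO)).2 h3⟩, g * h, c', a.mul a', hc', by simp [mul_assoc],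
        fun d => ?_⟩
      have := d1_blk a' S.H_one hc' (fun d => by simpa using ζ_comm h2 d) d c
      simpa [mul_assoc] using this.symm.conj g

end St

end H75.JT
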