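import Cfsg.Agent.Lib.J4T.Bas

/-! J4T package FX: see blueprint/J4T/README.md -/

set_option autoImplicit false

namespace H75.JT

open Subgroup Matrix H75.L7

variable {G : Type*} [Group G] [Finite G]

theorem fx_hom {A C : Type*} [Group A] [Finite A] [Group C] (D : A →* C) {m n : ℕ}
    (h1 : Nat.card D.ker ≤ m) (h2 : Nat.card D.range ≤ n) : Nat.card A ≤ m * n := by
  rw [← D.ker.card_mul_index, index_ker]
  exact Nat.mul_le_mul h1 h2

theorem fx_off {g : M3} (hg : g ∈ GL3) : g = 1 ∨ ∃ i j, i ≠ j ∧ g i j = 1 := by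
  have h : ∀ g ∈ GL3, c3 g = c3 1 ∨ g 0 1 = 1 ∨ g 0 2 = 1 ∨ g 1 0 = 1 ∨ g 1 2 = 1 ∨ g 2 0 = 1 ∨ g 2 1 = 1 := by
    decide +kernel
  rcases h g hg with e | e | e | e | e | e | e
  · exact .inl (by rw [← m3_c3 g, e, m3_c3])
  all_goals exact .inr ⟨_, _, by decide, e⟩

theorem fx_fix8 {s : M4} {g : M3} (hs : s ∈ SL) (hg : g ∈ GL3) (n : g ≠ 1) :
    {u : W | act s g u = u}.ncard ≤ 2 ^ 8 := by
  obtain ⟨i, j, ij, e⟩ := (fx_off hg).resolve_left n
  have key : ∀ u : W, act s g u = u → u (j + 1) = 0 → u (j + 2) = 0 → u = 0 := fun u hu a b => by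
    have k := congrFun hu i
    have z : s *ᵥ u j = 0 := by
      rw [act_apply] at k
      fin_cases i <;> fin_cases j <;> simp_all
    have z' : u j = 0 := SL_inj hs (z.trans (mulVec_zero _).symm)
    funext t
    fin_cases t <;> fin_cases j <;> simp_all
  have : {u : W | act s g u = u}.ncard ≤ (Set.univ : Set (V4 × V4)).ncard := by
    refine Set.ncard_le_ncard_of_injOn (fun u => (u (j + 1), u (j + 2))) (fun _ _ => trivial) ?_ (Set.toFinite _)
    intro u hu v hv e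
    simp only [Prod.mk.injEq] at e
    refine W_add_eq_zero.1 (key _ ?_ ?_ ?_)
    · rw [act_add, show act s g u = u from hu, show act s g v = v from hv]
    · rw [Pi.add_apply, e.1, add_self2]
    · rw [Pi.add_apply, e.2, add_self2]
  simpa using this

theorem fx_fix6 {s : M4} (hs : s ∈ SL) (s2 : s * s = 1) (n : s ≠ 1) :
    {u : W | act s 1 u = u}.ncard ≤ 2 ^ 6 := by
  have c : {a : V4 | s *ᵥ a = a}.ncard = 4 := by
    refine Eq.trans ?_ (SL_fix_card s hs s2 n)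
    rw [← Set.ncard_coe_finset]; congr 1; ext a; simp
  have : {u : W | act s 1 u = u}.ncard ≤
      ({a : V4 | s *ᵥ a = a} ×ˢ {a : V4 | s *ᵥ a = a} ×ˢ {a : V4 | s *ᵥ a = a}).ncard := by
    refine Set.ncard_le_ncard_of_injOn (fun u => (u 0, u 1, u 2)) (fun u hu => ?_) ?_ (Set.toFinite _)
    · have hu' : act s 1 u = u := hu
      rw [act_one] at hu'
      exact ⟨congrFun hu' 0, congrFun hu' 1, congrFun hu' 2⟩
    · intro u _ v _ e
      simp only [Prod.mk.injEq] at e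
      funext t
      fin_cases t
      exacts [e.1, e.2.1, e.2.2]
  rw [Set.ncard_prod, Set.ncard_prod, c] at this
  exact this

namespace Fr

variable {F : Fr G}

theorem fx_gen {a : G} (ha : a ∈ F.K) {X : Subgroup G} (hX : X ≤ F.L) {Y : Set W}
    (h : ∀ l ∈ X, F.φ (a * l * a⁻¹) + F.φ l ∈ Y) :
    Nat.card X ≤ 8 * {u : W | act (F.σ a) (F.θ a) u = u}.ncard * Y.ncard := by
  let D : X →* Multiplicative W := MonoidHom.mk'
    (fun l => Multiplicative.ofAdd (act (F.σ a) (F.θ a) (F.φ l) + F.φ l)) fun l l' => by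
      rw [← ofAdd_add, Subgroup.coe_mul, F.φ_mul _ (hX l.2) _ (hX l'.2), act_add]
      congr 1; abel
  refine fx_hom D ?_ ?_
  · rw [← F.ncard_pre, ← Nat.card_coe_set_eq]
    refine Nat.card_le_card_of_injective (fun x => ⟨x.1.1, hX x.1.2, W_add_eq_zero.1 x.2⟩) fun x y e => ?_
    exact Subtype.ext (Subtype.ext (Subtype.mk.inj e))
  · rw [← Nat.card_coe_set_eq]
    refine Nat.card_le_card_of_injective (fun x => ⟨x.1.toAdd, ?_⟩) fun x y e => ?_
    · obtain ⟨_, l, rfl⟩ := x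
      have := h l l.2
      rwa [F.φ_conj a ha l (hX l.2)] at this
    · exact Subtype.ext (Multiplicative.toAdd.injective (Subtype.mk.inj e))

theorem fx2 {a : G} (ha : a ∈ F.K) (aL : a ∉ F.L) (a2 : a * a ∈ F.L) (t : F.θ a = 1) {X : Subgroup G} (hX : X ≤ F.L)
    {Y : Set W} (h : ∀ l ∈ X, F.φ (a * l * a⁻¹) + F.φ l ∈ Y) : Nat.card X ≤ 2 ^ 9 * Y.ncard := by
  refine (fx_gen ha hX h).trans (Nat.mul_le_mul_right _ ?_)
  have := fx_fix6 (F.σ_mem a ha) (by rw [← F.σ_mul a ha a ha, σ_L a2]) fun e => aL ((F.ker a ha).2 ⟨e, t⟩)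
  rw [t]; omega

theorem fx1 {a : G} (ha : a ∈ F.K) (aL : a ∉ F.L) (a2 : a * a ∈ F.L) {X : Subgroup G} (hX : X ≤ F.L) {Y : Set W}
    (h : ∀ l ∈ X, F.φ (a * l * a⁻¹) + F.φ l ∈ Y) : Nat.card X ≤ 2 ^ 11 * Y.ncard := by
  by_cases t : F.θ a = 1
  · exact (fx2 ha aL a2 t hX h).trans (Nat.mul_le_mul_right _ (by norm_num))
  refine (fx_gen ha hX h).trans (Nat.mul_le_mul_right _ ?_)
  have := fx_fix8 (F.σ_mem a ha) (F.θ_mem a ha) t
  omega

theorem fx_cent {l : G} (h : l ∈ F.L) : 2 ^ 12 ≤ Nat.card ↥(F.L ⊓ centralizer {l}) := by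
  let D : F.L →* Multiplicative V3 := MonoidHom.mk'
    (fun x => Multiplicative.ofAdd (B (F.φ x) (F.φ l))) fun x y => by
      rw [← ofAdd_add, Subgroup.coe_mul, F.φ_mul _ x.2 _ y.2, B_add_left]
  have := fx_hom D (m := Nat.card ↥(F.L ⊓ centralizer {l})) (n := 8) ?_ ?_
  · rw [card_L] at this; omega
  · refine Nat.card_le_card_of_injective (fun x => ⟨x.1.1, x.1.2, mem_cent.2 ((comm_iff x.1.2 h).2 x.2)⟩)
      fun x y e => ?_
    exact Subtype.ext (Subtype.ext (Subtype.mk.inj e))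
  · refine (Nat.card_le_card_of_injective _ Subtype.val_injective).trans ?_
    simp

theorem fx_B {u : W} (h : u ≠ 0) : ∃ v v', B u v ≠ 0 ∧ B u v' ≠ 0 ∧ B u v ≠ B u v' := by
  obtain ⟨i, hi⟩ := Function.ne_iff.1 h
  obtain ⟨m, hm⟩ := f_nd _ hi
  refine ⟨Pi.single (i + 1) m, Pi.single (i + 2) m, fun e => ?_, fun e => ?_, fun e => ?_⟩
  · have := congrFun e (i + 2)
    fin_cases i <;> simp_all [B]
  · have := congrFun e (i + 1)
    fin_cases i <;> simp_all [B]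
  · have := congrFun e (i + 1)
    fin_cases i <;> simp_all [B]

set_option synthInstance.maxSize 2000 in
theorem fx_no8 : ∀ s ∈ SL, s * s = 1 → s ≠ 1 → ∀ t ∈ SL, t * t = 1 → s * t = t * s → t ≠ 1 → t ≠ s → ∀ u ∈ SL,
    u * u = 1 → u * s = s * u → u * t = t * u → u = 1 ∨ u = s ∨ u = t ∨ u = s * t := by decide +kernel

theorem fx_sig {X Y : Subgroup G} (hX : X ≤ F.K) (h : ∀ x ∈ X, F.σ x * F.σ x = 1)
    (hY : ∀ x ∈ X, F.σ x = 1 → x ∈ Y) : Nat.card X ≤ 4 * Nat.card Y := by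
  let D0 : X →* M4 :=
    { toFun := fun x => F.σ x
      map_one' := F.σ_one
      map_mul' := fun x y => F.σ_mul _ (hX x.2) _ (hX y.2) }
  have cm : ∀ x ∈ X, ∀ y ∈ X, F.σ x * F.σ y = F.σ y * F.σ x := fun x hx y hy => by
    have e := h _ (mul_mem hx hy)
    rw [F.σ_mul _ (hX hx) _ (hX hy)] at e
    calc F.σ x * F.σ y = F.σ y * F.σ y * (F.σ x * F.σ y) * (F.σ x * F.σ x) := by rw [h y hy, h x hx]; simp
      _ = F.σ y * (F.σ y * F.σ x * (F.σ y * F.σ x)) * F.σ x := by simp only [mul_assoc]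
      _ = _ := by
        have e' := h _ (mul_mem hy hx)
        rw [F.σ_mul _ (hX hy) _ (hX hx)] at e'
        rw [e', mul_one]
  have c : (F.σ '' X).ncard ≤ 4 := by
    by_contra k
    rw [not_le] at k
    obtain ⟨_, ⟨x, hx, rfl⟩, n1⟩ := Set.exists_mem_notMem_of_ncard_lt_ncard (s := {1}) (t := F.σ '' X)
      (by rw [Set.ncard_singleton]; omega)
    obtain ⟨_, ⟨y, hy, rfl⟩, n2⟩ := Set.exists_mem_notMem_of_ncard_lt_ncard (s := {1, F.σ x}) (t := F.σ '' X)
      ((Set.ncard_insert_le _ _).trans_lt (by rw [Set.ncard_singleton]; omega))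
    obtain ⟨_, ⟨w, hw, rfl⟩, n3⟩ := Set.exists_mem_notMem_of_ncard_lt_ncard
      (s := {1, F.σ x, F.σ y, F.σ x * F.σ y}) (t := F.σ '' X) (lt_of_le_of_lt (by
        refine (Set.ncard_insert_le _ _).trans (Nat.succ_le_succ ((Set.ncard_insert_le _ _).trans
          (Nat.succ_le_succ ((Set.ncard_insert_le _ _).trans ?_))))
        rw [Set.ncard_singleton]) k)
    simp only [Set.mem_insert_iff, Set.mem_singleton_iff, not_or] at n1 n2
    exact n3 (fx_no8 _ (F.σ_mem x (hX hx)) (h x hx) n1 _ (F.σ_mem y (hX hy)) (h y hy) (cm x hx y hy) n2.1 n2.2 _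
      (F.σ_mem w (hX hw)) (h w hw) (cm w hw x hx) (cm w hw y hy))
  rw [mul_comm]
  refine fx_hom D0.toHomUnits ?_ (le_trans ?_ c)
  · refine Nat.card_le_card_of_injective (fun x => ⟨x.1.1, hY _ x.1.2 (congrArg Units.val x.2)⟩) fun x y e => ?_
    exact Subtype.ext (Subtype.ext (Subtype.mk.inj e))
  · rw [← Nat.card_coe_set_eq]
    refine Nat.card_le_card_of_injective (fun x => ⟨x.1.1, ?_⟩) fun x y e => ?_
    · obtain ⟨_, l, rfl⟩ := x
      exact ⟨l, l.2, rfl⟩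
    · exact Subtype.ext (Units.ext (Subtype.mk.inj e))

end Fr

end H75.JT
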