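import Cfsg.Agent.Lib.J4T.Bas2
import Cfsg.Agent.Lib.J4T.FX

/-! J4T package D1: see blueprint/J4T/README.md -/

set_option autoImplicit false

namespace H75.JT

open Subgroup Matrix H75.L7 H75.JT.Fr

variable {G : Type*} [Group G] [Finite G]

namespace St

variable {S : St G}

theorem d1_cj {h r : G} (e : h⁻¹ * r * h ∈ S.K) (c : V3) :
    r * (h * S.ζ c * h⁻¹) * r⁻¹ = h * S.ζ (cf (S.θ (h⁻¹ * r * h)) *ᵥ c) * h⁻¹ := by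
  rw [← blk_K e]; group

theorem d1_zero {h : G} (a : S.H h) {c : V3} (hc : ¬ Fr.Out c) :
    h * S.ζ c * h⁻¹ ∈ S.L ∧ S.φ (h * S.ζ c * h⁻¹) = 0 := by
  rcases not_and_or.1 hc with e | e <;> rw [not_not.1 e]
  · simp [ζ_zero, φ_one]
  · rw [← z_eq, a.conj_z, z_eq, φ_ζ]; exact ⟨S.ζ_mem _, rfl⟩

/-- the commutator of an element of a block outside `L` with an element of `R` normalising the block -/
theorem d1_com {h : G} (a : S.H h) {c : V3} (hc : h * S.ζ c * h⁻¹ ∉ S.L) : ∃ x y : F2, ¬ (x = 0 ∧ y = 0) ∧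
    ∀ r, S.R r → h⁻¹ * r * h ∈ S.K → ∃ d, h * S.ζ d * h⁻¹ ∈ S.L ∧
      S.φ (h * S.ζ d * h⁻¹) = ![x • S.κ r, y • S.κ r, 0] := by
  obtain ⟨-, -, x, y, t⟩ := R_Q (blk_Q a c)
  refine ⟨x, y, fun k => hc ((R_Q (blk_Q a c)).L_of (by rw [t, k.1, k.2, tv_zero])), fun r hr e =>
    ⟨c + cf (S.θ (h⁻¹ * r * h)) *ᵥ c, ?_⟩⟩
  have := act2 hr (blk_Q a c) t
  rwa [show (h * S.ζ c * h⁻¹)⁻¹ = h * S.ζ c * h⁻¹ by rw [conj_inv, ζ_inv], mul_assoc _ r, mul_assoc _ (r * _),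
    d1_cj e, ← blk_mul] at this

theorem d1_fix {h r : G} (hr : S.R r) {c : V3} (m : h * S.ζ c * h⁻¹ ∈ S.L) (a : S.H h)
    (e0 : f (S.κ r) (S.φ (h * S.ζ c * h⁻¹) 0) = 0) (e1 : f (S.κ r) (S.φ (h * S.ζ c * h⁻¹) 1) = 0) :
    S.Cz (r * (h * S.ζ c * h⁻¹) * r⁻¹) (h * S.ζ c * h⁻¹) := by
  have := act1 hr m ((QL m).1 (blk_Q a c))
  rwa [e0, e1, show (![0, 0, 0] : V3) = 0 by decide, ζ_zero, mul_one] at this

theorem d1 {h : G} (a : S.H h) (hK : h ∉ S.K) : S.Nb h ∨ S.Op h := by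
  refine or_iff_not_imp_right.2 fun hn => ⟨a, hK, fun d => ?_⟩
  obtain ⟨c, hc, m⟩ : ∃ c, Fr.Out c ∧ h * S.ζ c * h⁻¹ ∈ S.L := by
    by_contra k
    exact hn ⟨a, fun c hc m => k ⟨c, hc, m⟩⟩
  by_contra hd
  obtain ⟨x, y, xy, k⟩ := d1_com a hd
  have one : ∀ n : V4, n ≠ 0 → f n (S.φ (h * S.ζ c * h⁻¹) 0) = 0 → f n (S.φ (h * S.ζ c * h⁻¹) 1) = 0 →
      S.φ (h * S.ζ c * h⁻¹) = ![x • n, y • n, 0] := fun n n0 e0 e1 => by
    obtain ⟨l, hl, rfl⟩ := S.κ_sur n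
    obtain ⟨e, me, fe⟩ := k l (R_L hl) (stab a (H_L hl) hc (d1_fix (R_L hl) m a e0 e1))
    have t : ∀ c d e : V3, Fr.Out c → ¬ Fr.Out e ∨ ¬ Fr.Out (e + c) ∨ ¬ Fr.Out d ∨ ¬ Fr.Out (d + c) ∨
        ¬ Fr.Out (d + e) ∨ ¬ Fr.Out (d + e + c) := by decide +kernel
    have s : ∀ {u v : V3}, h * S.ζ (u + v) * h⁻¹ ∈ S.L → h * S.ζ v * h⁻¹ ∈ S.L → h * S.ζ u * h⁻¹ ∈ S.L :=
      fun p q => by rwa [blk_mul, mul_mem_cancel_right q] at p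
    rcases t c d e hc with p | p | p | p | p | p
    · rw [(d1_zero a p).2] at fe
      exact absurd fe ((by decide +kernel : ∀ (x y : F2) (n : V4), ¬ (x = 0 ∧ y = 0) → n ≠ 0 →
        (0 : W) ≠ ![x • n, y • n, 0]) x y _ xy n0)
    · have := (d1_zero a p).2
      rw [blk_mul, S.φ_mul _ me _ m, W_add_eq_zero] at this
      rw [← this, fe]
    · exact absurd (d1_zero a p).1 hd
    · exact absurd (s (d1_zero a p).1 m) hd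
    · exact absurd (s (d1_zero a p).1 me) hd
    · exact absurd (s (s (d1_zero a p).1 m) me) hd
  obtain ⟨n, n', n0, n0', nn, p0, p1, q0, q1⟩ := (by decide +kernel : ∀ u v : V4, ∃ n n' : V4, n ≠ 0 ∧ n' ≠ 0 ∧
    n ≠ n' ∧ f n u = 0 ∧ f n v = 0 ∧ f n' u = 0 ∧ f n' v = 0) (S.φ (h * S.ζ c * h⁻¹) 0) (S.φ (h * S.ζ c * h⁻¹) 1)
  exact nn ((by decide +kernel : ∀ (x y : F2) (n n' : V4), ¬ (x = 0 ∧ y = 0) →
    (![x • n, y • n, 0] : W) = ![x • n', y • n', 0] → n = n') x y n n' xy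
      ((one n n0 p0 p1).symm.trans (one n' n0' q0 q1)))

theorem d1_blk {h g : G} (a : S.H h) (b : S.H g) {c : V3} (hc : Fr.Out c)
    (e : ∀ d, Commute (h * S.ζ c * h⁻¹) (g * S.ζ d * g⁻¹)) (c' d : V3) :
    Commute (h * S.ζ c' * h⁻¹) (g * S.ζ d * g⁻¹) := by
  have a' := b.inv.mul a
  have m : g⁻¹ * h * S.ζ c * (g⁻¹ * h)⁻¹ ∈ S.L := L_of_cent (blk_Q a' c) fun d => by
    simpa [mul_assoc] using (e d).map (MulAut.conj g⁻¹)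
  have m' : g⁻¹ * h * S.ζ c' * (g⁻¹ * h)⁻¹ ∈ S.L := by
    by_cases k : g⁻¹ * h ∈ S.K
    · exact conj_mem_L k (S.ζ_mem c')
    · exact (d1 a' k).elim (fun n => n.2.2 c') fun o => absurd m (o.2 c hc)
  simpa [mul_assoc] using (ζ_comm m' d).map (MulAut.conj g)

theorem nb_stab {h r : G} (a : S.Nb h) (hr : S.R r) {c : V3} (hc : Fr.Out c) :
    h⁻¹ * r * h ∈ S.K ↔ f (S.κ r) (S.φ (h * S.ζ c * h⁻¹) 0) = 0 ∧ f (S.κ r) (S.φ (h * S.ζ c * h⁻¹) 1) = 0 := by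
  refine ⟨fun e => ?_, fun e => stab a.1 hr.H hc (d1_fix hr (a.2.2 c) a.1 e.1 e.2)⟩
  have k := (act1 hr (a.2.2 c) (nb_two a c)).mul_left (h * S.ζ c * h⁻¹)
  rw [d1_cj e, ← blk_mul, ← mul_assoc, ← blk_mul, add_self2, ζ_zero, mul_one, mul_inv_cancel, one_mul] at k
  by_contra hn
  refine a.2.1 ?_
  have := same' (h := 1) (h' := h) S.H_one a.1 ((by decide : ∀ x y : F2, ¬ (x = 0 ∧ y = 0) →
    Fr.Out ![y, x, 0]) _ _ hn) (by simpa using k.symm)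
  simpa using this

theorem nb_tv {h r : G} (a : S.Nb h) (hr : S.R r) (e : h⁻¹ * r * h ∈ S.K) : ∃ x y, S.θ (h⁻¹ * r * h) = tv x y := by
  refine θ_tv e fun c => ?_
  have k : f (S.κ r) (S.φ (h * S.ζ c * h⁻¹) 0) = 0 ∧ f (S.κ r) (S.φ (h * S.ζ c * h⁻¹) 1) = 0 := by
    by_cases hc : Fr.Out c
    · exact (nb_stab a hr hc).1 e
    · rw [nb_zero a hc]; exact ⟨f_zero_right _, f_zero_right _⟩
  simpa [mul_assoc] using (d1_fix hr (a.2.2 c) a.1 k.1 k.2).conj a.1.inv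

theorem op_move {h r : G} (a : S.Op h) (hr : S.R r) (e : h⁻¹ * r * h ∈ S.K) : r ∈ S.Q := by
  obtain ⟨x, y, xy, k⟩ := d1_com a.1 (a.2 ![1, 0, 0] (by decide))
  obtain ⟨d, m, fe⟩ := k r hr e
  rw [(d1_zero a.1 fun o => a.2 d o m).2] at fe
  exact (S.κ_ker r hr).1 ((by decide +kernel : ∀ (x y : F2) (n : V4), ¬ (x = 0 ∧ y = 0) →
    (0 : W) = ![x • n, y • n, 0] → n = 0) x y _ xy fe)

end St

end H75.JT
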