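import Cfsg.Agent.Lib.J4T.TIA
import Cfsg.Agent.Lib.J4T.D1

/-! J4T package EX: see blueprint/J4T/README.md -/

set_option autoImplicit false

namespace H75.JT

open Subgroup Matrix H75.L7 H75.JT.Fr

variable {G : Type*} [Group G] [Finite G]

theorem ex_pow {s : M4} (hs : s ∈ SL) {m : ℕ} (o : Odd m) (e : s ^ m = 1) : s ^ 15 = 1 := by
  have key : ∀ s ∈ SL, m4 (c4 (s * s)) * m4 (c4 (s * s)) = 1 ∨
      m4 (c4 (s * s)) * m4 (c4 (m4 (c4 (s * s)) * s)) = 1 ∨
      m4 (c4 (m4 (c4 (s * s)) * s)) * m4 (c4 (m4 (c4 (s * s)) * s)) = 1 := by decide +kernel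
  have k := key s hs
  simp only [m4_c4] at k
  have d : orderOf s ∣ 4 * 15 := by
    rcases k with k | k | k
    · exact (orderOf_dvd_of_pow_eq_one (n := 4) (by rw [← k]; simp only [pow_succ, pow_zero, one_mul, mul_assoc])).trans
        (by norm_num)
    · exact (orderOf_dvd_of_pow_eq_one (n := 5) (by rw [← k]; simp only [pow_succ, pow_zero, one_mul, mul_assoc])).trans
        (by norm_num)
    · exact (orderOf_dvd_of_pow_eq_one (n := 6) (by rw [← k]; simp only [pow_succ, pow_zero, one_mul, mul_assoc])).trans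
        (by norm_num)
  have o' : Odd (orderOf s) := o.of_dvd_nat (orderOf_dvd_of_pow_eq_one e)
  have c : (orderOf s).Coprime 4 := (Nat.coprime_two_right.2 o').pow_right 2
  exact orderOf_dvd_iff_pow_eq_one.1 (c.dvd_of_dvd_mul_left d)

namespace St

variable {S : St G}

theorem ex_nb (S : St G) : ∃ h, S.Nb h := by
  by_contra hn
  let C : Subgroup G := centralizer ({S.z} : Set G)
  have hC : ∀ x : C, S.H x := fun x => mem_cent.1 x.2
  have : (S.Q.subgroupOf C).Normal := ⟨fun x hx g => (hC g).conj_Q hx⟩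
  let π : C →* C ⧸ S.Q.subgroupOf C := QuotientGroup.mk' _
  have πs : ∀ y, ∃ x, π x = y := QuotientGroup.mk'_surjective _
  have π1 : ∀ x : C, π x = 1 ↔ (x : G) ∈ S.Q := fun x => QuotientGroup.eq_one_iff x
  have mm : ∀ X : Subgroup G, S.Q ≤ X → ∀ x : C, π x ∈ (X.subgroupOf C).map π ↔ (x : G) ∈ X := by
    intro X hX x
    refine ⟨fun ⟨y, hy, e⟩ => ?_, fun hx => ⟨x, hx, rfl⟩⟩
    have : ((y⁻¹ * x : C) : G) ∈ S.Q := (π1 _).1 (by rw [map_mul, map_inv, e, inv_mul_cancel])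
    exact (X.mul_mem_cancel_left (inv_mem (show (y : G) ∈ X from hy))).1 (hX this)
  have mA : ∀ x : C, π x ∈ (S.RR.subgroupOf C).map π ↔ S.R x := fun x =>
    (mm S.RR (fun _ h => mem_RR.2 (R_Q h)) x).trans mem_RR
  have mN := mm S.K fun _ h => K_Q h
  obtain ⟨g, hg, gK⟩ := S.hH
  choose l hl κl using S.κ_sur
  let a : V4 → C := fun n => ⟨l n, mem_cent.2 (H_L (hl n))⟩
  have aA : ∀ n, π (a n) ∈ (S.RR.subgroupOf C).map π := fun n => (mA _).2 (R_L (hl n))
  have a1 : ∀ n ≠ 0, π (a n) ≠ 1 := fun n h e => h ((κl n).symm.trans (κ_Q ((π1 _).1 e)))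
  obtain ⟨d, h1, h2⟩ := tia (A := (S.RR.subgroupOf C).map π) (N := (S.K.subgroupOf C).map π)
    (g := π ⟨g, mem_cent.2 hg⟩) (a₀ := π (a ![1, 0, 0, 0]))
    (fun x hx => by
      obtain ⟨r, rfl⟩ := πs x
      rw [← map_mul, π1]
      exact R_sq ((mA r).1 hx))
    (fun x hx => by
      obtain ⟨r, rfl⟩ := πs x
      exact (mN r).2 ((mA r).1 hx).K)
    (fun y hy x hx => by
      obtain ⟨r, rfl⟩ := πs x
      obtain ⟨k, rfl⟩ := πs y
      rw [← map_inv, ← map_mul, ← map_mul, mA]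
      exact ((mA r).1 hx).conj ((mN k).1 hy) (hC k))
    (fun y x hx x1 e => by
      obtain ⟨r, rfl⟩ := πs x
      obtain ⟨k, rfl⟩ := πs y
      rw [← map_inv, ← map_mul, ← map_mul, mN] at e
      rw [mN]
      by_contra hk
      rcases d1 (hC k).inv (fun h => hk (inv_mem_iff.1 h)) with b | b
      · exact hn ⟨_, b⟩
      · exact x1 ((π1 r).2 (op_move b ((mA r).1 hx) (by rw [inv_inv]; exact e))))
    (fun h => gK ((mN _).1 h)) (aA _) (a1 _ (by decide))
  choose k hk using fun n => πs (d (π (a n)))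
  have kK : ∀ n ≠ 0, (k n : G) ∈ S.K := fun n h => (mN _).1 (hk n ▸ (h1 _ (aA n) (a1 n h)).1)
  have od : ∀ x : C, (x : G) ∈ S.K → Odd (orderOf (π x)) → S.σ x ^ 15 = 1 := fun x hx o => by
    refine ex_pow (S.σ_mem _ hx) o ?_
    rw [← σ_pow hx]
    exact σ_Q ((π1 (x ^ orderOf (π x))).1 (by rw [map_pow, pow_orderOf_eq_one]))
  refine no_sharp (fun n => S.σ (k n)) (fun n h => ⟨S.σ_mem _ (kK n h), ?_, od _ (kK n h) ?_⟩)
    fun n h m h' => ⟨_, S.σ_mem _ (mul_mem (inv_mem (kK n h)) (kK m h')), od ((k n)⁻¹ * k m)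
      (mul_mem (inv_mem (kK n h)) (kK m h')) ?_, ?_⟩
  · have e := (h1 _ (aA n) (a1 n h)).2.1
    rw [← hk n] at e
    have e' : (((a n)⁻¹ * (k n * a ![1, 0, 0, 0] * (k n)⁻¹) : C) : G) ∈ S.Q :=
      (π1 _).1 (by rw [map_mul, map_mul, map_mul, map_inv, map_inv, e, inv_mul_cancel])
    have r0 := R_L (F := S.toFr) (hl ![1, 0, 0, 0])
    have e'' := (κ_eq (r0.conj (kK n h) (hC _)) (R_L (hl n))).2 e'
    rwa [S.κ_conj _ (kK n h) (hC _) _ r0, κl, κl] at e''
  · rw [hk n]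
    exact (h1 _ (aA n) (a1 n h)).2.2
  · rw [map_mul, map_inv, hk n, hk m]
    exact h2 _ (aA n) (a1 n h) _ (aA m) (a1 m h')
  · rw [← S.σ_mul _ (kK n h) _ (mul_mem (inv_mem (kK n h)) (kK m h')), mul_inv_cancel_left]

end St

end H75.JT
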