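import Cfsg.Agent.Lib.J4T.K3C
import Cfsg.Agent.Lib.J4T.EX

/-! J4T package FIB: see blueprint/J4T/README.md -/

set_option autoImplicit false
set_option linter.unusedSectionVars false

namespace H75.JT

open Subgroup Matrix H75.L7 H75.JT.Fr

variable {G : Type*} [Group G] [Finite G]

theorem fib_pu : ∀ n : V4, n ≠ 0 → PU ![n, 0, 0] ∧ PU (om ![n, 0, 0]) ∧ PU (om (om ![n, 0, 0])) := by
  decide +kernel

set_option synthInstance.maxSize 4000 in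
theorem fib_pu' : ∀ (n : V4) (a b : F2), (![a • n, b • n, 0] : W) ≠ 0 → n ≠ 0 ∧ (![a • n, b • n, 0] = ![n, 0, 0] ∨
    ![a • n, b • n, 0] = om ![n, 0, 0] ∨ ![a • n, b • n, 0] = om (om ![n, 0, 0])) := by
  decide +kernel

theorem fib_om {v : W} (h : FF v) : FF (om v) := by
  have : ∀ a b : V4, a ≠ 0 → (b = J *ᵥ a ∨ b = J *ᵥ (J *ᵥ a)) →
      b ≠ 0 ∧ (a + b = J *ᵥ b ∨ a + b = J *ᵥ (J *ᵥ b)) := by decide +kernel
  exact ⟨h.1, this _ _ h.2.1 h.2.2⟩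

set_option synthInstance.maxSize 4000 in
theorem fib_tr {v w : W} (hv : FF v) (hw : FF w) : ∃ s ∈ SL, act s 1 v = w := by
  have h1 : ∀ s ∈ SL, ∀ a b : V4, (b = J *ᵥ a ∨ b = J *ᵥ (J *ᵥ a)) →
      s *ᵥ b = J *ᵥ (s *ᵥ a) ∨ s *ᵥ b = J *ᵥ (J *ᵥ (s *ᵥ a)) := by
    have j4 : ∀ a : V4, J *ᵥ (J *ᵥ (J *ᵥ (J *ᵥ a))) = J *ᵥ a := by decide +kernel
    intro s hs a b hb
    rcases J_SL s hs with e | e
    · have e' : ∀ a, s *ᵥ (J *ᵥ a) = J *ᵥ (s *ᵥ a) := fun a => by rw [mulVec_mulVec, e, mulVec_mulVec]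
      rcases hb with rfl | rfl
      exacts [.inl (e' a), .inr (by rw [e', e'])]
    · have e' : ∀ a, s *ᵥ (J *ᵥ a) = J *ᵥ (J *ᵥ (s *ᵥ a)) := fun a => by
        rw [mulVec_mulVec, e, mulVec_mulVec, mulVec_mulVec]
      rcases hb with rfl | rfl
      exacts [.inr (e' a), .inl (by rw [e', e', j4])]
  have h2 : ∀ c : V4, ∃ t ∈ SL, t *ᵥ c = c ∧ t *ᵥ (J *ᵥ c) = J *ᵥ (J *ᵥ c) ∧ t *ᵥ (J *ᵥ (J *ᵥ c)) = J *ᵥ c := by
    decide +kernel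
  have h3 : ∀ s : M4, s *ᵥ v 0 = w 0 → s *ᵥ v 1 = w 1 → act s 1 v = w := fun s a b => by
    rw [act_one]
    funext i
    fin_cases i <;> simp [a, b, hv.1, hw.1]
  obtain ⟨s, hs, e⟩ := SL_trans _ _ hv.2.1 hw.2.1
  obtain ⟨t, ht, t0, t1, t2⟩ := h2 (w 0)
  have h4 := h1 s hs _ _ hv.2.2
  rw [e] at h4
  have h5 : (t * s) *ᵥ v 0 = w 0 := by rw [← mulVec_mulVec, e, t0]
  rcases h4 with a | a <;> rcases hw.2.2 with b | b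
  · exact ⟨s, hs, h3 s e (a.trans b.symm)⟩
  · exact ⟨_, SL_mul ht hs, h3 _ h5 (by rw [← mulVec_mulVec, a, t1, b])⟩
  · exact ⟨_, SL_mul ht hs, h3 _ h5 (by rw [← mulVec_mulVec, a, t2, b])⟩
  · exact ⟨s, hs, h3 s e (a.trans b.symm)⟩

set_option synthInstance.maxSize 4000 in
theorem fib_f : ∀ a b : V4, a ≠ 0 → (b = J *ᵥ a ∨ b = J *ᵥ (J *ᵥ a)) → ∀ e : V3,
    ∃ p, e = ![f p b, f p a, 0] ∨ e = ![f p b, f p a, 0] + e2 := by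
  decide +kernel

namespace St

variable {S : St G}

theorem ex_pure (S : St G) : ∃ h n, S.Ov h ![n, 0, 0] := by
  obtain ⟨h, a⟩ := S.ex_nb
  rcases ty a with ⟨n, b⟩ | ⟨v, hv, b⟩
  exacts [⟨h, n, b⟩, k3a hv b]

theorem fib_nb {h : G} {c : V3} (a : S.H h) (hc : Fr.Out c) (hL : h * S.ζ c * h⁻¹ ∈ S.L)
    (n : S.φ (h * S.ζ c * h⁻¹) ≠ 0) : S.Nb h :=
  (d1 a fun k => n (by rw [S.ζ_conj h k, φ_ζ])).resolve_right fun o => o.2 c hc hL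

theorem fib_cz {x y : G} (h : S.Cz x y) (hy : y ∈ S.O) : x ∈ S.O := by
  rcases h with rfl | rfl
  exacts [hy, O_z hy]

theorem fib_ty (b : G) (hb : b ∈ S.O) (hL : b ∈ S.L) : S.φ b = 0 ∨ PU (S.φ b) ∨ FF (S.φ b) := by
  obtain ⟨h, c, a, hc, rfl⟩ := hb
  refine or_iff_not_imp_left.2 fun n => ?_
  rcases ty (fib_nb a hc hL n) with ⟨m, o⟩ | ⟨v, hv, o⟩
  · obtain ⟨p1, p2, p3⟩ := fib_pu m (k3_n o)
    rcases (o.2 _).1 ⟨c, rfl⟩ with e | e | e | e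
    exacts [absurd e n, .inl (e ▸ p1), .inl (e ▸ p2), .inl (e ▸ p3)]
  · rcases (o.2 _).1 ⟨c, rfl⟩ with e | e | e | e
    exacts [absurd e n, .inr (e ▸ hv), .inr (e ▸ fib_om hv), .inr (e ▸ fib_om (fib_om hv))]

theorem fib_ff (l : G) (hl : l ∈ S.L) (hf : FF (S.φ l)) : l ∈ S.O := by
  obtain ⟨h0, n, a0⟩ := S.ex_pure
  obtain ⟨h, v, hv, a⟩ := k3c a0
  obtain ⟨s, hs, e⟩ := fib_tr hv hf
  obtain ⟨k, hk, e1, e2⟩ := S.sur s hs 1 one_GL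
  have o := k3_tr a hk e2
  rw [e1, e] at o
  obtain ⟨c, hc, ec⟩ := ov_ex o
  have bO := mem_O o.1.1 hc
  have bL := o.1.2.2 c
  generalize k * h * S.ζ c * (k * h)⁻¹ = b at ec bO bL
  obtain ⟨d, rfl⟩ := (φ_eq hl bL).1 ec.symm
  rw [← ec] at hf
  obtain ⟨p, hp⟩ := fib_f _ _ hf.2.1 hf.2.2 d
  obtain ⟨r, hr, er⟩ := S.κ_sur p
  have := act1 (R_L hr) bL hf.1
  rw [er] at this
  exact fib_cz (((cz_ζ.2 hp).mul_left b).trans this.symm) (O_conj (H_L hr) bO)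

theorem fib_pure (v : W) (hv : PU v) : {b | b ∈ S.O ∧ b ∈ S.L ∧ S.φ b = v}.ncard = 4 := by
  obtain ⟨v0, n, x, y, ev⟩ := hv
  obtain ⟨n0, hn⟩ := fib_pu' n x y (ev ▸ v0)
  rw [← ev] at hn
  obtain ⟨h0, m, a0⟩ := S.ex_pure
  obtain ⟨h₁, h₂, a₁, a₂, hK⟩ := k3_two a0 n0
  have ex : ∀ {h}, S.Ov h ![n, 0, 0] → ∃ c, Fr.Out c ∧ S.φ (h * S.ζ c * h⁻¹) = v := fun a => by
    obtain ⟨c, e⟩ := (a.2 v).2 (.inr hn)
    exact ⟨c, by_contra fun k => v0 (e ▸ nb_zero a.1 k), e⟩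
  obtain ⟨c₁, o₁, e₁⟩ := ex a₁
  obtain ⟨c₂, o₂, e₂⟩ := ex a₂
  have sub : ∀ {h g c d}, S.Nb h → S.φ (h * S.ζ c * h⁻¹) = v → S.φ (g * S.ζ d * g⁻¹) = v → h⁻¹ * g ∈ S.K →
      S.Cz (g * S.ζ d * g⁻¹) (h * S.ζ c * h⁻¹) := fun {h g c d} a e e' k => by
    have := blk_K (h := h) k d
    rw [mul_inv_cancel_left] at this
    rw [this] at e' ⊢
    generalize cf (S.θ (h⁻¹ * g)) *ᵥ d = d' at e'
    have z : ¬ Fr.Out (d' + c) := fun o => nb_ne a o (by rw [nb_add a, e, e', W_add_self])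
    have w : ∀ d c : V3, ¬ Fr.Out (d + c) → d = c ∨ d = c + e2 := by decide
    exact (cz_ζ.2 (w _ _ z)).conj a.1
  have sup : ∀ {h c b}, S.Nb h → Fr.Out c → S.φ (h * S.ζ c * h⁻¹) = v → S.Cz b (h * S.ζ c * h⁻¹) →
      b ∈ S.O ∧ b ∈ S.L ∧ S.φ b = v := fun a o e z =>
    ⟨fib_cz z (mem_O a.1 o), z.mem S.z_L (a.2.2 _), (z.φ (a.2.2 _)).trans e⟩
  have nc : ∀ {p q}, S.Cz p (h₁ * S.ζ c₁ * h₁⁻¹) → S.Cz q (h₂ * S.ζ c₂ * h₂⁻¹) → p ≠ q := fun z z' e =>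
    hK (same' a₂.1.1 a₁.1.1 o₂ (z'.symm.trans (e ▸ z)))
  have key : {b | b ∈ S.O ∧ b ∈ S.L ∧ S.φ b = v} = {h₁ * S.ζ c₁ * h₁⁻¹, h₁ * S.ζ c₁ * h₁⁻¹ * S.z,
      h₂ * S.ζ c₂ * h₂⁻¹, h₂ * S.ζ c₂ * h₂⁻¹ * S.z} := by
    refine Set.Subset.antisymm ?_ ?_
    · rintro _ ⟨⟨g, d, a, o, rfl⟩, hL, e⟩
      have nb := fib_nb a o hL (e ▸ v0)
      obtain ⟨r, hr, er⟩ := S.κ_sur n
      have ov := sh1 a nb.2.1 (R_L hr) (fun q => n0 (er ▸ κ_Q q))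
        (sh2 nb (R_L hr) o (x := x) (y := y) (by rw [e, ev, er]))
      rw [er] at ov
      rcases k3b a₁ a₂ ov with k | k | k
      · exact absurd k hK
      · rcases sub a₁.1 e₁ e k with z | z
        exacts [.inl z, .inr (.inl z)]
      · exact .inr (.inr (sub a₂.1 e₂ e k))
    · rintro _ (rfl | rfl | rfl | rfl)
      exacts [sup a₁.1 o₁ e₁ (S.cz_refl _), sup a₁.1 o₁ e₁ (S.cz_z _), sup a₂.1 o₂ e₂ (S.cz_refl _),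
        sup a₂.1 o₂ e₂ (S.cz_z _)]
  have zz : ∀ p : G, p ≠ p * S.z := fun p e => S.z_ne (by simpa using e)
  rw [key, Set.ncard_insert_of_notMem, Set.ncard_insert_of_notMem, Set.ncard_pair (zz _)]
  · rintro (e | e)
    exacts [nc (S.cz_z _) (S.cz_refl _) e, nc (S.cz_z _) (S.cz_z _) e]
  · rintro (e | e | e)
    exacts [zz _ e, nc (S.cz_refl _) (S.cz_refl _) e, nc (S.cz_refl _) (S.cz_z _) e]

theorem fib (S : St G) : S.Fib := ⟨fib_ty, fib_ff, fib_pure⟩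

end St

end H75.JT
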