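import Cfsg.Agent.Lib.J4T.Raw

/-! J4T package FRX: see blueprint/J4T/README.md -/

set_option autoImplicit false
set_option linter.unusedSectionVars false

namespace H75.JT

open Subgroup Matrix H75.L7

variable {G : Type*} [Group G] [Finite G] {K L Z : Subgroup G} {π : K →* S5 × SL3}

theorem frx_y0 : ∃ y : SL3, y ^ 7 = 1 ∧ y ≠ 1 := by
  refine ⟨⟨!![0, 0, 1; 1, 0, 1; 0, 1, 0], by decide +kernel⟩, Subtype.ext ?_, fun e => ?_⟩
  · refine (Matrix.SpecialLinearGroup.coe_pow _ 7).trans ?_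
    show (!![0, 0, 1; 1, 0, 1; 0, 1, 0] : M3) ^ 7 = 1
    simp only [pow_succ, pow_zero]
    decide +kernel
  · exact absurd (congrArg (fun x : SL3 => x.1 0 0) e) (by decide +kernel)

theorem Raw.frx_xy (h : Raw K L Z π) {p : S5} (p3 : p ^ 3 = 1) (p1 : p ≠ 1) :
    ∃ x y : K, π x = (p, 1) ∧ (π y).1 = 1 ∧ (x : G) ^ 3 = 1 ∧ orderOf (y : G) = 7 ∧
      (∀ l ∈ L, Commute (x : G) l ↔ l ∈ Z) ∧ ∀ l ∈ L, Commute (y : G) l → l = 1 := by
  obtain ⟨y0, y7, y1⟩ := frx_y0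
  obtain ⟨k, hk⟩ := h.sur (p, y0)
  have a : ((k ^ 21 : K) : G) ∈ L := (h.ker _).1 (by
    rw [map_pow, hk, Prod.pow_mk, show 21 = 3 * 7 from rfl, pow_mul, p3, one_pow, mul_comm, pow_mul, y7, one_pow]; rfl)
  have b : (k : G) ^ 84 = 1 := by
    have := h.zsq _ (h.sqZ _ a)
    rw [Subgroup.coe_pow, ← pow_add, ← pow_add] at this
    exact this
  have ex : π (k ^ 28) = (p, 1) := by
    rw [map_pow, hk, Prod.pow_mk, show y0 ^ 28 = (y0 ^ 7) ^ 4 by rw [← pow_mul],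
      show p ^ 28 = (p ^ 3) ^ 9 * p by rw [← pow_mul, ← pow_succ], y7, p3]; simp
  have ey : π (k ^ 36) = (1, y0) := by
    rw [map_pow, hk, Prod.pow_mk, show y0 ^ 36 = (y0 ^ 7) ^ 5 * y0 by rw [← pow_mul, ← pow_succ],
      show p ^ 36 = (p ^ 3) ^ 12 by rw [← pow_mul], y7, p3]; simp
  have x3 : ((k ^ 28 : K) : G) ^ 3 = 1 := by rw [Subgroup.coe_pow, ← pow_mul]; exact b
  have y7' : ((k ^ 36 : K) : G) ^ 7 = 1 := by
    rw [Subgroup.coe_pow, ← pow_mul, show 36 * 7 = 84 * 3 from rfl, pow_mul, b, one_pow]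
  haveI : Fact (Nat.Prime 3) := ⟨by norm_num⟩
  haveI : Fact (Nat.Prime 7) := ⟨by norm_num⟩
  have ox : orderOf ((k ^ 28 : K) : G) = 3 := orderOf_eq_prime x3 fun e => p1 (by
    have e' : k ^ 28 = 1 := Subtype.ext e
    rw [e', map_one] at ex
    exact (congrArg Prod.fst ex).symm)
  have oy : orderOf ((k ^ 36 : K) : G) = 7 := orderOf_eq_prime y7' fun e => y1 (by
    have e' : k ^ 36 = 1 := Subtype.ext e
    rw [e', map_one] at ey
    exact (congrArg Prod.snd ey).symm)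
  obtain ⟨c, d⟩ := h.xy _ (k ^ 28).2 _ (k ^ 36).2 ox oy (by
    rw [Subgroup.coe_pow, Subgroup.coe_pow]; exact Commute.pow_pow_self _ _ _)
  exact ⟨k ^ 28, k ^ 36, ex, by rw [ey], x3, oy, c, d⟩

theorem Raw.three (h : Raw K L Z π) {p : S5} (hp : p.IsThreeCycle) :
    ∃ x : K, π x = (p, 1) ∧ ∀ l ∈ L, (x : G) * l * (x : G)⁻¹ * l⁻¹ ∈ Z → l ∈ Z := by
  obtain ⟨x, y, a, -, x3, -, c, -⟩ := h.frx_xy (p := p) (hp.orderOf ▸ pow_orderOf_eq_one p) fun e => by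
    have := hp.orderOf
    rw [e, orderOf_one] at this
    omega
  refine ⟨x, a, fun l hl hz => (c l hl).1 (comm_of_conj_eq ?_)⟩
  obtain ⟨d, hd⟩ : ∃ d, d = (x : G) * l * (x : G)⁻¹ * l⁻¹ := ⟨_, rfl⟩
  rw [← hd] at hz
  have e1 : (x : G) * l * (x : G)⁻¹ = d * l := by rw [hd]; group
  have e2 : (x : G) * d * (x : G)⁻¹ = d := conj_eq_of_comm ((c d (h.ZL hz)).2 hz)
  have e3 : ∀ a : G, (x : G) * a * (x : G)⁻¹ = a → (x : G) * (a * l) * (x : G)⁻¹ = a * d * l := fun a ha => by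
    calc _ = (x * a * (x : G)⁻¹) * (x * l * (x : G)⁻¹) := by group
      _ = _ := by rw [ha, e1, mul_assoc a]
  have e4 : (x : G) ^ 3 * l * ((x : G) ^ 3)⁻¹ = d * l := by
    calc _ = x * (x * (x * l * (x : G)⁻¹) * (x : G)⁻¹) * (x : G)⁻¹ := by
          simp only [pow_succ, pow_zero, one_mul, _root_.mul_inv_rev, mul_assoc]
      _ = _ := by rw [e1, e3 d e2, h.zsq d hz, one_mul, e1]
  rw [x3] at e4
  rw [e1, ← e4]; group

theorem Raw.frx_y (h : Raw K L Z π) :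
    ∃ y : K, (π y).1 = 1 ∧ orderOf (y : G) = 7 ∧ ∀ l ∈ L, Commute (y : G) l → l = 1 := by
  obtain ⟨x, y, -, a, -, b, -, c⟩ := h.frx_xy (p := Equiv.swap 0 1 * Equiv.swap 0 2) (by decide) (by decide)
  exact ⟨y, a, b, c⟩

theorem Raw.seven (h : Raw K L Z π) :
    ∃ y : K, (π y).1 = 1 ∧ ∀ l ∈ L, (y : G) * l * (y : G)⁻¹ * l⁻¹ ∈ Z → l ∈ Z := by
  obtain ⟨y, a, -, c⟩ := h.frx_y
  refine ⟨y, a, fun l hl hz => ?_⟩
  obtain ⟨d, hd, e⟩ := fpf_comm ((h.nm y).1 y.2) (fun x hx k => c x (h.ZL hx) k.symm) hz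
  have k := (h.cen _ hz d (h.ZL hd)).eq
  obtain ⟨t, ht⟩ : ∃ t, t = (y : G) * l * (y : G)⁻¹ * l⁻¹ := ⟨_, rfl⟩
  rw [← ht] at e k
  have e1 : (y : G) * l * (y : G)⁻¹ = t * l := by rw [ht]; group
  have e2 : (y : G) * d * (y : G)⁻¹ = t⁻¹ * d := by rw [← e]; group
  have := c (d * l) (mul_mem (h.ZL hd) hl) (comm_of_conj_eq (by
    calc _ = (y * d * (y : G)⁻¹) * (y * l * (y : G)⁻¹) := by group
      _ = t⁻¹ * (d * t) * l := by rw [e1, e2]; group
      _ = _ := by rw [← k]; group))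
  rw [← inv_eq_iff_mul_eq_one] at this
  exact this ▸ inv_mem hd

theorem Raw.frx_inv (h : Raw K L Z π) (k : K) (hk : (π k).2 = 1) (k2 : (π k).1 * (π k).1 = 1) :
    ∀ c ∈ Z, Commute (k : G) c := by
  obtain ⟨y, a, oy, fy⟩ := h.frx_y
  have kk : (k : G) * k ∈ L := (h.ker (k * k)).1 (by rw [map_mul]; exact Prod.ext k2 (by simp [hk]))
  have nk : Nm (k : G) Z := (h.nm k).1 k.2
  have ny : Nm (y : G) Z := (h.nm y).1 y.2
  obtain ⟨c, hc, c1, ck⟩ : ∃ c ∈ Z, c ≠ 1 ∧ Commute (k : G) c := by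
    obtain ⟨⟨c, hc⟩, c1⟩ := (Subgroup.ne_bot_iff_exists_ne_one (H := Z)).1 fun e => by
      have := h.cardZ
      rw [e, Subgroup.card_bot] at this
      omega
    by_cases e : c * (k * c * (k : G)⁻¹) = 1
    · refine ⟨c, hc, fun e => c1 (Subtype.ext e), comm_of_conj_eq ?_⟩
      exact mul_left_cancel (e.trans (h.zsq c hc).symm)
    · refine ⟨_, mul_mem hc (nk c hc), e, comm_of_conj_eq ?_⟩
      calc _ = (k * c * (k : G)⁻¹) * (k * k * c * ((k : G) * k)⁻¹) := by group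
        _ = _ := by rw [conj_eq_of_comm (h.cen c hc _ kk).symm, (h.cen c hc _ (h.ZL (nk c hc))).eq]
  have yk : (y : G)⁻¹ * k * y * (k : G)⁻¹ ∈ L := (h.ker (y⁻¹ * k * y * k⁻¹)).1 (by
    simp only [map_mul, map_inv]
    exact Prod.ext (by simp [a]) (by simp [hk]))
  let D := Z ⊓ centralizer {(k : G)}
  have nD : Nm (y : G) D := fun d hd => ⟨ny d hd.1, mem_cent.2 (by
    have a1 : Commute d ((y : G)⁻¹ * k * y) := by
      have := (h.cen d hd.1 _ yk).mul_right (mem_cent.1 hd.2)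
      simpa using this
    have := a1.conj (y : G)
    simpa [mul_assoc] using this)⟩
  have cD : c ∈ D := ⟨hc, mem_cent.2 ck.symm⟩
  have y7 : (y : G) ^ 7 = 1 := oy ▸ pow_orderOf_eq_one _
  have inj : ∀ i j : Fin 7, (y : G) ^ (i : ℕ) * c * ((y : G) ^ (i : ℕ))⁻¹ = (y : G) ^ (j : ℕ) * c * ((y : G) ^ (j : ℕ))⁻¹ →
      i = j := fun i j e => by
    by_contra n
    have cp : Nat.Coprime (6 * j + i) (orderOf (y : G)) := by
      rw [oy]; clear e; revert i j; decide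
    obtain ⟨m, hm⟩ := exists_pow_eq_self_of_coprime cp
    have e1 : (y : G) ^ (6 * j : ℕ) = ((y : G) ^ (j : ℕ))⁻¹ := eq_inv_of_mul_eq_one_left (by
      rw [← pow_add, show 6 * (j : ℕ) + j = 7 * j by ring, pow_mul, y7, one_pow])
    have e2 : Commute ((y : G) ^ (6 * j + i : ℕ)) c := comm_of_conj_eq (by
      rw [pow_add, e1]
      calc _ = ((y : G) ^ (j : ℕ))⁻¹ * ((y : G) ^ (i : ℕ) * c * ((y : G) ^ (i : ℕ))⁻¹) * (y : G) ^ (j : ℕ) := by group
        _ = _ := by rw [e]; group)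
    exact c1 (fy c (h.ZL hc) (hm ▸ e2.pow_left m))
  let F : Option (Fin 7) → D := fun o => o.elim 1 fun i => ⟨_, nD.pow i c cD⟩
  have n1 : ∀ i : ℕ, (y : G) ^ i * c * ((y : G) ^ i)⁻¹ ≠ 1 := fun i e => c1 (by simpa using e)
  have hF : Function.Injective F := by
    rintro (_ | i) (_ | j) e
    · rfl
    · exact absurd (congrArg Subtype.val e).symm (n1 j)
    · exact absurd (congrArg Subtype.val e) (n1 i)
    · rw [inj i j (congrArg Subtype.val e)]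
  have := Nat.card_le_card_of_injective F hF
  have eD : D = Z := Subgroup.eq_of_le_of_card_ge inf_le_left (by rw [h.cardZ]; simpa using this)
  exact fun d hd => (mem_cent.1 (eD.ge hd).2).symm

theorem Raw.cz (h : Raw K L Z π) (k : K) (hk : (π k).2 = 1) : ∀ c ∈ Z, Commute (k : G) c := by
  suffices H : ∀ p : S5, ∀ k : K, π k = (p, 1) → ∀ c ∈ Z, Commute (k : G) c from H _ k (Prod.ext rfl hk)
  intro p
  induction p using Equiv.Perm.swap_induction_on with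
  | one => exact fun k e c hc => (h.cen c hc k ((h.ker k).1 e)).symm
  | swap_mul f x y _ ih =>
    intro k e c hc
    obtain ⟨k1, e1⟩ := h.sur (Equiv.swap x y, 1)
    have a := h.frx_inv k1 (by rw [e1]) (by rw [e1]; exact Equiv.swap_mul_self x y) c hc
    have b := ih (k1⁻¹ * k) (by rw [map_mul, map_inv, e, e1]; simp) c hc
    simpa using a.mul_left b

end H75.JT
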