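import Cfsg.Agent.Lib.J4T.MB
import Cfsg.Agent.Lib.J4T.FRX

/-! J4T package FRA: see blueprint/J4T/README.md -/

set_option autoImplicit false

namespace H75.JT

open Subgroup Matrix H75.L7

universe u

theorem fra_nm {G : Type*} [Group G] {K L Z : Subgroup G} {π : K →* S5 × SL3} (h : Raw K L Z π)
    (k : K) {l : G} (hl : l ∈ L) : (k : G) * l * (k : G)⁻¹ ∈ L :=
  (h.ker (k * ⟨l, h.LK hl⟩ * k⁻¹)).1 (by
    rw [map_mul, map_mul, (h.ker ⟨l, h.LK hl⟩).2 hl, mul_one, map_inv, mul_inv_cancel])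

theorem fra_mod {G : Type u} [Group G] [Finite G] {K L Z : Subgroup G} {π : K →* S5 × SL3}
    (h : Raw K L Z π) : ∃ (V : Type u) (_ : AddCommGroup V) (_ : Module F2 V) (_ : Finite V) (ψ : G → V)
      (ρ : S5 × SL3 →* Module.End F2 V), Nat.card V = 2 ^ 12 ∧
      (∀ l ∈ L, ∀ l' ∈ L, ψ (l * l') = ψ l + ψ l') ∧ (∀ l ∈ L, ψ l = 0 ↔ l ∈ Z) ∧
      (∀ v, ∃ l ∈ L, ψ l = v) ∧ ∀ k : K, ∀ l ∈ L, ψ (k * l * (k : G)⁻¹) = ρ (π k) (ψ l) := by
  classical
  haveI hN : (Z.subgroupOf L).Normal := ⟨fun n hn g => by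
    change (g : G) * n * (g : G)⁻¹ ∈ Z
    rw [← (h.cen n hn g g.2).eq, mul_inv_cancel_right]; exact hn⟩
  letI : CommGroup (L ⧸ Z.subgroupOf L) :=
    { (inferInstance : Group (L ⧸ Z.subgroupOf L)) with
      mul_comm := fun a b => by
        obtain ⟨a, rfl⟩ := QuotientGroup.mk_surjective a
        obtain ⟨b, rfl⟩ := QuotientGroup.mk_surjective b
        rw [← QuotientGroup.mk_mul, ← QuotientGroup.mk_mul, QuotientGroup.eq]
        have := h.cmZ _ (inv_mem b.2) _ (inv_mem a.2)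
        rw [inv_inv, inv_inv, mul_assoc, ← _root_.mul_inv_rev] at this
        exact this }
  letI : Module F2 (Additive (L ⧸ Z.subgroupOf L)) := AddCommGroup.zmodModule fun x => by
    obtain ⟨a, e⟩ := QuotientGroup.mk_surjective x.toMul
    change x.toMul ^ 2 = 1
    rw [← e, ← QuotientGroup.mk_pow, QuotientGroup.eq_one_iff, pow_two]
    exact h.sqZ a a.2
  let c : K → L →* L := fun k =>
    ((MulAut.conj (k : G)).toMonoidHom.comp L.subtype).codRestrict L fun l => fra_nm h k l.2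
  let r : K → Module.End F2 (Additive (L ⧸ Z.subgroupOf L)) := fun k =>
    (MonoidHom.toAdditive (QuotientGroup.map (Z.subgroupOf L) (Z.subgroupOf L) (c k) fun z hz =>
      (h.nm k).1 k.2 z hz)).toZModLinearMap 2
  have hr : ∀ k (l : L), r k (Additive.ofMul (l : L ⧸ Z.subgroupOf L)) =
      Additive.ofMul (c k l : L ⧸ Z.subgroupOf L) := fun _ _ => rfl
  have ext : ∀ f g : Module.End F2 (Additive (L ⧸ Z.subgroupOf L)),
      (∀ l : L, f (Additive.ofMul (l : L ⧸ Z.subgroupOf L)) = g (Additive.ofMul (l : L ⧸ Z.subgroupOf L))) →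
        f = g := fun f g e => LinearMap.ext fun x => by
    obtain ⟨a, e'⟩ := QuotientGroup.mk_surjective x.toMul
    rw [show x = Additive.ofMul (a : L ⧸ Z.subgroupOf L) from congrArg Additive.ofMul e'.symm]
    exact e a
  have r1 : ∀ k : K, (k : G) ∈ L → r k = 1 := fun k hk => ext _ _ fun l => by
    rw [hr, show c k l = ⟨k, hk⟩ * l * ⟨k, hk⟩⁻¹ from rfl, QuotientGroup.mk_mul, QuotientGroup.mk_mul,
      QuotientGroup.mk_inv, mul_inv_cancel_comm]
    rfl
  have rm : ∀ k k', r (k * k') = r k * r k' := fun k k' => ext _ _ fun l => by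
    rw [Module.End.mul_apply, hr, hr, hr]
    exact congrArg (fun x : L => Additive.ofMul (x : L ⧸ Z.subgroupOf L))
      (Subtype.ext (by simp [c, mul_assoc]))
  have re : ∀ k k', π k = π k' → r k = r k' := fun k k' e => by
    rw [← mul_inv_cancel_left k' k, rm, r1 (k'⁻¹ * k) ((h.ker _).1 (by
      rw [map_mul, map_inv, e, inv_mul_cancel])), mul_one]
  have hs := Function.surjInv_eq h.sur
  refine ⟨Additive (L ⧸ Z.subgroupOf L), inferInstance, inferInstance, inferInstance,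
    fun g => if e : g ∈ L then Additive.ofMul ((⟨g, e⟩ : L) : L ⧸ Z.subgroupOf L) else 0,
    ⟨⟨fun x => r (Function.surjInv h.sur x), r1 _ ((h.ker _).1 (hs 1))⟩, fun x y => by
      rw [← rm]; exact re _ _ (by rw [map_mul, hs, hs, hs])⟩, ?_, fun l hl l' hl' => ?_,
    fun l hl => ?_, fun v => ?_, fun k l hl => ?_⟩
  · have := card_eq_card_quotient_mul_card_subgroup (Z.subgroupOf L)
    rw [h.cardL, Nat.card_congr (subgroupOfEquivOfLe h.ZL).toEquiv, h.cardZ] at this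
    change Nat.card (L ⧸ Z.subgroupOf L) = _
    omega
  · simp only [dif_pos hl, dif_pos hl', dif_pos (mul_mem hl hl')]
    rfl
  · simp only [dif_pos hl]
    exact QuotientGroup.eq_one_iff (N := Z.subgroupOf L) _
  · obtain ⟨a, e⟩ := QuotientGroup.mk_surjective v.toMul
    exact ⟨a, a.2, by simp only [dif_pos a.2]; exact congrArg Additive.ofMul e⟩
  · simp only [dif_pos hl, dif_pos (fra_nm h k hl)]
    change _ = r (Function.surjInv h.sur (π k)) _
    rw [re _ k (hs _)]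
    rfl

variable {G : Type*} [Group G] [Finite G] {K L Z : Subgroup G} {π : K →* S5 × SL3}

theorem Raw.fr0 (h : Raw K L Z π) : Nonempty (Fr0 G) := by
  classical
  obtain ⟨V, _, _, _, ψ, ρ, hV, ψm, ψk, ψs, ψc⟩ := fra_mod h
  have fx : ∀ k : K, (∀ l ∈ L, (k : G) * l * (k : G)⁻¹ * l⁻¹ ∈ Z → l ∈ Z) →
      ∀ v, ρ (π k) v = v → v = 0 := fun k hk v e => by
    obtain ⟨l, hl, rfl⟩ := ψs v
    have m := mul_mem (fra_nm h k hl) (inv_mem hl)
    refine (ψk l hl).2 (hk l hl ((ψk _ m).1 ?_))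
    have := ψm _ m l hl
    rw [inv_mul_cancel_right, ψc k l hl, e] at this
    exact (add_eq_right.1 this.symm)
  obtain ⟨Φ, ν, α, ν1, ν2, ν3, α1, α2, α3, e⟩ := mb hV ρ (fun p hp => by
    obtain ⟨x, hx, k⟩ := h.three hp
    exact hx ▸ fx x k) (by
    obtain ⟨y, hy, k⟩ := h.seven
    exact ⟨(π y).2, (show ((1 : S5), (π y).2) = π y from Prod.ext hy.symm rfl) ▸ fx y k⟩)
  refine ⟨⟨K, L, Z, fun g => Φ.symm (ψ g), fun g => if e : g ∈ K then ν (π ⟨g, e⟩).1 else 1,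
    fun g => if e : g ∈ K then α (π ⟨g, e⟩).2 else 1, h.LK, h.ZL, h.cardZ,
    fun l hl l' hl' => by rw [ψm l hl l' hl', map_add],
    fun l hl => Φ.symm.map_eq_zero_iff.trans (ψk l hl), fun u => ?_, h.cen, h.zsq, h.der,
    fun k hk k' hk' => ?_, fun k hk k' hk' => ?_, fun k hk => ?_, fun k hk => ?_,
    fun s hs g hg => ?_, fun k hk => ?_, fun k hk l hl => ?_, fun k hk => ?_, h.nm⟩⟩
  · obtain ⟨l, hl, e⟩ := ψs (Φ u)
    exact ⟨l, hl, by rw [e, Φ.symm_apply_apply]⟩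
  · rw [dif_pos hk, dif_pos hk', dif_pos (mul_mem hk hk'), ← map_mul, ← Prod.fst_mul, ← map_mul]; rfl
  · rw [dif_pos hk, dif_pos hk', dif_pos (mul_mem hk hk'), ← map_mul, ← Prod.snd_mul, ← map_mul]; rfl
  · rw [dif_pos hk]; exact ν1 _
  · rw [dif_pos hk]; exact α1 _
  · obtain ⟨p, rfl⟩ := ν2 s hs
    obtain ⟨y, rfl⟩ := α2 g hg
    obtain ⟨k, e⟩ := h.sur (p, y)
    exact ⟨k, k.2, by rw [dif_pos k.2, e], by rw [dif_pos k.2, e]⟩
  · rw [dif_pos hk, dif_pos hk, map_eq_one_iff ν ν3, map_eq_one_iff α α3]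
    exact (h.ker ⟨k, hk⟩).symm.trans Prod.ext_iff
  · rw [dif_pos hk, dif_pos hk, ψc ⟨k, hk⟩ l hl, LinearEquiv.symm_apply_eq, ← e, Φ.apply_symm_apply]
  · rw [dif_pos hk, map_eq_one_iff α α3]
    exact h.cz ⟨k, hk⟩

end H75.JT
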