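import Cfsg.Agent.Lib.J4T.Mat

/-! J4T package FRB: see blueprint/J4T/README.md -/

set_option autoImplicit false

namespace H75.JT

open Subgroup Matrix H75.L7

theorem frb_orb : ∀ n m : V4, f n m = 1 → ∃ s ∈ SL, s *ᵥ ![1, 0, 0, 0] = n ∧ s *ᵥ ![0, 0, 0, 1] = m := by
  decide +kernel

theorem frb_B_sur : ∀ c : V3, ∃ w w' : V3,
    B (fun i => w i • ![1, 0, 0, 0]) (fun i => w' i • ![0, 0, 0, 1]) = c := by decide +kernel

theorem frb_single (s : M4) (i : Fin 3) (n : V4) : act s 1 (Pi.single i n) = Pi.single i (s *ᵥ n) := by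
  rw [act_one]; funext j
  by_cases h : j = i
  · subst h; simp
  · simp [h]

theorem frb_la {A : Type*} [AddCommGroup A] [Module F2 A] (β : W → W → A) (Sq : W → A)
    (hl : ∀ u v w, β (u + v) w = β u w + β v w) (hr : ∀ u v w, β u (v + w) = β u v + β u w)
    (hs : ∀ u v, Sq (u + v) = Sq u + Sq v + β u v) (i1 : ∀ s ∈ SL, ∀ u v, β (act s 1 u) (act s 1 v) = β u v)
    (i2 : ∀ s ∈ SL, ∀ u, Sq (act s 1 u) = Sq u) :
    ∃ ζ : V3 → A, (∀ c d, ζ (c + d) = ζ c + ζ d) ∧ (∀ u v, β u v = ζ (B u v)) ∧ ∀ u, Sq u = ζ (q u) := by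
  have two : ∀ a : A, a + a = 0 := fun a => by rw [← two_smul F2, show (2 : F2) = 0 from rfl, zero_smul]
  have z0 : ∀ v, β 0 v = 0 := fun v => by simpa using hl 0 0 v
  have sym : ∀ u v, β u v = β v u := fun u v => by
    have := hs u v
    rw [add_comm u, hs, add_comm (Sq v)] at this
    exact (add_left_cancel this).symm
  obtain ⟨γ, hγ⟩ : ∃ γ : Fin 3 → Fin 3 → A, ∀ i j,
    γ i j = β (Pi.single i ![1, 0, 0, 0]) (Pi.single j ![0, 0, 0, 1]) := ⟨_, fun _ _ => rfl⟩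
  have b1 : ∀ i j n m, f n m = 1 → β (Pi.single i n) (Pi.single j m) = γ i j := fun i j n m h => by
    obtain ⟨s, hs, rfl, rfl⟩ := frb_orb n m h
    rw [← frb_single, ← frb_single, i1 s hs, hγ]
  have b : ∀ i j n m, β (Pi.single i n) (Pi.single j m) = f n m • γ i j := fun i j n m => by
    rcases F2_cases (f n m) with h | h
    · rw [h, zero_smul]
      by_cases hn : n = 0
      · rw [hn, Pi.single_zero, z0]
      obtain ⟨m', h'⟩ := f_nd n hn
      have := b1 i j n (m + m') (by rw [f_add_right, h, h', zero_add])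
      rw [Pi.single_add, hr, b1 i j n m' h'] at this
      simpa using this
    · rw [h, one_smul, b1 i j n m h]
  have c1 : ∀ i n, n ≠ 0 → Sq (Pi.single i n) = Sq (Pi.single i ![1, 0, 0, 0]) := fun i n hn => by
    obtain ⟨s, hs, rfl⟩ := SL_trans ![1, 0, 0, 0] n (by decide) hn
    rw [← frb_single, i2 s hs]
  have c2 : ∀ i, Sq (Pi.single i ![1, 0, 0, 0]) = 0 := fun i => by
    have := hs (Pi.single i ![1, 0, 0, 0]) (Pi.single i ![0, 1, 0, 0])
    rwa [← Pi.single_add, c1 i _ (by decide), c1 i ![0, 1, 0, 0] (by decide), two, b,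
      show f ![1, 0, 0, 0] ![0, 1, 0, 0] = 0 by decide, zero_smul, add_zero] at this
  have c : ∀ i n, Sq (Pi.single i n) = 0 := fun i n => by
    by_cases hn : n = 0
    · have := hs 0 0
      rw [add_zero, two, z0, add_zero] at this
      rw [hn, Pi.single_zero, this]
    · rw [c1 i n hn, c2]
  have g0 : ∀ i, γ i i = 0 := fun i => by
    have := hs (Pi.single i ![1, 0, 0, 0]) (Pi.single i ![0, 0, 0, 1])
    rw [← Pi.single_add, c, c, c, ← hγ] at this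
    simpa using this.symm
  have gs : ∀ i j, γ i j = γ j i := fun i j => by rw [hγ, sym, b1 _ _ _ _ (by decide)]
  have dec : ∀ u : W, u = Pi.single 0 (u 0) + Pi.single 1 (u 1) + Pi.single 2 (u 2) := fun u => by
    funext i; fin_cases i <;> simp
  refine ⟨fun c => c 0 • γ 1 2 + c 1 • γ 2 0 + c 2 • γ 0 1, fun c d => ?_, fun u v => ?_, fun u => ?_⟩
  · simp only [Pi.add_apply, add_smul]; abel
  · conv_lhs => rw [dec u, dec v]
    simp only [hl, hr, b, g0, gs 2 1, gs 0 2, gs 1 0, B, cons_val_zero, cons_val_one, cons_val, add_smul, smul_zero]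
    abel
  · conv_lhs => rw [dec u]
    simp only [hs, hl, b, c, gs 0 2, q, cons_val_zero, cons_val_one, cons_val, f_comm (u 0) (u 2)]
    abel

theorem Fr0.fr {G : Type*} [Group G] [Finite G] (F : Fr0 G) : Nonempty (Fr G) := by
  choose s hs hs' using F.φ_sur
  have p1 : F.φ 1 = 0 := (F.φ_ker 1 (one_mem _)).2 (one_mem _)
  have pi : ∀ l ∈ F.L, F.φ l⁻¹ = F.φ l := fun l h =>
    W_add_eq_zero.1 (by rw [← F.φ_mul _ (inv_mem h) _ h, inv_mul_cancel, p1])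
  have cZ : ∀ l ∈ F.L, ∀ l' ∈ F.L, l * l' * l⁻¹ * l'⁻¹ ∈ F.Z := fun l h l' h' => by
    rw [← F.φ_ker _ (mul_mem (mul_mem (mul_mem h h') (inv_mem h)) (inv_mem h')),
      F.φ_mul _ (mul_mem (mul_mem h h') (inv_mem h)) _ (inv_mem h'), F.φ_mul _ (mul_mem h h') _ (inv_mem h),
      F.φ_mul _ h _ h', pi l h, pi l' h', add_right_comm (F.φ l), W_add_self, zero_add, W_add_self]
  have sZ : ∀ l ∈ F.L, l * l ∈ F.Z := fun l h => by rw [← F.φ_ker _ (mul_mem h h), F.φ_mul _ h _ h, W_add_self]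
  have eq : ∀ l ∈ F.L, ∃ c ∈ F.Z, l = c * s (F.φ l) := fun l h =>
    ⟨l * (s (F.φ l))⁻¹, by
      rw [← F.φ_ker _ (mul_mem h (inv_mem (hs _))), F.φ_mul _ h _ (inv_mem (hs _)), pi _ (hs _), hs', W_add_self],
      by group⟩
  have kL : ∀ k ∈ F.K, ∀ l ∈ F.L, k * l * k⁻¹ ∈ F.L := fun k h l hl => by
    have o := (F.ker 1 (one_mem _)).1 (one_mem _)
    have a := (F.ker l (F.LK hl)).1 hl
    rw [F.ker _ (mul_mem (mul_mem h (F.LK hl)) (inv_mem h)), F.σ_mul _ (mul_mem h (F.LK hl)) _ (inv_mem h),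
      F.θ_mul _ (mul_mem h (F.LK hl)) _ (inv_mem h), F.σ_mul _ h _ (F.LK hl), F.θ_mul _ h _ (F.LK hl), a.1, a.2,
      mul_one, mul_one, ← F.σ_mul _ h _ (inv_mem h), ← F.θ_mul _ h _ (inv_mem h), mul_inv_cancel]
    exact o
  have cc : ∀ c ∈ F.Z, ∀ l ∈ F.L, ∀ l' ∈ F.L, c * l * l' * (c * l)⁻¹ * l'⁻¹ = l * l' * l⁻¹ * l'⁻¹ :=
    fun c hc l h l' h' => by
      have := conj_eq_of_comm (F.cen c hc _ (mul_mem (mul_mem h h') (inv_mem h)))
      calc _ = c * (l * l' * l⁻¹) * c⁻¹ * l'⁻¹ := by group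
        _ = _ := by rw [this]
  have eβ : ∀ l ∈ F.L, ∀ l' ∈ F.L, l * l' * l⁻¹ * l'⁻¹ =
      s (F.φ l) * s (F.φ l') * (s (F.φ l))⁻¹ * (s (F.φ l'))⁻¹ := fun l h l' h' => by
    obtain ⟨c, hc, e⟩ := eq l h
    obtain ⟨d, hd, e'⟩ := eq l' h'
    have a := cc c hc _ (hs (F.φ l)) _ h'
    have b := congrArg (·⁻¹) (cc d hd _ (hs (F.φ l')) _ (hs (F.φ l)))
    rw [← e] at a
    rw [← e'] at b
    rw [a]
    simpa [mul_assoc] using b
  have eS : ∀ l ∈ F.L, l * l = s (F.φ l) * s (F.φ l) := fun l h => by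
    obtain ⟨c, hc, e⟩ := eq l h
    calc l * l = c * (s (F.φ l) * c) * s (F.φ l) := by rw [← mul_assoc, mul_assoc _ c, ← e]
      _ = _ := by rw [← (F.cen c hc _ (hs _)).eq, ← mul_assoc, F.zsq c hc, one_mul]
  letI : CommGroup F.Z := { (inferInstance : Group F.Z) with
    mul_comm := fun a b => Subtype.ext (F.cen a a.2 b (F.ZL b.2)).eq }
  letI : Module F2 (Additive F.Z) := AddCommGroup.zmodModule (n := 2) fun x => by
    rw [two_nsmul]; exact Subtype.ext (F.zsq _ x.toMul.2)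
  obtain ⟨ζ, z1, z2, z3⟩ := frb_la (A := Additive F.Z)
    (fun u v => Additive.ofMul ⟨s u * s v * (s u)⁻¹ * (s v)⁻¹, cZ _ (hs u) _ (hs v)⟩)
    (fun u => Additive.ofMul ⟨s u * s u, sZ _ (hs u)⟩) (fun u v w => Subtype.ext (by
      have := eβ _ (mul_mem (hs u) (hs v)) _ (hs w)
      rw [F.φ_mul _ (hs u) _ (hs v), hs', hs', hs'] at this
      refine this.symm.trans ?_
      show _ = s u * s w * (s u)⁻¹ * (s w)⁻¹ * (s v * s w * (s v)⁻¹ * (s w)⁻¹)
      rw [← (F.cen _ (cZ _ (hs v) _ (hs w)) _ (F.ZL (cZ _ (hs u) _ (hs w)))).eq]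
      calc _ = s u * (s v * s w * (s v)⁻¹ * (s w)⁻¹) * (s w * (s u)⁻¹ * (s w)⁻¹) := by group
        _ = _ := by rw [← (F.cen _ (cZ _ (hs v) _ (hs w)) _ (hs u)).eq]; group))
    (fun u v w => Subtype.ext (by
      have := eβ _ (hs u) _ (mul_mem (hs v) (hs w))
      rw [F.φ_mul _ (hs v) _ (hs w), hs', hs', hs'] at this
      refine this.symm.trans ?_
      show _ = s u * s v * (s u)⁻¹ * (s v)⁻¹ * (s u * s w * (s u)⁻¹ * (s w)⁻¹)
      calc _ = s u * s v * (s u)⁻¹ * (s u * s w * (s u)⁻¹ * (s w)⁻¹ * (s v)⁻¹) := by group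
        _ = _ := by rw [(F.cen _ (cZ _ (hs u) _ (hs w)) _ (inv_mem (hs v))).eq]; group))
    (fun u v => Subtype.ext (by
      have := eS _ (mul_mem (hs u) (hs v))
      have b := eβ _ (inv_mem (hs u)) _ (hs v)
      rw [pi _ (hs u), hs', hs'] at b
      rw [F.φ_mul _ (hs u) _ (hs v), hs', hs'] at this
      refine this.symm.trans ?_
      show _ = s u * s u * (s v * s v) * (s u * s v * (s u)⁻¹ * (s v)⁻¹)
      rw [← b, mul_assoc (s u * s u), ← (F.cen _ (cZ _ (inv_mem (hs u)) _ (hs v)) _ (mul_mem (hs v) (hs v))).eq]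
      group))
    (fun t ht u v => Subtype.ext (by
      obtain ⟨k, hk, rfl, e⟩ := F.sur t ht 1 one_GL
      have := eβ _ (kL k hk _ (hs u)) _ (kL k hk _ (hs v))
      rw [F.φ_conj k hk _ (hs u), F.φ_conj k hk _ (hs v), hs', hs', e] at this
      show _ = s u * s v * (s u)⁻¹ * (s v)⁻¹
      rw [← conj_eq_of_comm (F.cz k hk e _ (cZ _ (hs u) _ (hs v)))]
      exact this.symm.trans (by group)))
    (fun t ht u => Subtype.ext (by
      obtain ⟨k, hk, rfl, e⟩ := F.sur t ht 1 one_GL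
      have := eS _ (kL k hk _ (hs u))
      rw [F.φ_conj k hk _ (hs u), hs', e] at this
      show _ = s u * s u
      rw [← conj_eq_of_comm (F.cz k hk e _ (sZ _ (hs u)))]
      exact this.symm.trans (by group)))
  obtain ⟨ξ, hξ⟩ : ∃ ξ : V3 → G, ∀ c, ξ c = ((ζ c).toMul : F.Z) := ⟨_, fun _ => rfl⟩
  have x0 : ∀ c, ξ c ∈ F.Z := fun c => hξ c ▸ (ζ c).toMul.2
  have x1 : ∀ c d, ξ (c + d) = ξ c * ξ d := fun c d => by rw [hξ, hξ, hξ, z1]; rfl
  have x2 : ∀ l ∈ F.L, ∀ l' ∈ F.L, l * l' * l⁻¹ * l'⁻¹ = ξ (B (F.φ l) (F.φ l')) := fun l h l' h' => by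
    rw [hξ, ← z2, eβ l h l' h']; rfl
  have x3 : ∀ l ∈ F.L, l * l = ξ (q (F.φ l)) := fun l h => by rw [hξ, ← z3, eS l h]; rfl
  have xz : ξ 0 = 1 := by simpa using x1 0 0
  let Y : Subgroup G :=
    { carrier := Set.range ξ
      one_mem' := ⟨0, xz⟩
      mul_mem' := by rintro _ _ ⟨c, rfl⟩ ⟨d, rfl⟩; exact ⟨c + d, x1 c d⟩
      inv_mem' := by rintro _ ⟨c, rfl⟩; exact ⟨c, (inv_eq_of_mul_eq_one_right (F.zsq _ (x0 c))).symm⟩ }
  have on : ∀ c ∈ F.Z, ∃ d, ξ d = c := fun c hc =>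
    (F.der.trans (commutator_le.2 fun l h l' h' => ⟨_, (x2 l h l' h').symm⟩) : F.Z ≤ Y) hc
  have inj : Function.Injective ξ := by
    have : Function.Bijective fun c => (⟨ξ c, x0 c⟩ : F.Z) :=
      (Nat.bijective_iff_surjective_and_card _).2 ⟨fun c => (on c c.2).imp fun _ e => Subtype.ext e, by
        rw [F.cardZ]; simp⟩
    exact fun c d e => this.1 (Subtype.ext e)
  refine ⟨{ K := F.K, L := F.L, φ := F.φ, ζ := ξ, σ := F.σ, θ := F.θ, LK := F.LK, ζ_add := x1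
            ζ_inj := fun c e => inj (e.trans xz.symm), ζ_mem := fun c => F.ZL (x0 c), φ_mul := F.φ_mul
            φ_ker := fun l h => (F.φ_ker l h).trans ⟨fun k => (on l k).imp fun _ => Eq.symm, fun ⟨c, e⟩ => e ▸ x0 c⟩
            φ_sur := F.φ_sur, sq := x3, comm := fun l h l' h' => ?_, σ_mul := F.σ_mul, θ_mul := F.θ_mul
            σ_mem := F.σ_mem, θ_mem := F.θ_mem, sur := F.sur, ker := F.ker, φ_conj := F.φ_conj
            ζ_conj := fun k hk c => ?_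
            nm := fun g h => (F.nm g).2 fun c hc => ?_ }⟩
  · rw [← (F.cen _ (x0 _) _ (mul_mem h' h)).eq, ← x2 l h l' h']; group
  · obtain ⟨w, w', rfl⟩ := frb_B_sur c
    rw [← B_act (F.σ_mem k hk), ← hs' (fun i => w i • ![1, 0, 0, 0]), ← hs' (fun i => w' i • ![0, 0, 0, 1]),
      ← F.φ_conj k hk _ (hs _), ← F.φ_conj k hk _ (hs _), ← x2 _ (hs _) _ (hs _),
      ← x2 _ (kL k hk _ (hs _)) _ (kL k hk _ (hs _))]
    group
  · obtain ⟨d, rfl⟩ := on c hc
    obtain ⟨e, he⟩ := h d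
    exact he ▸ x0 e

end H75.JT
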