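import Cfsg.Agent.Lib.J4T.SG

/-! J4T package K3: see blueprint/J4T/README.md -/

set_option autoImplicit false
set_option linter.unusedSectionVars false

namespace H75.JT

open Subgroup Matrix H75.L7 H75.JT.Fr

variable {G : Type*} [Group G] [Finite G]

set_option synthInstance.maxSize 4000 in
theorem k3_fa : ∀ a b : V4, a ≠ 0 → (b = J *ᵥ a ∨ b = J *ᵥ (J *ᵥ a)) →
    (∃ t ∈ SL, t *ᵥ a = b ∧ t *ᵥ b = a) ∧ (∃ s ∈ SL, s *ᵥ a = a ∧ s *ᵥ b = b ∧ s ≠ 1 ∧ s * s = 1) ∧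
      b ≠ 0 ∧ (a = J *ᵥ b ∨ a = J *ᵥ (J *ᵥ b)) ∧ b ≠ a ∧ a ≠ a + b ∧ b ≠ a + b := by
  decide +kernel

set_option synthInstance.maxSize 4000 in
theorem k3_fb : ∀ n : V4, n ≠ 0 → ∃ s ∈ SL, s *ᵥ n = n ∧ s ≠ 1 ∧ s * s = 1 ∧
    (∀ m, f n m = 0 → s *ᵥ m = m ∨ s *ᵥ m = m + n) ∧
    ∀ a, s *ᵥ a = a → a = 0 ∨ a = n ∨ ∀ b, s *ᵥ b = b → b = 0 ∨ b = n ∨ b + a = 0 ∨ b + a = n := by
  decide +kernel

theorem k3_act_om (s : M4) (u : W) : act s 1 (om u) = om (act s 1 u) := by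
  simp only [act_one, om]
  funext i
  fin_cases i <;> simp [mulVec_add]

namespace St

variable {S : St G}

theorem k3_H {k : G} (hk : k ∈ S.K) (e : S.θ k = 1) : S.H k := (H_iff hk).2 (by rw [e]; decide)

theorem k3_Ht {k : G} (hk : k ∈ S.K) {x y : F2} (e : S.θ k = tv x y) : S.H k :=
  (H_iff hk).2 (by rw [e, tv_two])

theorem k3_tr {h k : G} {v : W} (a : S.Ov h v) (hk : k ∈ S.K) (e : S.θ k = 1) :
    S.Ov (k * h) (act (S.σ k) 1 v) := by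
  refine ⟨nb_left a.1 hk (k3_H hk e), fun u => ?_⟩
  simp only [φ_left a.1 hk, e, ← k3_act_om]
  constructor
  · rintro ⟨c, rfl⟩
    rcases (a.2 _).1 ⟨c, rfl⟩ with h | h | h | h <;> simp [h, act_zero]
  · rintro (rfl | rfl | rfl | rfl)
    · exact ⟨0, by rw [nb_zero a.1 (by decide), act_zero]⟩
    · obtain ⟨c, hc⟩ := (a.2 v).2 (by simp)
      exact ⟨c, by rw [hc]⟩
    · obtain ⟨c, hc⟩ := (a.2 (om v)).2 (by simp)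
      exact ⟨c, by rw [hc]⟩
    · obtain ⟨c, hc⟩ := (a.2 (om (om v))).2 (by simp)
      exact ⟨c, by rw [hc]⟩

theorem k3_Q {h x : G} (a : S.H h) (hx : h⁻¹ * x * h ∈ S.Q) : x ∈ S.Q := by
  simpa [mul_assoc] using a.conj_Q hx

theorem k3_sh {g h m : G} (a : S.H g) (b : S.H h) (hK : g⁻¹ * h ∉ S.K) (hQ : m ∉ S.Q)
    (e1 : S.R (g⁻¹ * m * g)) (e2 : S.R (h⁻¹ * m * h)) : S.Ov (g⁻¹ * h) ![S.κ (g⁻¹ * m * g), 0, 0] :=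
  sh1 (a.inv.mul b) hK e1 (fun q => hQ (k3_Q a q)) (by simpa [mul_assoc] using e2)

/-- two elements over the same involution -/
theorem k3_uu {g h m m' : G} {s : M4} {x y x' y' : F2} (a : S.H g) (b : S.H h) (hm : m ∈ S.K) (hm' : m' ∈ S.K)
    (r : S.R (g⁻¹ * m * g)) (r' : S.R (h⁻¹ * m' * h)) (e : S.σ m = s) (e' : S.σ m' = s)
    (t : S.θ m = tv x y) (t' : S.θ m' = tv x' y') :
    S.R (m' * m⁻¹) ∧ s *ᵥ S.κ (m' * m⁻¹) = S.κ (m' * m⁻¹) := by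
  have hR : S.R (m' * m⁻¹) := by
    refine ⟨mul_mem hm' (inv_mem hm), by rw [S.σ_mul _ hm' _ (inv_mem hm), e', ← e, σ_inv hm], x' + x, y' + y, ?_⟩
    have h1 := θ_inv hm
    have h2 : tv x y * tv x y = 1 := by
      rw [tv_mul, ← tv_zero]; congr 1 <;> exact CharTwo.add_self_eq_zero _
    rw [S.θ_mul _ hm' _ (inv_mem hm), t', ← tv_mul]
    congr 1
    rw [← one_mul (S.θ m⁻¹), ← h2, mul_assoc, ← t, h1, mul_one]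
  have q1 : m * m ∈ S.Q := k3_Q a (by simpa [mul_assoc] using R_sq r)
  have q2 : m' * m' ∈ S.Q := k3_Q b (by simpa [mul_assoc] using R_sq r')
  have hH := k3_Ht hm t
  have hc := hR.conj hm hH
  have := κ_Q (S := S) (x := m' * m⁻¹ * (m * (m' * m⁻¹) * m⁻¹))
    (by simpa [mul_assoc] using mul_mem q2 (inv_mem q1))
  rw [S.κ_mul _ _ hR hc, S.κ_conj _ hm hH _ hR, e, V4_add_eq_zero] at this
  exact ⟨hR, this.symm⟩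

theorem k3_nQ {m : G} {s : M4} (e : S.σ m = s) (s1 : s ≠ 1) : m ∉ S.Q := fun q => s1 (e ▸ σ_Q q)

theorem k3a {h : G} {v : W} (hv : FF v) (a : S.Ov h v) : ∃ h n, S.Ov h ![n, 0, 0] := by
  obtain ⟨⟨t, ht, t1, t2⟩, ⟨s, hs, s1, s2, s3, s4⟩, f1, f2, f3, f4, f5⟩ := k3_fa _ _ hv.2.1 hv.2.2
  obtain ⟨k, hk, e1, e2⟩ := S.sur t ht 1 one_GL
  have b := k3_tr a hk e2
  have ev : act (S.σ k) 1 v = ![v 1, v 0, 0] := by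
    rw [act_one, e1]
    funext i
    fin_cases i <;> simp [t1, t2, hv.1]
  rw [ev] at b
  obtain ⟨m, hm, r, e, x, y, tm⟩ := sg_ff hv a hs s1 s2
  obtain ⟨m', hm', r', e', x', y', tm'⟩ := sg_ff (v := ![v 1, v 0, 0]) ⟨rfl, f1, f2⟩ b hs s2 s1
  obtain ⟨hR, hf⟩ := k3_uu a.1.1 b.1.1 hm hm' r r' e e' tm tm'
  obtain ⟨p, hp⟩ := (SL_invol s hs s4 s3 _).1 hf
  obtain ⟨l, hl, el⟩ := S.κ_sur p
  have hH := k3_Ht hm tm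
  have lR := R_L hl
  have cR := lR.inv.conj hm hH
  have q := (κ_eq hR (lR.mul cR)).1 (by
    rw [S.κ_mul _ _ lR cR, S.κ_conj _ hm hH _ lR.inv, κ_inv lR, el, e, hp])
  have a' := ov_left a lR
  refine ⟨_, _, k3_sh b.1.1 a'.1.1 (fun hK => ?_) (k3_nQ e' s3) r' ?_⟩
  · have c := ov_right b hK (b.1.1.inv.mul a'.1.1)
    rw [mul_inv_cancel_left] at c
    rcases (a'.2 _).1 ((c.2 _).2 (Or.inr (Or.inl rfl))) with h | h | h | h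
    · exact f1 (congrFun h 0)
    · exact f3 (congrFun h 0)
    · exact f4 (congrFun h 1)
    · exact f5 (congrFun h 0)
  · simpa [mul_assoc] using r.mul (R_Q (a'.1.1.conj_Q' (hH.conj_Q' q)))

theorem k3_R {h r : G} {n : V4} (a : S.Ov h ![n, 0, 0]) (hr : S.R r) (e : S.κ r = 0 ∨ S.κ r = n) :
    S.R (h⁻¹ * r * h) := by
  rcases e with e | e
  · exact R_Q (a.1.1.conj_Q' ((S.κ_ker r hr).1 e))
  · obtain ⟨c, hc, ec⟩ := ov_ex a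
    exact sh2 a.1 hr hc (x := 1) (y := 0) (by rw [ec, e, one_smul, zero_smul])

theorem k3_n {h : G} {n : V4} (a : S.Ov h ![n, 0, 0]) : n ≠ 0 := fun e =>
  ov_ne a (by rw [e]; decide)

theorem k3_pair {g h m m' : G} {n : V4} (a : S.Ov g ![n, 0, 0]) (b : S.Ov h ![n, 0, 0]) (hm : m' ∈ S.K)
    (s1 : S.σ m' ≠ 1) (r : S.R (g⁻¹ * m * g)) (r' : S.R (h⁻¹ * m' * h)) (hR : S.R (m' * m⁻¹))
    (e : S.κ (m' * m⁻¹) = 0 ∨ S.κ (m' * m⁻¹) = n) : g⁻¹ * h ∈ S.K := by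
  by_contra hK
  have r1 : S.R (g⁻¹ * m' * g) := by simpa [mul_assoc] using (k3_R a hR e).mul r
  obtain ⟨l, hl, el⟩ := S.κ_sur n
  have r2 := k3_R a (R_L hl) (Or.inr el)
  have := (κ_eq r1 r2).1 (ov_pure (k3_sh a.1.1 b.1.1 hK (k3_nQ rfl s1) r1 r')
    (k3_sh a.1.1 b.1.1 hK (fun q => k3_n a (el ▸ κ_Q q)) r2 (k3_R b (R_L hl) (Or.inr el))))
  have q := σ_Q (k3_Q (x := l⁻¹ * m') a.1.1 (by simpa [mul_assoc] using this))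
  rw [S.σ_mul _ (S.LK (inv_mem hl)) _ hm, σ_L (inv_mem hl), one_mul] at q
  exact s1 q

theorem k3b {h₁ h₂ h₃ : G} {n : V4} (a₁ : S.Ov h₁ ![n, 0, 0]) (a₂ : S.Ov h₂ ![n, 0, 0]) (a₃ : S.Ov h₃ ![n, 0, 0]) :
    h₁⁻¹ * h₂ ∈ S.K ∨ h₁⁻¹ * h₃ ∈ S.K ∨ h₂⁻¹ * h₃ ∈ S.K := by
  obtain ⟨s, hs, -, s1, -, s3, s4⟩ := k3_fb n (k3_n a₁)
  obtain ⟨m₁, k₁, r₁, e₁, x₁, y₁, t₁⟩ := sg_pu a₁ hs s3
  obtain ⟨m₂, k₂, r₂, e₂, x₂, y₂, t₂⟩ := sg_pu a₂ hs s3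
  obtain ⟨m₃, k₃, r₃, e₃, x₃, y₃, t₃⟩ := sg_pu a₃ hs s3
  obtain ⟨R12, f12⟩ := k3_uu a₁.1.1 a₂.1.1 k₁ k₂ r₁ r₂ e₁ e₂ t₁ t₂
  obtain ⟨R23, f23⟩ := k3_uu a₂.1.1 a₃.1.1 k₂ k₃ r₂ r₃ e₂ e₃ t₂ t₃
  have p12 := k3_pair a₁ a₂ k₂ (e₂ ▸ s1) r₁ r₂ R12
  have p23 := k3_pair a₂ a₃ k₃ (e₃ ▸ s1) r₂ r₃ R23
  have e : m₃ * m₁⁻¹ = m₃ * m₂⁻¹ * (m₂ * m₁⁻¹) := by group
  have p13 := k3_pair a₁ a₃ k₃ (e₃ ▸ s1) r₁ r₃ (e ▸ R23.mul R12)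
  rw [e, S.κ_mul _ _ R23 R12] at p13
  rcases s4 _ f12 with h | h | h
  · exact Or.inl (p12 (Or.inl h))
  · exact Or.inl (p12 (Or.inr h))
  · rcases h _ f23 with h | h | h
    · exact Or.inr (Or.inr (p23 (Or.inl h)))
    · exact Or.inr (Or.inr (p23 (Or.inr h)))
    · exact Or.inr (Or.inl (p13 h))

theorem k3_two {h : G} {n : V4} (a : S.Ov h ![n, 0, 0]) {m : V4} (hm : m ≠ 0) :
    ∃ h₁ h₂, S.Ov h₁ ![m, 0, 0] ∧ S.Ov h₂ ![m, 0, 0] ∧ h₁⁻¹ * h₂ ∉ S.K := by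
  obtain ⟨s, hs, e⟩ := SL_trans n m (k3_n a) hm
  obtain ⟨k, hk, e1, e2⟩ := S.sur s hs 1 one_GL
  have b := k3_tr a hk e2
  have ev : act (S.σ k) 1 ![n, 0, 0] = ![m, 0, 0] := by
    rw [act_one, e1]
    funext i
    fin_cases i <;> simp [e]
  rw [ev] at b
  obtain ⟨p, hp⟩ := f_nd m hm
  obtain ⟨l, hl, el⟩ := S.κ_sur p
  obtain ⟨c, hc, ec⟩ := ov_ex b
  refine ⟨_, _, b, ov_left b (R_L hl), fun hK => ?_⟩
  have := ((nb_stab b.1 (R_L hl) hc).1 (by rwa [mul_assoc])).1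
  rw [ec, el, f_comm] at this
  exact zero_ne_one (this.symm.trans hp)

end St

end H75.JT
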