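import Cfsg.Agent.Lib.J4T.K3

/-! J4T package K3C: see blueprint/J4T/README.md -/

set_option autoImplicit false
set_option linter.unusedSectionVars false

namespace H75.JT

open Subgroup Matrix H75.L7 H75.JT.Fr

variable {G : Type*} [Group G] [Finite G]

set_option synthInstance.maxSize 4000 in
theorem k3c_f : ∀ n : V4, n ≠ 0 → ∃ s ∈ SL, s ≠ 1 ∧ (∀ m, f n m = 0 → s *ᵥ m = m ∨ s *ᵥ m = m + n) ∧
    ∀ n', n' ≠ 0 → (∀ m, f n' m = 0 → s *ᵥ m = m ∨ s *ᵥ m = m + n') → n' = n := by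
  decide +kernel

namespace St

variable {S : St G}

theorem k3c {h : G} {n : V4} (a : S.Ov h ![n, 0, 0]) : ∃ h v, FF v ∧ S.Ov h v := by
  by_contra hn
  obtain ⟨s, hs, s1, s2, s3⟩ := k3c_f n (k3_n a)
  obtain ⟨m, hm, r, e, -⟩ := sg_pu a hs s2
  have mQ := k3_nQ e s1
  obtain ⟨h₁, h₂, a₁, a₂, hK⟩ := k3_two a (m := S.κ (h⁻¹ * m * h)) fun z =>
    mQ (k3_Q a.1.1 ((S.κ_ker _ r).1 z))
  have key : ∀ g, S.Ov g ![S.κ (h⁻¹ * m * h), 0, 0] → S.Ov (h * g) ![n, 0, 0] := fun g b => by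
    have r' : S.R ((h * g)⁻¹ * m * (h * g)) := by simpa [mul_assoc] using k3_R b r (Or.inr rfl)
    have hH := a.1.1.mul b.1.1
    generalize h * g = g at r' hH
    have gK : g⁻¹ ∉ S.K := fun k => s1 (by
      have := (r'.conj (inv_mem_iff.1 k) hH).2.1
      rw [← e, ← this]
      simp [mul_assoc])
    rcases d1 hH.inv gK with c | c
    · have c' := nb_symm c
      rw [inv_inv] at c'
      rcases ty c' with ⟨n', d⟩ | d
      · rwa [s3 n' (k3_n d) fun p hp => e ▸ sg_pu' d hm r' hp] at d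
      · exact absurd ⟨g, d⟩ hn
    · exact absurd (k3_Q hH (op_move c r' (by simpa [mul_assoc] using hm))) mQ
  rcases k3b a (key _ a₁) (key _ a₂) with k | k | k
  · exact a₁.1.2.1 (by simpa using k)
  · exact a₂.1.2.1 (by simpa using k)
  · exact hK (by simpa [mul_assoc] using k)

end St

end H75.JT
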