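import Cfsg.Agent.Lib.J4T.Mat

/-! J4T package MA: see blueprint/J4T/README.md -/

set_option autoImplicit false

namespace H75.JT

open Subgroup Matrix H75.L7

theorem ma_gen : ∀ n : V4, gen 0 *ᵥ n = ![n 1, n 0 + n 1, n 2 + n 3, n 2] ∧
    gen 1 *ᵥ n = ![n 0 + n 2, n 1 + n 3, n 2, n 3] ∧ gen 2 *ᵥ n = ![n 2, n 3, n 0, n 1] ∧
    gen 3 *ᵥ n = ![n 0 + n 1, n 1, n 2 + n 3, n 3] := by decide +kernel

theorem ma {V : Type*} [AddCommGroup V] [Module F2 V] [Finite V] (hV : Nat.card V = 2 ^ 12)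
    (a : Fin 4 → Module.End F2 V) (hx : a 0 * a 0 + a 0 + 1 = 0) (hxs : a 0 * a 1 * (a 0 * a 1) + a 0 * a 1 + 1 = 0)
    (hsr : a 1 * a 2 * (a 1 * a 2) + a 1 * a 2 + 1 = 0) (s2 : a 1 * a 1 = 1) (r2 : a 2 * a 2 = 1) (t2 : a 3 * a 3 = 1)
    (rx : a 2 * a 0 = a 0 * a 0 * a 2) (tx : a 3 * a 0 = a 0 * a 0 * a 3) (tr : a 3 * a 2 = a 2 * a 3)
    (ts : a 3 * a 1 = a 1 * a 3) :
    ∃ (b : Fin 3 → V) (Φ : W ≃ₗ[F2] V), (∀ w, (a 1 w = w ∧ a 3 w = w) ↔ ∃ c : V3, w = ∑ j, c j • b j) ∧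
      (∀ u, Φ u = ∑ j, (u j 0 • b j + u j 1 • a 0 (b j) + u j 2 • a 2 (b j) + u j 3 • a 2 (a 0 (b j)))) ∧
      ∀ i u, a i (Φ u) = Φ (act (gen i) 1 u) := by
  have aa : ∀ v : V, v + v = 0 := fun v => by
    rw [← two_smul F2 v, show (2 : F2) = 0 from rfl, zero_smul]
  have a1 : ∀ u v : V, u + (u + v) = v := fun u v => by rw [← add_assoc, aa, zero_add]
  have z : ∀ {u v : V}, u + v = 0 → u = v := fun {u v} e => by rw [← a1 u v, e, add_zero]
  have xx : ∀ v, a 0 (a 0 v) = v + a 0 v := fun v =>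
    z (by rw [add_comm v, ← add_assoc]; exact LinearMap.congr_fun hx v)
  have ss : ∀ v, a 1 (a 1 v) = v := LinearMap.congr_fun s2
  have rr : ∀ v, a 2 (a 2 v) = v := LinearMap.congr_fun r2
  have tt : ∀ v, a 3 (a 3 v) = v := LinearMap.congr_fun t2
  have tr' : ∀ v, a 3 (a 2 v) = a 2 (a 3 v) := LinearMap.congr_fun tr
  have ts' : ∀ v, a 3 (a 1 v) = a 1 (a 3 v) := LinearMap.congr_fun ts
  have tx' : ∀ v, a 3 (a 0 v) = a 3 v + a 0 (a 3 v) := fun v => (LinearMap.congr_fun tx v).trans (xx _)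
  have xr : ∀ v, a 0 (a 2 v) = a 2 v + a 2 (a 0 v) := fun v => by
    rw [show a 2 (a 0 v) = a 2 v + a 0 (a 2 v) from (LinearMap.congr_fun rx v).trans (xx _), a1]
  have sx : ∀ v, a 1 (a 0 v) = v + a 1 v + a 0 (a 1 v) := fun v => by
    have e : a 0 (a 1 (a 0 (a 1 (a 1 v)))) + a 0 (a 1 (a 1 v)) + a 1 v = 0 := LinearMap.congr_fun hxs (a 1 v)
    rw [ss, add_assoc] at e
    have e1 := z e
    have e2 := xx (a 1 (a 0 v))
    rw [e1, map_add, xx] at e2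
    rw [← a1 (a 0 v + a 1 v) (a 1 (a 0 v)), add_comm _ (a 1 (a 0 v)), ← e2, ← a1 (a 0 v) (v + a 1 v + _)]
    abel
  have sr : ∀ v, a 1 (a 2 v) = v + a 2 (a 1 v) := fun v => by
    have e : a 1 (a 2 (a 1 (a 2 (a 2 v)))) + a 1 (a 2 (a 2 v)) + a 2 v = 0 := LinearMap.congr_fun hsr (a 2 v)
    have e1 := congrArg (a 1) e
    rw [rr, map_add, map_add, ss, ss, map_zero] at e1
    rw [← z e1, add_comm]
  have sx0 : ∀ w, a 1 w = w → a 1 (a 0 w) = a 0 w := fun w h => by rw [sx, h, aa, zero_add]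
  let U : Submodule F2 V := LinearMap.eqLocus (a 1) LinearMap.id ⊓ LinearMap.eqLocus (a 3) LinearMap.id
  have mU : ∀ w, w ∈ U ↔ a 1 w = w ∧ a 3 w = w := fun w => Iff.rfl
  have i1 : ∀ u ∈ U, ∀ u' ∈ U, u + a 0 u' = 0 → u = 0 ∧ u' = 0 := fun u hu u' hu' e => by
    have e1 := congrArg (a 3) e
    rw [map_add, hu.2, tx', hu'.2, map_zero, add_left_comm] at e1
    have e2 : u' = 0 := by
      have e' : u + a 0 u' = 0 := e
      simpa only [LinearMap.id_coe, id_eq, e', add_zero] using e1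
    exact ⟨by rwa [e2, map_zero, add_zero] at e, e2⟩
  have i2 : ∀ u0 ∈ U, ∀ u1 ∈ U, ∀ u2 ∈ U, ∀ u3 ∈ U, u0 + a 0 u1 + a 2 (u2 + a 0 u3) = 0 →
      (u0 = 0 ∧ u1 = 0) ∧ u2 = 0 ∧ u3 = 0 := fun u0 h0 u1 h1 u2 h2 u3 h3 e => by
    have f : ∀ u ∈ U, ∀ u' ∈ U, a 1 (u + a 0 u') = u + a 0 u' := fun u hu u' hu' => by
      rw [map_add, ((mU _).1 hu).1, sx0 _ ((mU _).1 hu').1]
    have e1 := sr (u2 + a 0 u3)
    rw [f _ h2 _ h3, ← z e, f _ h0 _ h1, right_eq_add] at e1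
    rw [e1, map_zero, add_zero] at e
    exact ⟨i1 _ h0 _ h1 e, i1 _ h2 _ h3 e1⟩
  have s1 : ∀ w, a 1 w = w → ∃ u ∈ U, ∃ u' ∈ U, w = u + a 0 u' := fun w h => by
    have m : w + a 3 w ∈ U := (mU _).2 ⟨by rw [map_add, ← ts', h], by rw [map_add, tt, add_comm]⟩
    refine ⟨w + a 0 (w + a 3 w), (mU _).2 ⟨by rw [map_add, h, sx0 _ ((mU _).1 m).1], ?_⟩, _, m,
      by rw [add_assoc, aa, add_zero]⟩
    rw [map_add, tx', ((mU _).1 m).2, ← add_assoc, add_comm w, a1]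
  have cU : Nat.card U = 2 ^ 3 := by
    have bj : Function.Bijective fun p : (U × U) × U × U =>
        (p.1.1 : V) + a 0 p.1.2 + a 2 (p.2.1 + a 0 p.2.2) := by
      constructor
      · intro p p' e
        obtain ⟨⟨f0, f1⟩, f2, f3⟩ := i2 _ (add_mem p.1.1.2 p'.1.1.2) _ (add_mem p.1.2.2 p'.1.2.2) _
          (add_mem p.2.1.2 p'.2.1.2) _ (add_mem p.2.2.2 p'.2.2.2) (by
            rw [← aa ((p.1.1 : V) + a 0 p.1.2 + a 2 (p.2.1 + a 0 p.2.2))]
            nth_rewrite 2 [show (p.1.1 : V) + a 0 p.1.2 + a 2 (p.2.1 + a 0 p.2.2) = _ from e]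
            simp only [map_add]; abel)
        exact Prod.ext (Prod.ext (Subtype.ext (z f0)) (Subtype.ext (z f1)))
          (Prod.ext (Subtype.ext (z f2)) (Subtype.ext (z f3)))
      · intro v
        obtain ⟨u0, h0, u1, h1, e⟩ := s1 (a 2 v + a 1 (a 2 v)) (by rw [map_add, ss, add_comm])
        obtain ⟨u2, h2, u3, h3, e'⟩ := s1 (v + a 1 v) (by rw [map_add, ss, add_comm])
        refine ⟨((⟨u0, h0⟩, ⟨u1, h1⟩), ⟨u2, h2⟩, ⟨u3, h3⟩), ?_⟩
        show u0 + a 0 u1 + a 2 (u2 + a 0 u3) = v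
        rw [← e, ← e', sr, map_add, add_left_comm, add_assoc, a1, add_assoc, aa, add_zero]
    have := Nat.card_eq_of_bijective _ bj
    simp only [Nat.card_prod] at this
    refine Nat.pow_left_injective (n := 4) (by norm_num) ?_
    show Nat.card U ^ 4 = (2 ^ 3) ^ 4
    rw [← pow_mul, ← hV, ← this]; ring
  have fr : Module.finrank F2 U = 3 := by
    rw [Module.natCard_eq_pow_finrank (K := F2), Nat.card_zmod] at cU
    exact Nat.pow_right_injective le_rfl cU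
  let b := Module.finBasisOfFinrankEq F2 U fr
  have mb : ∀ c : V3, ∑ j, c j • (b j : V) = (b.equivFun.symm c : U) := fun c => by
    rw [Module.Basis.equivFun_symm_apply]; simp
  let Φ : W →ₗ[F2] V :=
    { toFun := fun u => ∑ j, (u j 0 • (b j : V) + u j 1 • a 0 (b j) + u j 2 • a 2 (b j) + u j 3 • a 2 (a 0 (b j)))
      map_add' := fun u v => by
        rw [← Finset.sum_add_distrib]
        exact Finset.sum_congr rfl fun j _ => by simp only [Pi.add_apply, add_smul]; abel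
      map_smul' := fun c u => by
        rw [Finset.smul_sum]
        exact Finset.sum_congr rfl fun j _ => by simp only [Pi.smul_apply, smul_add, smul_smul, smul_eq_mul, RingHom.id_apply] }
  have inj : Function.Injective Φ := (injective_iff_map_eq_zero Φ).2 fun u e => by
    obtain ⟨⟨f0, f1⟩, f2, f3⟩ := i2 _ (b.equivFun.symm fun j => u j 0).2 _ (b.equivFun.symm fun j => u j 1).2 _
      (b.equivFun.symm fun j => u j 2).2 _ (b.equivFun.symm fun j => u j 3).2 (by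
        rw [← e]
        simp only [← mb, map_add, map_sum, map_smul, ← Finset.sum_add_distrib, ← add_assoc]
        rfl)
    have k : ∀ c : V3, ((b.equivFun.symm c : U) : V) = 0 → c = 0 := fun c e =>
      b.equivFun.symm.map_eq_zero_iff.1 (Subtype.ext e)
    funext j i
    fin_cases i
    exacts [congrFun (k _ f0) j, congrFun (k _ f1) j, congrFun (k _ f2) j, congrFun (k _ f3) j]
  refine ⟨fun j => b j, LinearEquiv.ofBijective Φ ((Nat.bijective_iff_injective_and_card _).2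
    ⟨inj, by rw [hV]; simp⟩), fun w => ⟨fun h => ⟨b.equivFun ⟨w, (mU w).2 h⟩, by rw [mb]; simp⟩, ?_⟩,
    fun u => rfl, fun i u => ?_⟩
  · rintro ⟨c, rfl⟩
    rw [mb]
    exact (mU _).1 (b.equivFun.symm c).2
  · rw [act_one]
    show a i (Φ u) = Φ _
    simp only [Φ, LinearMap.coe_mk, AddHom.coe_mk]
    rw [map_sum]
    refine Finset.sum_congr rfl fun j _ => ?_
    obtain ⟨g0, g1, g2, g3⟩ := ma_gen (u j)
    obtain ⟨h1, h3⟩ := (mU _).1 (b j).2
    have x3 : a 0 (a 2 (a 0 (b j))) = a 2 (b j) := by rw [xr, xx, map_add, add_left_comm, aa, add_zero]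
    fin_cases i
    · show a 0 _ = (gen 0 *ᵥ u j) 0 • _ + (gen 0 *ᵥ u j) 1 • _ + (gen 0 *ᵥ u j) 2 • _ + (gen 0 *ᵥ u j) 3 • _
      simp only [g0, map_add, map_smul, xx, x3, xr (b j), cons_val, add_smul, smul_add]
      abel
    · show a 1 _ = (gen 1 *ᵥ u j) 0 • _ + (gen 1 *ᵥ u j) 1 • _ + (gen 1 *ᵥ u j) 2 • _ + (gen 1 *ᵥ u j) 3 • _
      simp only [g1, map_add, map_smul, sr, h1, sx0 _ h1, cons_val, add_smul, smul_add]
      abel
    · show a 2 _ = (gen 2 *ᵥ u j) 0 • _ + (gen 2 *ᵥ u j) 1 • _ + (gen 2 *ᵥ u j) 2 • _ + (gen 2 *ᵥ u j) 3 • _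
      simp only [g2, map_add, map_smul, rr, cons_val]
      abel
    · show a 3 _ = (gen 3 *ᵥ u j) 0 • _ + (gen 3 *ᵥ u j) 1 • _ + (gen 3 *ᵥ u j) 2 • _ + (gen 3 *ᵥ u j) 3 • _
      simp only [g3, map_add, map_smul, tr', tx', h3, cons_val, add_smul, smul_add]
      abel

end H75.JT
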