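import Cfsg.Agent.Lib.J4T.Mat
import Cfsg.Agent.Lib.Core.Frattini

/-! J4T: the hypotheses of S3321 in elementwise form -/

set_option autoImplicit false

namespace H75.JT

open Subgroup Matrix Cfsg H75.L7

abbrev S5 : Type := Equiv.Perm (Fin 5)
abbrev SL3 : Type := SpecialLinearGroup (Fin 3) F2

variable {G : Type*} [Group G]

structure Raw (K L Z : Subgroup G) (π : K →* S5 × SL3) : Prop where
  LK : L ≤ K
  ZL : Z ≤ L
  cardL : Nat.card L = 2 ^ 15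
  cardZ : Nat.card Z = 8
  cen : ∀ c ∈ Z, ∀ l ∈ L, Commute c l
  zsq : ∀ c ∈ Z, c * c = 1
  sqZ : ∀ l ∈ L, l * l ∈ Z
  cmZ : ∀ l ∈ L, ∀ l' ∈ L, l * l' * l⁻¹ * l'⁻¹ ∈ Z
  der : Z ≤ ⁅L, L⁆
  nm : ∀ g, g ∈ K ↔ Nm g Z
  sur : Function.Surjective π
  ker : ∀ k : K, π k = 1 ↔ (k : G) ∈ L
  xy : ∀ x ∈ K, ∀ y ∈ K, orderOf x = 3 → orderOf y = 7 → Commute x y →
    (∀ l ∈ L, Commute x l ↔ l ∈ Z) ∧ ∀ l ∈ L, Commute y l → l = 1

theorem ch2_of [Finite G] (hG : IsCharacteristicTwoType G) : Ch2 G := fun X hX h1 g hg => by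
  have hc : ∀ t ∈ T X, Commute g t := fun t ht => (mem_centralizer_iff.1 hg t ht).symm
  have hn : g ∈ normalizer (X : Set G) := (Nm.of_comm fun x hx => hc x (self_le_T hX hx)).mem
  refine ⟨⟨g, hn⟩, hG.2 X hX h1 (mem_centralizer_iff.2 fun t ht => Subtype.ext ?_), rfl⟩
  exact (hc t ⟨t, ht, rfl⟩).symm.eq

theorem exists_raw [Finite G] (K L Z : Subgroup G) (hLdef : L = (pCore 2 K).map K.subtype)
    (hZdef : Z = (center L).map L.subtype) (hLs : IsSpecial 2 L) (hLc : Nat.card L = 2 ^ 15)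
    (hZe : IsElementaryAbelian 2 Z) (hZc : Nat.card Z = 8) (hK : K = normalizer (Z : Set G))
    (hq : ∃ _ : (L.subgroupOf K).Normal, Nonempty (K ⧸ L.subgroupOf K ≃* S5 × SL3))
    (hxy : ∀ x y : G, x ∈ K → y ∈ K → orderOf x = 3 → orderOf y = 7 → x * y = y * x →
      L ⊓ centralizer ({x} : Set G) = Z ∧ L ⊓ centralizer ({y} : Set G) = ⊥) : ∃ π, Raw K L Z π := by
  obtain ⟨_, ⟨e⟩⟩ := hq
  have mz : ∀ l : L, l ∈ center L → (l : G) ∈ Z := fun l hl => hZdef ▸ ⟨l, hl, rfl⟩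
  refine ⟨e.toMonoidHom.comp (QuotientGroup.mk' _), hLdef ▸ map_subtype_le _, hZdef ▸ map_subtype_le _, hLc, hZc,
    ?_, fun c hc => by rw [← pow_two, hZe.2 c hc], fun l hl => pow_two l ▸ mz (⟨l, hl⟩ ^ 2) (hLs.2.1 ▸ H1.pow_mem_frattini hLs.1 _),
    fun l hl l' hl' => mz (⟨l, hl⟩ * ⟨l', hl'⟩ * ⟨l, hl⟩⁻¹ * ⟨l', hl'⟩⁻¹)
      (hLs.2.2 ▸ commutator_mem_commutator (mem_top _) (mem_top _)), ?_,
    fun g => hK ▸ ⟨nm_of_mem, Nm.mem⟩, e.surjective.comp (QuotientGroup.mk'_surjective _), fun k => ?_,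
    fun x hx y hy a b c => ?_⟩
  · rw [hZdef]
    rintro _ ⟨c, hc, rfl⟩ l hl
    exact (congrArg Subtype.val (mem_center_iff.1 hc ⟨l, hl⟩)).symm
  · rw [hZdef, ← hLs.2.2, _root_.commutator_def, map_commutator, ← MonoidHom.range_eq_map, range_subtype]
  · simp [mem_subgroupOf]
  · obtain ⟨h1, h2⟩ := hxy x y hx hy a b c
    exact ⟨fun l hl => ⟨fun k => h1.le ⟨hl, mem_cent.2 k.symm⟩, fun k => (mem_cent.1 (h1.ge k).2).symm⟩,
      fun l hl k => h2.le ⟨hl, mem_cent.2 k.symm⟩⟩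

end H75.JT
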