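import Cfsg.Agent.Lib.J4T.MA
import Cfsg.Agent.Lib.J4T.Raw
import Cfsg.Agent.Lib.GL.Simple

/-! J4T package MB: see blueprint/J4T/README.md -/

set_option autoImplicit false

namespace H75.JT

open Subgroup Matrix H75.L7

/-- the permutations matching `gen` -/
def mb_P (i : Fin 4) : S5 :=
  ![Equiv.swap 0 1 * Equiv.swap 1 2, Equiv.swap 0 1 * Equiv.swap 2 3,
    Equiv.swap 0 1 * Equiv.swap 3 4, Equiv.swap 0 1] i

theorem mb_words : ∀ x y : Fin 5, x ≠ y → ∃ w ∈ ([[3], [0, 3], [0, 1, 0, 3], [0, 1, 2, 1, 0, 3],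
    [3, 0], [1, 0, 1, 3], [2, 0, 1, 0, 2, 3], [1, 3], [1, 2, 1, 3], [2, 3]] : List (List (Fin 4))),
    (w.map mb_P).prod = Equiv.swap x y := by decide +kernel

theorem mb_ind {Q : S5 → Prop} (h1 : Q 1) (hm : ∀ i p, Q p → Q (mb_P i * p)) (p : S5) : Q p := by
  induction p using Equiv.Perm.swap_induction_on with
  | one => exact h1
  | swap_mul f x y hxy ih =>
    obtain ⟨w, -, e⟩ := mb_words x y hxy
    rw [← e]
    clear e
    induction w with
    | nil => simpa using ih
    | cons i w ih' => rw [List.map_cons, List.prod_cons, mul_assoc]; exact hm _ _ ih'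

theorem mb_simple : IsSimpleGroup SL3 := by
  have h : Subgroup.center SL3 = ⊥ := by
    apply Subgroup.eq_bot_of_card_le
    have := H10.card_center_SL (ι := Fin 3) (F := ZMod 2)
    rw [Nat.card_zmod] at this
    exact this.le
  have := H10.isSimpleGroup_PSL_of_three_le (ι := Fin 3) (F := ZMod 2) (by simp)
  exact ((QuotientGroup.quotientMulEquivOfEq h).trans QuotientGroup.quotientBot).symm.isSimpleGroup

theorem mb_inj4 {s t : M4} (e : ∀ u, act s 1 u = act t 1 u) : s = t := by
  ext a b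
  have := congrFun (congrFun (e fun _ => Pi.single b 1) 0) a
  simpa [act_one] using this

theorem mb_inj3 {g h : M3} (e : ∀ u, act 1 g u = act 1 h u) : g = h := by
  ext i j
  have := congrFun (congrFun (e (Pi.single j fun _ => 1)) i) 0
  fin_cases j <;> simpa [act] using this

theorem mb {V : Type*} [AddCommGroup V] [Module F2 V] [Finite V] (hV : Nat.card V = 2 ^ 12)
    (ρ : S5 × SL3 →* Module.End F2 V) (h3 : ∀ p : S5, p.IsThreeCycle → ∀ v, ρ (p, 1) v = v → v = 0)
    (h7 : ∃ y : SL3, ∀ v, ρ (1, y) v = v → v = 0) :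
    ∃ (Φ : W ≃ₗ[F2] V) (ν : S5 →* M4) (α : SL3 →* M3), (∀ p, ν p ∈ SL) ∧ (∀ s ∈ SL, ∃ p, ν p = s) ∧
      Function.Injective ν ∧ (∀ g, α g ∈ GL3) ∧ (∀ g ∈ GL3, ∃ y, α y = g) ∧ Function.Injective α ∧
      ∀ p g u, ρ (p, g) (Φ u) = Φ (act (ν p) (α g) u) := by
  classical
  have hm : ∀ p q : S5, ρ (p, 1) * ρ (q, 1) = ρ (p * q, 1) := fun p q => by
    rw [← map_mul, Prod.mk_mul_mk, mul_one]
  have hm' : ∀ g h : SL3, ρ (1, g) * ρ (1, h) = ρ (1, g * h) := fun p q => by
    rw [← map_mul, Prod.mk_mul_mk, mul_one]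
  have h1 : ρ (1, 1) = 1 := map_one ρ
  have hc : ∀ (p : S5) (g : SL3) v, ρ (1, g) (ρ (p, 1) v) = ρ (p, 1) (ρ (1, g) v) := fun p g v => by
    rw [← Module.End.mul_apply, ← Module.End.mul_apply, ← map_mul, ← map_mul]; simp
  have cyc : ∀ e : S5, e.support.card = 3 → ρ (e, 1) * ρ (e, 1) + ρ (e, 1) + 1 = 0 := by
    intro e he
    have he' := card_support_eq_three_iff.1 he
    have e3 : e * (e * e) = 1 := by
      have := pow_orderOf_eq_one e
      rwa [he'.orderOf, pow_succ', sq] at this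
    ext v
    refine h3 e he' _ ?_
    rw [← Module.End.mul_apply, mul_add, mul_add, hm, hm, e3, h1, mul_one]
    congr 1; abel
  obtain ⟨b, Φ, hb, hΦ, ha⟩ := ma hV (fun i => ρ (mb_P i, 1)) (cyc _ (by decide +kernel))
    (by rw [hm]; exact cyc _ (by decide +kernel)) (by rw [hm]; exact cyc _ (by decide +kernel))
    (by rw [hm, ← h1]; congr 2; decide +kernel) (by rw [hm, ← h1]; congr 2; decide +kernel)
    (by rw [hm, ← h1]; congr 2; decide +kernel) (by simp only [hm]; congr 2; decide +kernel)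
    (by simp only [hm]; congr 2; decide +kernel) (by simp only [hm]; congr 2; decide +kernel)
    (by simp only [hm]; congr 2; decide +kernel)
  have hA : ∀ g : SL3, ∃ A : M3, ∀ u, ρ (1, g) (Φ u) = Φ (act 1 A u) := by
    intro g
    have hbj : ∀ j, ρ (mb_P 1, 1) (b j) = b j ∧ ρ (mb_P 3, 1) (b j) = b j := fun j =>
      (hb (b j)).2 ⟨Pi.single j 1, by simp [Pi.single_apply]⟩
    choose c hcc using fun j => (hb (ρ (1, g) (b j))).1
      ⟨by rw [← hc, (hbj j).1], by rw [← hc, (hbj j).2]⟩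
    refine ⟨fun i j => c j i, fun u => ?_⟩
    rw [hΦ, hΦ]
    simp only [Fin.sum_univ_three, map_add, map_smul, hc, hcc, act, one_mulVec, Pi.add_apply,
      Pi.smul_apply, smul_eq_mul]
    module
  choose A hA using hA
  have hN : ∀ p : S5, ∃ s ∈ SL, ∀ u, ρ (p, 1) (Φ u) = Φ (act s 1 u) := by
    refine mb_ind ⟨1, one_SL, fun u => by rw [h1, act_one_one]; rfl⟩ ?_
    rintro i p ⟨s, hs, e⟩
    refine ⟨gen i * s, SL_mul (gen_SL i) hs, fun u => ?_⟩
    rw [← hm, Module.End.mul_apply, e, ha, ← act_mul, mul_one]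
  choose N hNs hN using hN
  let ν : S5 →* M4 :=
    { toFun := N
      map_one' := mb_inj4 fun u => Φ.injective (by rw [← hN, h1, act_one_one]; rfl)
      map_mul' := fun p q => mb_inj4 fun u => Φ.injective (by
        rw [← hN, ← hm, Module.End.mul_apply, hN, hN, ← act_mul, mul_one]) }
  let α : SL3 →* M3 :=
    { toFun := A
      map_one' := mb_inj3 fun u => Φ.injective (by rw [← hA, h1, act_one_one]; rfl)
      map_mul' := fun p q => mb_inj3 fun u => Φ.injective (by
        rw [← hA, ← hm', Module.End.mul_apply, hA, hA, ← act_mul, mul_one]) }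
  have hsur : ∀ s ∈ SL, ∃ p, ν p = s := fun s hs =>
    SL_ind (P := fun s => ∃ p, ν p = s) ⟨1, map_one ν⟩ (by
      rintro _ i ⟨p, rfl⟩
      refine ⟨mb_P i * p, ?_⟩
      rw [map_mul]
      congr 1
      exact mb_inj4 fun u => Φ.injective ((hN _ u).symm.trans (ha i u))) hs
  have hdet : ∀ g, (α g).det = 1 := fun g => by
    have : (α g).det * (α g⁻¹).det = 1 := by rw [← det_mul, ← map_mul, mul_inv_cancel, map_one, det_one]
    rcases F2_cases (α g).det with e | e
    · rw [e, zero_mul] at this; exact absurd this zero_ne_one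
    · exact e
  let α' : SL3 →* SL3 :=
    { toFun := fun g => ⟨α g, hdet g⟩
      map_one' := Subtype.ext (map_one α)
      map_mul' := fun g h => Subtype.ext (map_mul α g h) }
  have hinj : Function.Injective α' := by
    have := mb_simple
    rw [← MonoidHom.ker_eq_bot_iff]
    refine (α'.normal_ker.eq_bot_or_eq_top).resolve_right fun e => ?_
    obtain ⟨y, hy⟩ := h7
    have e1 : A y = 1 := congrArg Subtype.val (show α' y = 1 from (e ▸ mem_top y : y ∈ α'.ker))
    have e2 := hy (Φ fun _ _ => 1) (by rw [hA, e1, act_one_one])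
    rw [map_eq_zero_iff _ Φ.injective] at e2
    exact one_ne_zero (congrFun (congrFun e2 0) 0)
  refine ⟨Φ, ν, α, hNs, hsur, ?_, fun g => mem_GL.2 (hdet g), fun g hg => ?_,
    fun g h e => hinj (Subtype.ext e), fun p g u => ?_⟩
  · have hb : Function.Bijective fun p : S5 => (⟨ν p, hNs p⟩ : {s // s ∈ SL}) := by
      refine Function.Surjective.bijective_of_nat_card_le (fun s => ?_) ?_
      · obtain ⟨p, hp⟩ := hsur s.1 s.2
        exact ⟨p, Subtype.ext hp⟩
      · rw [← Nat.card_congr (List.Nodup.getEquiv SL SL_nodup), Nat.card_eq_fintype_card,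
          Nat.card_eq_fintype_card, Fintype.card_perm, Fintype.card_fin, Fintype.card_fin, SL_length]
        decide
    exact fun p q e => hb.1 (Subtype.ext e)
  · obtain ⟨y, hy⟩ := Finite.injective_iff_surjective.1 hinj ⟨g, mem_GL.1 hg⟩
    exact ⟨y, congrArg Subtype.val hy⟩
  · have : ρ (p, g) = ρ (p, 1) * ρ (1, g) := by rw [← map_mul]; simp
    rw [this, Module.End.mul_apply, hA, hN, ← act_mul, mul_one, one_mul]
    rfl

end H75.JT
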