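import Cfsg.Agent.Lib.J4T.Defs

/-! J4T: matrix facts -/

set_option autoImplicit false

namespace H75.JT

open Subgroup Matrix Cfsg H75.L7

theorem F2_cases : ∀ a : F2, a = 0 ∨ a = 1 := by decide
theorem add_self2 {ι : Type} (v : ι → F2) : v + v = 0 := by
  funext i; exact CharTwo.add_self_eq_zero (v i)
theorem W_add_self (u : W) : u + u = 0 := by funext i; exact add_self2 (u i)
theorem V4_neg (u : V4) : -u = u := neg_eq_of_add_eq_zero_left (add_self2 u)
theorem V3_neg (u : V3) : -u = u := neg_eq_of_add_eq_zero_left (add_self2 u)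
theorem W_neg (u : W) : -u = u := neg_eq_of_add_eq_zero_left (W_add_self u)
theorem V4_add_eq_zero {u v : V4} : u + v = 0 ↔ u = v := by rw [add_eq_zero_iff_eq_neg, V4_neg]
theorem V3_add_eq_zero {u v : V3} : u + v = 0 ↔ u = v := by rw [add_eq_zero_iff_eq_neg, V3_neg]
theorem W_add_eq_zero {u v : W} : u + v = 0 ↔ u = v := by rw [add_eq_zero_iff_eq_neg, W_neg]

theorem bits_testBit (l : List F2) (k : ℕ) : (if (bits l).testBit k then (1 : F2) else 0) = l.getD k 0 := by
  induction l generalizing k with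
  | nil => simp [bits]
  | cons b l ih =>
    have e : bits (b :: l) = b.val + 2 * bits l := rfl
    have := b.val_lt
    cases k with
    | zero =>
      rw [e, Nat.testBit_zero, Nat.add_mul_mod_self_left]
      rcases F2_cases b with rfl | rfl <;> rfl
    | succ k =>
      rw [e, Nat.testBit_succ, Nat.add_mul_div_left _ _ two_pos, Nat.div_eq_of_lt this, zero_add, ih]; rfl
theorem m4_c4 (s : M4) : m4 (c4 s) = s := by
  funext i j; rw [m4, c4, bits_testBit]; fin_cases i <;> fin_cases j <;> rfl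
theorem m3_c3 (s : M3) : m3 (c3 s) = s := by
  funext i j; rw [m3, c3, bits_testBit]; fin_cases i <;> fin_cases j <;> rfl
theorem mem_SL_of {s : M4} (h : c4 s ∈ SC) : s ∈ SL := m4_c4 s ▸ List.mem_map_of_mem h
theorem mem_GL_of {s : M3} (h : c3 s ∈ GC) : s ∈ GL3 := m3_c3 s ▸ List.mem_map_of_mem h

theorem one_SL : (1 : M4) ∈ SL := mem_SL_of (by decide +kernel)
theorem gen_SL (i : Fin 4) : gen i ∈ SL := mem_SL_of (by revert i; decide +kernel)
theorem SL_length : SL.length = 120 := by decide +kernel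
theorem SL_nodup : SL.Nodup := by
  have h : SC.map (fun c => c4 (m4 c)) = SC := by decide +kernel
  have h2 : SC.Nodup := by decide +kernel
  rw [← h] at h2
  exact .of_map c4 (by rwa [SL, List.map_map])

theorem SL_mul_gen {s : M4} (h : s ∈ SL) (i : Fin 4) : s * gen i ∈ SL :=
  mem_SL_of ((by decide +kernel : ∀ s ∈ SL, ∀ i, c4 (s * gen i) ∈ SC) s h i)

/-- `SL` is generated by `gX, gS, gR, gT` -/
theorem SL_ind {P : M4 → Prop} (h1 : P 1) (h : ∀ s i, P s → P (gen i * s)) {s : M4} (hs : s ∈ SL) : P s := by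
  have e : SC = SW.map fun w => w.foldr (fun i c => c4 (gen i * m4 c)) (c4 1) := by decide +kernel
  rw [SL, e, List.map_map] at hs
  obtain ⟨w, -, rfl⟩ := List.mem_map.1 hs
  clear hs
  induction w with
  | nil => simpa [m4_c4] using h1
  | cons i w ih => simpa only [Function.comp, List.foldr_cons, m4_c4] using h _ i ih

theorem SL_mul {s t : M4} (hs : s ∈ SL) (ht : t ∈ SL) : s * t ∈ SL :=
  SL_ind (P := fun t => ∀ s ∈ SL, s * t ∈ SL) (fun s hs => by rwa [mul_one])
    (fun t i h s hs => by rw [← mul_assoc]; exact h _ (SL_mul_gen hs i)) ht s hs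

theorem SL_inv {s : M4} (hs : s ∈ SL) : ∃ t ∈ SL, s * t = 1 ∧ t * s = 1 := by
  have g : ∀ i, gen i * (gen i * gen i * gen i * gen i * gen i) = 1 ∧
      gen i * gen i * gen i * gen i * gen i * gen i = 1 := by decide +kernel
  refine SL_ind (P := fun s => ∃ t ∈ SL, s * t = 1 ∧ t * s = 1) ⟨1, one_SL, by simp⟩ ?_ hs
  rintro s i ⟨t, ht, a, b⟩
  have := gen_SL i
  refine ⟨t * (gen i * gen i * gen i * gen i * gen i),
    SL_mul ht (SL_mul (SL_mul (SL_mul (SL_mul this this) this) this) this), ?_, ?_⟩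
  · rw [mul_assoc, ← mul_assoc s, a, one_mul, (g i).1]
  · rw [mul_assoc, ← mul_assoc _ (gen i), (g i).2, one_mul, b]

theorem f_add_left (a b c : V4) : f (a + b) c = f a c + f b c := by simp only [f, Pi.add_apply]; ring
theorem f_add_right (a b c : V4) : f a (b + c) = f a b + f a c := by simp only [f, Pi.add_apply]; ring
theorem f_smul_left (t : F2) (a c : V4) : f (t • a) c = t * f a c := by simp only [f, Pi.smul_apply, smul_eq_mul]; ring
theorem f_smul_right (t : F2) (a c : V4) : f a (t • c) = t * f a c := by simp only [f, Pi.smul_apply, smul_eq_mul]; ring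
theorem f_comm (a b : V4) : f a b = f b a := by simp only [f]; ring
theorem f_self : ∀ a : V4, f a a = 0 := by decide +kernel
@[simp] theorem f_zero_left (a : V4) : f 0 a = 0 := by simp [f]
@[simp] theorem f_zero_right (a : V4) : f a 0 = 0 := by simp [f]
theorem f_nd : ∀ a : V4, a ≠ 0 → ∃ m, f a m = 1 := by decide +kernel
theorem f_J : ∀ a : V4, f a (J *ᵥ a) = 0 := by decide +kernel
theorem J_cube : ∀ a : V4, J *ᵥ (J *ᵥ a) = a + J *ᵥ a := by decide +kernel
theorem J_fix : ∀ a : V4, J *ᵥ a = a → a = 0 := by decide +kernel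
theorem J_zero : ∀ a : V4, J *ᵥ a = 0 → a = 0 := by decide +kernel

theorem f_SL {s : M4} (hs : s ∈ SL) (a b : V4) : f (s *ᵥ a) (s *ᵥ b) = f a b := by
  have h : ∀ i, ∀ a b : V4, f (gen i *ᵥ a) (gen i *ᵥ b) = f a b := by decide +kernel
  refine SL_ind (P := fun s => f (s *ᵥ a) (s *ᵥ b) = f a b) (by simp) (fun s i k => ?_) hs
  rw [← mulVec_mulVec, ← mulVec_mulVec, h, k]

theorem J_SL : ∀ s ∈ SL, s * J = J * s ∨ s * J = J * J * s := by decide +kernel
theorem SL_inj {s : M4} (hs : s ∈ SL) {a b : V4} (h : s *ᵥ a = s *ᵥ b) : a = b := by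
  obtain ⟨t, -, -, e⟩ := SL_inv hs
  simpa [e] using congrArg (t *ᵥ ·) h
theorem SL_trans : ∀ a b : V4, a ≠ 0 → b ≠ 0 → ∃ s ∈ SL, s *ᵥ a = b := by
  have h : ∀ b : V4, b ≠ 0 → ∃ s ∈ SL, s *ᵥ ![1, 0, 0, 0] = b := by decide +kernel
  intro a b ha hb
  obtain ⟨s, hs, rfl⟩ := h a ha
  obtain ⟨t, ht, rfl⟩ := h b hb
  obtain ⟨u, hu, -, e⟩ := SL_inv hs
  exact ⟨t * u, SL_mul ht hu, by rw [mulVec_mulVec, mul_assoc, e, mul_one]⟩
/-- fixed vectors of an involution -/
theorem SL_invol : ∀ s ∈ SL, s * s = 1 → s ≠ 1 → ∀ a : V4, s *ᵥ a = a ↔ ∃ b, a = b + s *ᵥ b := by decide +kernel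
theorem SL_fix_card : ∀ s ∈ SL, s * s = 1 → s ≠ 1 → (Finset.univ.filter fun a : V4 => s *ᵥ a = a).card = 4 := by
  decide +kernel
theorem SL_center : ∀ s ∈ SL, (∀ i, s * gen i = gen i * s) → s = 1 := by decide +kernel

theorem one_GL : (1 : M3) ∈ GL3 := mem_GL_of (by decide +kernel)
theorem GL_length : GL3.length = 168 := by decide +kernel
theorem GL_nodup : GL3.Nodup := by
  have h : GC.map (fun c => c3 (m3 c)) = GC := by decide +kernel
  have h2 : GC.Nodup := by decide +kernel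
  rw [← h] at h2
  exact .of_map c3 (by rwa [GL3, List.map_map])
theorem mem_GL {g : M3} : g ∈ GL3 ↔ g.det = 1 := by
  have h1 : ∀ g ∈ GL3, g 0 0 * g 1 1 * g 2 2 - g 0 0 * g 1 2 * g 2 1 - g 0 1 * g 1 0 * g 2 2 + g 0 1 * g 1 2 * g 2 0 +
      g 0 2 * g 1 0 * g 2 1 - g 0 2 * g 1 1 * g 2 0 = 1 := by decide +kernel
  have h2 : ∀ a b c : V3, a 0 * b 1 * c 2 - a 0 * b 2 * c 1 - a 1 * b 0 * c 2 + a 1 * b 2 * c 0 +
      a 2 * b 0 * c 1 - a 2 * b 1 * c 0 = 1 → c3 ![a, b, c] ∈ GC := by
    decide +kernel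
  rw [det_fin_three]
  refine ⟨h1 g, fun h => ?_⟩
  have e : g = ![g 0, g 1, g 2] := by funext i; fin_cases i <;> rfl
  rw [e]; exact mem_GL_of (h2 (g 0) (g 1) (g 2) h)
theorem GL_mul {g h : M3} (a : g ∈ GL3) (b : h ∈ GL3) : g * h ∈ GL3 := by
  rw [mem_GL] at *; rw [det_mul, a, b, mul_one]
theorem GL_cf : ∀ g ∈ GL3, (cf g)ᵀ * g = 1 ∧ g * (cf g)ᵀ = 1 := by decide +kernel
theorem cf_GL {g : M3} (h : g ∈ GL3) : cf g ∈ GL3 := by
  have := congrArg det (GL_cf g h).1
  rwa [det_mul, det_transpose, mem_GL.1 h, mul_one, det_one, ← mem_GL] at this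
theorem GL_inv {g : M3} (h : g ∈ GL3) : ∃ t ∈ GL3, g * t = 1 ∧ t * g = 1 :=
  ⟨(cf g)ᵀ, by rw [mem_GL, det_transpose, ← mem_GL]; exact cf_GL h, (GL_cf g h).2, (GL_cf g h).1⟩
theorem cf_mul (g h : M3) : cf (g * h) = cf g * cf h := by
  funext i j
  fin_cases i <;> fin_cases j <;> simp [cf, mul_apply, Fin.sum_univ_three] <;> grind
theorem cf_one : cf 1 = 1 := by decide +kernel
theorem cf_cf : ∀ g ∈ GL3, cf (cf g) = g := by decide +kernel
theorem cf_eq_one {g : M3} (h : g ∈ GL3) (e : cf g = 1) : g = 1 := by rw [← cf_cf g h, e, cf_one]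
theorem cf_e2 : ∀ g ∈ GL3, cf g *ᵥ e2 = e2 ↔ g 2 = e2 := by decide +kernel
theorem tv_GL (a b : F2) : tv a b ∈ GL3 := mem_GL_of (by revert a b; decide +kernel)
theorem tv_mul : ∀ a b c d, tv a b * tv c d = tv (a + c) (b + d) := by decide +kernel
theorem tv_zero : tv 0 0 = 1 := by decide +kernel
theorem tv_inj : ∀ a b c d, tv a b = tv c d → a = c ∧ b = d := by decide +kernel
theorem tv_two : ∀ a b, tv a b 2 = e2 := by decide +kernel
theorem cf_tv : ∀ a b (c : V3), cf (tv a b) *ᵥ c = c + (a * c 0 + b * c 1) • e2 := by decide +kernel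
/-- the elements acting trivially on `Z / ⟨z⟩` -/
theorem eq_tv : ∀ g ∈ GL3, (∀ c : V3, cf g *ᵥ c = c ∨ cf g *ᵥ c = c + e2) → ∃ a b, g = tv a b := by decide +kernel
theorem conj_tv : ∀ g ∈ GL3, g 2 = e2 → ∀ a b, g * tv a b = tv (g 0 0 * a + g 0 1 * b) (g 1 0 * a + g 1 1 * b) * g := by
  decide +kernel
theorem ω0_GL : ω0 ∈ GL3 := mem_GL_of (by decide +kernel)
theorem ω0_two : ω0 2 = e2 := by decide +kernel
theorem ω0_cube : ω0 * ω0 * ω0 = 1 := by decide +kernel
theorem cf_trans : ∀ c : V3, c ≠ 0 → ∃ g ∈ GL3, cf g *ᵥ e2 = c := by decide +kernel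
theorem cf_trans2 : ∀ c : V3, c ≠ 0 → c ≠ e2 → ∃ g ∈ GL3, g 2 = e2 ∧ cf g *ᵥ ![1, 0, 0] = c := by decide +kernel

theorem act_apply (s : M4) (g : M3) (u : W) (i : Fin 3) :
    act s g u i = g i 0 • s *ᵥ u 0 + g i 1 • s *ᵥ u 1 + g i 2 • s *ᵥ u 2 := rfl
theorem act_add (s : M4) (g : M3) (u v : W) : act s g (u + v) = act s g u + act s g v := by
  funext i; simp only [act, Pi.add_apply, mulVec_add, smul_add]; abel
theorem act_zero (s : M4) (g : M3) : act s g 0 = 0 := by funext i; simp [act]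
theorem act_one (s : M4) (u : W) : act s 1 u = fun i => s *ᵥ u i := by
  funext i; fin_cases i <;> simp [act, one_apply]
theorem act_one_one (u : W) : act 1 1 u = u := by simp [act_one]
theorem act_mul (s t : M4) (g h : M3) (u : W) : act (s * t) (g * h) u = act s g (act t h u) := by
  funext i
  simp only [act, mul_apply, Fin.sum_univ_three, mulVec_add, mulVec_smul, mulVec_mulVec, add_smul, smul_add, smul_smul]
  abel
theorem act_tv (a b : F2) (u : W) : act 1 (tv a b) u = ![u 0 + a • u 2, u 1 + b • u 2, u 2] := by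
  funext i; fin_cases i <;> simp [act, tv]
theorem act_ω0 (u : W) : act 1 ω0 u = om u := by
  funext i; fin_cases i <;> simp [act, ω0, om]
theorem act_two {g : M3} (h : g 2 = e2) (s : M4) (u : W) : act s g u 2 = s *ᵥ u 2 := by simp [act, h, e2]
theorem act_inj {s t : M4} {g h : M3} (hs : s ∈ SL) (ht : t ∈ SL) (hg : g ∈ GL3) (hh : h ∈ GL3)
    (e : ∀ u, act s g u = act t h u) : s = t ∧ g = h := by
  have n : ∀ {s : M4}, s ∈ SL → s *ᵥ ![1, 0, 0, 0] ≠ 0 := fun hs c =>
    absurd (SL_inj hs (c.trans (mulVec_zero _).symm)) (by decide)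
  have k : ∀ i j (m : V4), g i j • s *ᵥ m = h i j • t *ᵥ m := fun i j m => by
    have := congrFun (e (Pi.single j m)) i
    fin_cases j <;> simpa [act] using this
  have gh : g = h := by
    funext i j
    have := k i j ![1, 0, 0, 0]
    rcases F2_cases (g i j) with a | a <;> rcases F2_cases (h i j) with b | b <;> rw [a, b] at this ⊢ <;>
      simp only [zero_smul, one_smul] at this
    exacts [absurd this.symm (n ht), absurd this (n hs)]
  subst gh
  have : ∀ g ∈ GL3, ∃ j, g 0 j = 1 := by decide +kernel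
  obtain ⟨j, hj⟩ := this g hg
  refine ⟨?_, rfl⟩
  ext a b
  have := congrFun (k 0 j (Pi.single b 1)) a
  simpa [hj] using this

theorem B_add_left (u v w : W) : B (u + v) w = B u w + B v w := by
  funext i; fin_cases i <;> simp [B, f_add_left] <;> ring
theorem B_add_right (u v w : W) : B u (v + w) = B u v + B u w := by
  funext i; fin_cases i <;> simp [B, f_add_right] <;> ring
theorem B_comm (u v : W) : B u v = B v u := by
  funext i; fin_cases i <;> simp [B, f_comm (u _), add_comm]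
theorem B_self (u : W) : B u u = 0 := by
  funext i; fin_cases i <;> simp [B, f_comm (u 2), f_comm (u 1) (u 0), CharTwo.add_self_eq_zero]
@[simp] theorem B_zero_left (u : W) : B 0 u = 0 := by funext i; fin_cases i <;> simp [B]
@[simp] theorem B_zero_right (u : W) : B u 0 = 0 := by funext i; fin_cases i <;> simp [B]
theorem q_add (u v : W) : q (u + v) = q u + q v + B u v := by
  funext i; fin_cases i <;> simp [B, q, f_add_left, f_add_right, f_comm (v _) (u _)] <;> ring
theorem q_zero : q 0 = 0 := by funext i; fin_cases i <;> simp [q]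
theorem B_nd {u : W} (h : ∀ v, B u v = 0) : u = 0 := by
  funext i
  by_contra c
  obtain ⟨m, hm⟩ := f_nd _ c
  have := congrFun (h (Pi.single (i + 1) m)) (i + 2)
  fin_cases i <;> simp_all [B]
theorem B_W1 {u v : W} (hu : u 2 = 0) (hv : v 2 = 0) : B u v = (f (u 0) (v 1) + f (u 1) (v 0)) • e2 := by
  funext i; fin_cases i <;> simp [B, hu, hv, e2]
theorem B_act {s : M4} (hs : s ∈ SL) (g : M3) (u v : W) : B (act s g u) (act s g v) = cf g *ᵥ B u v := by
  have e : ∀ i j, f (u j) (v i) = f (v i) (u j) := fun _ _ => f_comm _ _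
  funext i
  fin_cases i <;> simp only [B, act, f_add_left, f_add_right, f_smul_left, f_smul_right, f_SL hs] <;>
    simp [cf, mulVec, dotProduct, Fin.sum_univ_three] <;> grind
theorem q_act {s : M4} (hs : s ∈ SL) (g : M3) (u : W) : q (act s g u) = cf g *ᵥ q u := by
  have := f_comm (u 0) (u 1); have := f_comm (u 0) (u 2); have := f_comm (u 1) (u 2)
  funext i
  fin_cases i <;> simp only [q, act, f_add_left, f_add_right, f_smul_left, f_smul_right, f_SL hs, f_self] <;>
    simp [cf, mulVec, dotProduct, Fin.sum_univ_three] <;> grind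

theorem om_add (u v : W) : om (u + v) = om u + om v := by rw [← act_ω0, act_add, act_ω0, act_ω0]
theorem om_om (u : W) (h : u 2 = 0) : om (om u) = u + om u := by
  funext i; fin_cases i <;> simp [om, h, ← add_assoc, add_comm (u 1) (u 0), add_assoc, add_self2]
theorem om_two (u : W) : om u 2 = u 2 := rfl
theorem om_fix {u : W} (h : u 2 = 0) (e : om u = u) : u = 0 := by
  have a : u 1 = u 0 := congrFun e 0
  have b : u 0 + u 1 = u 1 := congrFun e 1
  have c : u 0 = 0 := by simpa using b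
  funext i; fin_cases i <;> simp [h, a, c]
theorem om_cube (u : W) : om (om (om u)) = u := by
  rw [← act_ω0, ← act_ω0, ← act_ω0, ← act_mul, ← act_mul, ω0_cube]; simp [act_one_one]

end H75.JT
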