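import Cfsg.Agent.Lib.J4T.LS

/-! J4T package QA: see blueprint/J4T/README.md -/

set_option autoImplicit false
set_option linter.unusedSectionVars false

namespace H75.JT

open Subgroup Matrix H75.L7

variable {G : Type*} [Group G] [Finite G]

theorem qa_sl : ∀ s ∈ SL, s = 1 ∨ ∃ t ∈ SL, t * t = 1 ∧ m4 (c4 (m4 (c4 (s * t)) * m4 (c4 (s * t)))) ≠ 1 ∧
    (let u := m4 (c4 (m4 (c4 (s * t)) * m4 (c4 (s * t)))); let v := m4 (c4 (u * u));
      v * u = 1 ∨ m4 (c4 (v * v)) * u = 1) := by decide +kernel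

theorem qa_gl : ∀ g ∈ GL3, g 2 = e2 → (∃ a b, g = tv a b) ∨ ∃ t ∈ GL3, t 2 = e2 ∧ t * t = 1 ∧
    m3 (c3 (m3 (c3 (g * t)) * m3 (c3 (g * t)))) ≠ 1 ∧
    (let u := m3 (c3 (m3 (c3 (g * t)) * m3 (c3 (g * t)))); m3 (c3 (u * u)) * u = 1) := by decide +kernel

theorem qa_odd {M : Type*} [Monoid M] {u : M} {n k : ℕ} (h : u ^ 2 ^ n = 1) (hk : Odd k) (e : u ^ k = 1) : u = 1 :=
  orderOf_eq_one_iff.1 (Nat.eq_one_of_dvd_coprimes (Nat.Coprime.pow_left n (Nat.coprime_two_left.2 hk))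
    (orderOf_dvd_of_pow_eq_one h) (orderOf_dvd_of_pow_eq_one e))

theorem qa_P {P : W → Prop} (add : ∀ u v, P u → P v → P (u + v))
    (inv : ∀ s ∈ SL, ∀ g ∈ GL3, g 2 = e2 → ∀ u, P u → P (act s g u)) {v : W} (hv : P v) (v0 : v ≠ 0) {u : W}
    (hu : u 2 = 0 ∨ v 2 ≠ 0) : P u := by
  have a : ∃ n, n ≠ 0 ∧ P ![n, 0, 0] := by
    by_cases h2 : v 2 = 0
    · by_cases h1 : v 1 = 0
      · refine ⟨v 0, fun h0 => v0 ?_, ?_⟩
        · funext i; fin_cases i <;> assumption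
        · convert hv; funext i; fin_cases i <;> simp [h1, h2]
      · refine ⟨v 1, h1, ?_⟩
        convert add _ _ hv (inv 1 one_SL !![1, 1, 0; 0, 1, 0; 0, 0, 1] (mem_GL_of (by decide +kernel)) (by decide) v hv)
        funext i; fin_cases i <;> simp [act, ← add_assoc, add_self2]
    · refine ⟨v 2, h2, ?_⟩
      convert add _ _ hv (inv 1 one_SL _ (tv_GL 1 0) (tv_two 1 0) v hv)
      rw [act_tv]
      funext i; fin_cases i <;> simp [← add_assoc, add_self2]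
  obtain ⟨n, n0, hn⟩ := a
  have b : ∀ m, P ![m, 0, 0] := fun m => by
    by_cases m0 : m = 0
    · convert add _ _ hv hv
      rw [W_add_self, m0]; funext i; fin_cases i <;> rfl
    · obtain ⟨s, hs, rfl⟩ := SL_trans n m n0 m0
      convert inv s hs 1 one_GL (by decide) _ hn
      rw [act_one]; funext i; fin_cases i <;> simp
  have c : ∀ w : W, w 2 = 0 → P w := fun w hw => by
    convert add _ _ (b (w 0)) (inv 1 one_SL !![0, 1, 0; 1, 0, 0; 0, 0, 1] (mem_GL_of (by decide +kernel)) (by decide) _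
      (b (w 1)))
    funext i; fin_cases i <;> simp [act, hw]
  by_cases u2 : u 2 = 0
  · exact c u u2
  · obtain ⟨s, hs, e⟩ := SL_trans (v 2) (u 2) (hu.resolve_left u2) u2
    have := add _ _ (inv s hs 1 one_GL (by decide) v hv) (c (act s 1 v + u) 
      (by rw [Pi.add_apply, act_two (by decide), e, add_self2]))
    rwa [← add_assoc, W_add_self, zero_add] at this

namespace Fr

variable {F : Fr G}

theorem qa_two {x k : G} (h : x ∈ F.Q) (hk : k ∈ F.K) (a : F.H k) (e1 : F.σ k * F.σ k = 1) (e2 : F.θ k * F.θ k = 1) :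
    x ∈ F.K ∧ ∃ n, (F.σ x * F.σ k * (F.σ x * F.σ k)) ^ 2 ^ n = 1 ∧ (F.θ x * F.θ k * (F.θ x * F.θ k)) ^ 2 ^ n = 1 := by
  have := Fact.mk Nat.prime_two
  obtain ⟨T, t1, t2, t3⟩ := F.exists_T
  have QT : F.Q ≤ T := by
    rw [← T.3 (T.2.to_sup_of_normal_right' F.Q_two fun t ht => (nm_zp (t3 t ht)).T.mem) le_sup_left]
    exact le_sup_right
  have xK := t1 (QT h)
  have m : x * k * (x * k) ∈ (T : Subgroup G) := by
    rw [show x * k * (x * k) = x * (k * x * k⁻¹) * (k * k) by group]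
    exact mul_mem (QT (mul_mem h (a.conj_Q h))) (t2 ((F.ker _ (mul_mem hk hk)).2
      ⟨by rw [F.σ_mul _ hk _ hk, e1], by rw [F.θ_mul _ hk _ hk, e2]⟩))
  obtain ⟨n, hn⟩ := two_pow T.2 m
  have y := mul_mem xK hk
  refine ⟨xK, n, ?_, ?_⟩
  · rw [← F.σ_mul _ xK _ hk, ← F.σ_mul _ y _ y, ← σ_pow (mul_mem y y), hn, σ_one]
  · rw [← F.θ_mul _ xK _ hk, ← F.θ_mul _ y _ y, ← θ_pow (mul_mem y y), hn, θ_one]

theorem qa_R {x : G} (h : x ∈ F.Q) : F.R x := by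
  have xK := (qa_two h (one_mem _) F.H_one (by simp [σ_one]) (by simp [θ_one])).1
  refine ⟨xK, (qa_sl _ (F.σ_mem x xK)).resolve_right ?_, (qa_gl _ (F.θ_mem x xK) ((H_iff xK).1 (H_Q h))).resolve_right ?_⟩
  · rintro ⟨t, ht, t2, n1, e⟩
    simp only [m4_c4] at n1 e
    obtain ⟨k, hk, rfl, e'⟩ := F.sur t ht 1 one_GL
    obtain ⟨-, n, a, -⟩ := qa_two h hk ((H_iff hk).2 (by rw [e']; decide)) t2 (by rw [e', mul_one])
    rcases e with e | e
    · exact n1 (qa_odd a (k := 3) (by decide) (by rw [← e, pow_three']))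
    · exact n1 (qa_odd a (k := 5) (by decide) (by rw [← e]; simp only [pow_succ, pow_zero, one_mul, mul_assoc]))
  · rintro ⟨t, ht, t1, t2, n1, e⟩
    simp only [m3_c3] at n1 e
    obtain ⟨k, hk, e', rfl⟩ := F.sur 1 one_SL t ht
    obtain ⟨-, n, -, a⟩ := qa_two h hk ((H_iff hk).2 t1) (by rw [e', mul_one]) t2
    exact n1 (qa_odd a (k := 3) (by decide) (by rw [← e, pow_three']))

/-- the elements of `H` acting trivially on `Q / ⟨z⟩` -/
def qa_Y (F : Fr G) : Subgroup G where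
  carrier := {h | F.H h ∧ ∀ x ∈ F.Q, F.Cz (h * x * h⁻¹) x}
  one_mem' := ⟨F.H_one, fun x _ => by simpa using F.cz_refl x⟩
  mul_mem' := by
    rintro g h ⟨a, b⟩ ⟨c, d⟩
    exact ⟨a.mul c, fun x hx => by simpa [mul_assoc] using ((d x hx).conj a).trans (b x hx)⟩
  inv_mem' := by
    rintro g ⟨a, b⟩
    exact ⟨a.inv, fun x hx => by simpa [mul_assoc] using (b _ (a.conj_Q' hx)).symm⟩

theorem qa_mY {h : G} : h ∈ F.qa_Y ↔ F.H h ∧ ∀ x ∈ F.Q, F.Cz (h * x * h⁻¹) x := Iff.rfl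

theorem qa_eqns : True := by have := @qa_Y.eq_1.{0}; trivial

theorem qa_nY {g : G} (a : F.H g) : Nm g F.qa_Y := by
  rintro h ⟨b, c⟩
  exact ⟨a.conj b, fun x hx => by simpa [mul_assoc] using (c _ (a.conj_Q' hx)).conj a⟩

theorem qa_sc (H : Ch2 G) {h : G} (a : F.H h) (e : ∀ x ∈ F.Q, F.Cz (h * x * h⁻¹) x) : h ∈ F.Q := by
  refine le_Q (Y := F.qa_Y) (two_of_pow fun y hy => ?_) (fun y hy => hy.1) (fun g => qa_nY) ⟨a, e⟩
  have : y * y ∈ F.Q := cent_Q H fun x hx => comm_of_conj_eq (by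
    rw [show y * y * x * (y * y)⁻¹ = y * (y * x * y⁻¹) * y⁻¹ by group]
    rcases hy.2 x hx with e | e
    · rw [e, e]
    · rw [e, ← conj_mul, e, hy.1.conj_z, mul_assoc, F.z2, mul_one])
  obtain ⟨k, hk⟩ := two_pow F.Q_two this
  exact ⟨k + 1, by rw [pow_succ', pow_mul, pow_two, hk]⟩

theorem qa_sub {X : Subgroup G} (hX : ∀ k ∈ F.K, F.H k → Nm k X) {l : G} (hl : l ∈ X) (hL : l ∈ F.L) (h0 : F.φ l ≠ 0)
    {u : W} (hu : u 2 = 0 ∨ F.φ l 2 ≠ 0) : ∃ l' ∈ X, l' ∈ F.L ∧ F.φ l' = u := by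
  refine qa_P (P := fun u => ∃ l' ∈ X, l' ∈ F.L ∧ F.φ l' = u) ?_ ?_ ⟨l, hl, hL, rfl⟩ h0 hu
  · rintro _ _ ⟨a, a1, a2, rfl⟩ ⟨b, b1, b2, rfl⟩
    exact ⟨a * b, mul_mem a1 b1, mul_mem a2 b2, F.φ_mul _ a2 _ b2⟩
  · rintro s hs g hg e _ ⟨a, a1, a2, rfl⟩
    obtain ⟨k, hk, rfl, rfl⟩ := F.sur s hs g hg
    exact ⟨_, hX k hk ((H_iff hk).2 e) a a1, conj_mem_L hk a2, F.φ_conj k hk a a2⟩

end Fr

end H75.JT
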