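import Cfsg.Agent.Lib.J4T.QA

/-! J4T package QB: see blueprint/J4T/README.md -/

set_option autoImplicit false
set_option linter.unusedSectionVars false

namespace H75.JT

open Subgroup Matrix H75.L7

variable {G : Type*} [Group G] [Finite G]

namespace Fr

variable {F : Fr G}

theorem qb_cz {a b : G} (h : F.H a) (h' : F.H b) (e : F.Cz (a * b * a⁻¹) b) : F.Cz (b * a * b⁻¹) a := by
  simpa [mul_assoc] using ((e.mul_right h).mul_right h'.inv).symm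

/-- the subgroup generated by the blocks -/
def qb_U (F : Fr G) : Subgroup G := closure {b | ∃ h c, F.H h ∧ b = h * F.ζ c * h⁻¹}

theorem qb_mem {h : G} (a : F.H h) (c : V3) : h * F.ζ c * h⁻¹ ∈ F.qb_U := subset_closure ⟨h, c, a, rfl⟩

theorem qb_eqns : True := by have := @qb_U.eq_1.{0}; trivial

theorem qb_ζ (c : V3) : F.ζ c ∈ F.qb_U := by simpa using qb_mem F.H_one c

theorem qb_nm {g : G} (a : F.H g) : Nm g F.qb_U := Nm.closure (by
  rintro _ ⟨h, c, b, rfl⟩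
  exact subset_closure ⟨g * h, c, a.mul b, by group⟩)

theorem qb_Y : F.qb_U ≤ F.qa_Y := (closure_le _).2 (by
  rintro _ ⟨h, c, a, rfl⟩
  exact qa_nY a _ (qa_mY.2 ⟨H_L (F.ζ_mem c), fun x hx => qb_cz (H_Q hx) (H_L (F.ζ_mem c)) ((qa_R hx).cz_ζ c)⟩))

theorem qb_Q (H : Ch2 G) : F.qb_U ≤ F.Q := fun _ hx => qa_sc H (qa_mY.1 (qb_Y hx)).1 (qa_mY.1 (qb_Y hx)).2

theorem qb_nL (hH : ∃ h, F.H h ∧ h ∉ F.K) : ¬ F.qb_U ≤ F.L := fun hL => by
  obtain ⟨h, a, hK⟩ := hH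
  obtain ⟨c, hc⟩ : ∃ c, ∀ d, h * F.ζ c * h⁻¹ ≠ F.ζ d := by
    by_contra k
    push Not at k
    exact hK (F.nm h k)
  have m := qb_mem a c
  have n : F.φ (h * F.ζ c * h⁻¹) ≠ 0 := fun e => ((F.φ_ker _ (hL m)).1 e).elim hc
  have ab : ∀ x ∈ F.qb_U, ∀ y ∈ F.qb_U, Commute y x := fun x hx => comm_closure (by
    rintro _ ⟨g, d, b, rfl⟩
    simpa [mul_assoc] using (ζ_comm (hL (qb_nm b.inv x hx)) d).map (MulAut.conj g)) |> fun k y hy => (k y hy).symm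
  obtain ⟨l, l1, l2, e⟩ := qa_sub (fun k _ => qb_nm) m (hL m) n (u := ![![1, 0, 0, 0], 0, 0]) (.inl rfl)
  obtain ⟨l', l1', l2', e'⟩ := qa_sub (fun k _ => qb_nm) m (hL m) n (u := ![0, ![0, 0, 0, 1], 0]) (.inl rfl)
  have := (comm_iff l2 l2').1 (ab _ l1' _ l1)
  rw [e, e'] at this
  revert this; decide

theorem qb_tv (H : Ch2 G) (hH : ∃ h, F.H h ∧ h ∉ F.K) (a b : F2) : ∃ x ∈ F.qb_U, F.θ x = tv a b := by
  obtain ⟨u, hu, uL⟩ := SetLike.not_le_iff_exists.1 (qb_nL hH)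
  have r := qa_R (qb_Q H hu)
  obtain ⟨uK, -, c, d, e⟩ := id r
  have key : ∀ c d a b : F2, tv c d = 1 ∨ tv a b = 1 ∨ ∃ g ∈ GL3, g 2 = e2 ∧ g * tv c d = tv a b * g := by
    decide +kernel
  rcases key c d a b with k | k | ⟨g, hg, g2, k⟩
  · exact absurd (r.L_of (e.trans k)) uL
  · exact ⟨1, one_mem _, by rw [k, θ_one]⟩
  · obtain ⟨y, hy, -, rfl⟩ := F.sur 1 one_SL g hg
    exact ⟨_, qb_nm ((H_iff hy).2 g2) u hu, by rw [θ_conj hy uK, e, k, mul_assoc, θ_inv hy, mul_one]⟩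

theorem qb (H : Ch2 G) (hH : ∃ h, F.H h ∧ h ∉ F.K) : F.QS := by
  obtain ⟨u, hu, e⟩ := qb_tv H hH 1 0
  have r := qa_R (qb_Q H hu)
  have LU : ∀ l ∈ F.L, F.φ l 2 = 0 → l ∈ F.qb_U := fun l hl l2 => by
    obtain ⟨m, hm, em⟩ := F.φ_sur ![0, 0, ![1, 0, 0, 0]]
    have m1 := conj_mem_L r.K hm
    have m2 : u * m * u⁻¹ * m⁻¹ ∈ F.qb_U := by
      simpa [mul_assoc] using mul_mem hu (qb_nm (H_L hm) _ (inv_mem hu))
    obtain ⟨l', a, b, c⟩ := qa_sub (fun k _ => qb_nm) m2 (mul_mem m1 (inv_mem hm)) (by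
      rw [F.φ_mul _ m1 _ (inv_mem hm), φ_inv hm, r.φ_conj e hm, em]; decide) (u := F.φ l) (.inl l2)
    obtain ⟨d, rfl⟩ := (φ_eq hl b).1 c.symm
    exact mul_mem a (qb_ζ d)
  have LQ : ∀ l ∈ F.L, l ∈ F.Q → F.φ l 2 = 0 := fun l hl lQ => by
    have := congrFun (((qa_mY.1 (qb_Y hu)).2 l lQ).φ hl) 0
    rw [r.φ_conj e hl] at this
    simpa using this
  have QU : F.Q ≤ F.qb_U := fun x hx => by
    obtain ⟨k, s, a, b, t⟩ := qa_R hx
    obtain ⟨y, hy, t'⟩ := qb_tv H hH a b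
    have yQ := qb_Q H hy
    obtain ⟨l, hl, rfl⟩ := eq_mul_L k (qa_R yQ).1 (s.trans (qa_R yQ).2.1.symm) (t.trans t'.symm)
    exact mul_mem (LU l hl (LQ l hl ((mul_mem_cancel_right yQ).1 hx))) hy
  have cm : ∀ x ∈ F.Q, ∀ y ∈ F.Q, F.Cz (x * y) (y * x) := fun x hx y hy => by
    simpa using ((qa_mY.1 (qb_Y (QU hx))).2 y hy).mul_right (H_Q hx)
  refine ⟨fun x => qa_R, fun l hl => ⟨LQ l hl, fun k => qb_Q H (LU l hl k)⟩,
    fun a b => (qb_tv H hH a b).imp fun x k => ⟨qb_Q H k.1, k.2⟩, cm, fun x hx => ?_, fun h => qa_sc H⟩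
  refine closure_induction (p := fun x _ => F.Cz (x * x) 1) ?_ (by simpa using F.cz_refl 1) ?_ ?_ (QU hx)
  · rintro _ ⟨h, c, -, rfl⟩
    rw [conj_mul, ζ_sq, mul_one, mul_inv_cancel]
    exact F.cz_refl 1
  · intro x y hx hy a b
    have x' := qb_Q H hx
    have y' := qb_Q H hy
    have := (((cm y y' x x').mul_left x).mul_right (H_Q y')).trans
      (by simpa [mul_assoc] using a.mul b F.H_one : F.Cz (x * (x * y) * y) 1)
    simpa [mul_assoc] using this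
  · intro x hx a
    rw [← _root_.mul_inv_rev]
    rcases a with a | a <;> rw [a]
    · exact .inl inv_one
    · exact .inr (by rw [one_mul, z_inv])

end Fr

end H75.JT
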