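import Cfsg.Agent.Lib.J4T.TY

/-! J4T package SG: see blueprint/J4T/README.md -/

set_option autoImplicit false
set_option synthInstance.maxSize 100000
set_option synthInstance.maxHeartbeats 400000
set_option maxRecDepth 100000

namespace H75.JT

open Subgroup Matrix H75.L7 H75.JT.Fr

theorem sg_f1 : ∀ a b : V4, a ≠ 0 → (b = J *ᵥ a ∨ b = J *ᵥ (J *ᵥ a)) → b ≠ 0 ∧ a + b ≠ 0 ∧
    (SL.filter fun s => s *ᵥ a = a ∧ s *ᵥ b = b).length ≤ 4 := by decide +kernel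

theorem sg_f2 : ∀ n : V4, n ≠ 0 →
    (SL.filter fun s => ∀ m, f n m = 0 → s *ᵥ m = m ∨ s *ᵥ m = m + n).length ≤ 4 := by decide +kernel

theorem sg_f3 : ∀ n : V4, n ≠ 0 → ∃ p q, f p n = 0 ∧ f q n = 0 ∧ (p ≠ 0 ∧ p ≠ n) ∧ (q ≠ 0 ∧ q ≠ n) ∧
    p + q ≠ 0 ∧ p + q ≠ n := by decide +kernel

variable {G : Type*} [Group G] [Finite G]

namespace St

variable {S : St G}

theorem sg_fin {h m m' : G} {P : M4 → Prop} [DecidablePred P] (len : (SL.filter fun s => P s).length ≤ 4)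
    (hP : ∀ x, S.TyM h x → P (S.σ x)) (b : S.TyM h m) (b' : S.TyM h m')
    (nd : [1, S.σ m, S.σ m', S.σ (m * m')].Nodup) {s : M4} (hs : s ∈ SL) (p : P s) :
    ∃ m ∈ S.K, S.R (h⁻¹ * m * h) ∧ S.σ m = s ∧ ∃ x y, S.θ m = tv x y := by
  have o : S.TyM h 1 := ⟨one_mem _, by simpa using R_L (one_mem S.L), 0, 0, by rw [θ_one, tv_zero]⟩
  have k : ∀ t ∈ [1, S.σ m, S.σ m', S.σ (m * m')], ∃ x, S.TyM h x ∧ S.σ x = t := by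
    simp only [List.mem_cons, List.not_mem_nil, or_false]
    rintro t (rfl | rfl | rfl | rfl)
    exacts [⟨1, o, σ_one _⟩, ⟨_, b, rfl⟩, ⟨_, b', rfl⟩, ⟨_, (b.mul b').1, rfl⟩]
  by_cases e : s ∈ [1, S.σ m, S.σ m', S.σ (m * m')]
  · obtain ⟨x, hx, rfl⟩ := k s e
    exact ⟨x, hx.1, hx.2.1, rfl, hx.2.2⟩
  refine absurd ((ty_len (List.nodup_cons.2 ⟨e, nd⟩) fun t ht => ?_).trans len) (by simp)
  rcases List.mem_cons.1 ht with rfl | ht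
  · exact ⟨hs, p⟩
  · obtain ⟨x, hx, rfl⟩ := k t ht
    exact ⟨S.σ_mem _ hx.1, hP x hx⟩

theorem sg_ff {h : G} {v : W} (hv : FF v) (a : S.Ov h v) {s : M4} (hs : s ∈ SL) (h1 : s *ᵥ v 0 = v 0)
    (h2 : s *ᵥ v 1 = v 1) : ∃ m ∈ S.K, S.R (h⁻¹ * m * h) ∧ S.σ m = s ∧ ∃ x y, S.θ m = tv x y := by
  obtain ⟨v1, v2, len⟩ := sg_f1 _ _ hv.2.1 hv.2.2
  have ns : ∀ r, S.R r → S.R (h⁻¹ * r * h) → r ∈ S.Q := fun r r1 r2 => by_contra fun q => by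
    have k := sh1 a.1.1 a.1.2.1 r1 q r2
    obtain ⟨c, -, e⟩ := ov_ex k
    rcases (a.2 _).1 ⟨c, e⟩ with t | t | t | t
    · exact ov_ne k t
    · exact v1 (congrFun t 1).symm
    · exact v2 (congrFun t 1).symm
    · have : (0 : V4) = v 1 + (v 0 + v 1) := congrFun t 1
      rw [add_comm (v 0), ← add_assoc, add_self2, zero_add] at this
      exact hv.2.1 this.symm
  obtain ⟨c, hc, rfl⟩ := ov_ex a
  obtain ⟨m, m', b, b', nd⟩ := ty_two a.1 ns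
  exact sg_fin len (fun x hx => ty_fix a.1 ns hc hx) b b' nd hs ⟨h1, h2⟩

theorem sg_pu' {h k : G} {n : V4} (a : S.Ov h ![n, 0, 0]) (hk : k ∈ S.K) (e : S.R (h⁻¹ * k * h)) {m : V4}
    (hm : f n m = 0) : S.σ k *ᵥ m = m ∨ S.σ k *ᵥ m = m + n := by
  obtain ⟨r, hr, rfl⟩ := S.κ_sur m
  obtain ⟨c, hc, t⟩ := ov_ex a
  obtain ⟨y, y1, y2, y3⟩ := ty_cm a.1.1 hk e (R_L hr) ((nb_stab a.1 (R_L hr) hc).2 (by
    rw [t]
    exact ⟨f_comm _ _ ▸ hm, f_zero_right _⟩))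
  by_cases q : y ∈ S.Q
  · exact .inl (V4_add_eq_zero.1 (y3 ▸ κ_Q q))
  · refine .inr ?_
    rw [ov_pure a (sh1 a.1.1 a.1.2.1 y1 q y2), y3, add_comm (S.σ k *ᵥ S.κ r), ← add_assoc, add_self2, zero_add]

theorem sg_pu {h : G} {n : V4} (a : S.Ov h ![n, 0, 0]) {s : M4} (hs : s ∈ SL)
    (h1 : ∀ m, f n m = 0 → s *ᵥ m = m ∨ s *ᵥ m = m + n) :
    ∃ m ∈ S.K, S.R (h⁻¹ * m * h) ∧ S.σ m = s ∧ ∃ x y, S.θ m = tv x y := by
  have n0 : n ≠ 0 := fun e => ov_ne a (by rw [e]; ext i; fin_cases i <;> simp)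
  obtain ⟨c, hc, t⟩ := ov_ex a
  obtain ⟨r, r1, r2, -, r3⟩ := ty_pu a.1 hc (n := n) (x := 1) (y := 0) (by rw [t, one_smul, zero_smul])
  have a' := nb_symm a.1
  have sh : ∀ x, S.R x → S.R (h⁻¹ * x * h) → x ∉ S.Q → S.Ov h⁻¹ ![S.κ (h⁻¹ * x * h), 0, 0] := fun x x1 x2 x3 =>
    sh1 a'.1 a'.2.1 x2 (fun k => x3 (by simpa [mul_assoc] using a.1.1.conj_Q k)) (by simpa [mul_assoc] using x1)
  have o := sh r r1 r3 r2
  obtain ⟨d, hd, t'⟩ := ov_ex o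
  obtain ⟨p, q, p1, q1, p2, q2, pq⟩ := sg_f3 (S.κ (h⁻¹ * r * h)) fun e =>
    ov_ne o (by rw [e]; ext i; fin_cases i <;> simp)
  obtain ⟨m, b, e⟩ := ty_ex a.1 hd (n := p) (by rw [t']; exact p1) (by rw [t']; exact f_zero_right _)
  obtain ⟨m', b', e'⟩ := ty_ex a.1 hd (n := q) (by rw [t']; exact q1) (by rw [t']; exact f_zero_right _)
  have k : ∀ x, S.TyM h x → S.κ (h⁻¹ * x * h) ≠ 0 ∧ S.κ (h⁻¹ * x * h) ≠ S.κ (h⁻¹ * r * h) → S.σ x ≠ 1 :=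
    fun x hx u w => u.2 (ov_pure (sh x ⟨hx.1, w, hx.2.2⟩ hx.2.1 fun z => u.1 (κ_Q (a.1.1.conj_Q' z))) o)
  exact sg_fin (sg_f2 n n0) (fun x hx _ hm => sg_pu' a hx.1 hx.2.1 hm) b b' (ty_four a.1.1 b b'
    (k _ b (e ▸ p2)) (k _ b' (e' ▸ q2)) (k _ (b.mul b').1 (by rwa [(b.mul b').2, e, e']))) hs h1

end St

end H75.JT
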