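import Cfsg.Agent.Lib.J4T.D1

/-! J4T package SH: see blueprint/J4T/README.md -/

set_option autoImplicit false
set_option synthInstance.maxSize 4000

namespace H75.JT

open Subgroup Matrix H75.L7 H75.JT.Fr

variable {G : Type*} [Group G] [Finite G]

/-- no elementary abelian subgroup of order 8 in `S₅` -/
theorem sh_noE8 : ∀ s ∈ SL, s * s = 1 → ∀ t ∈ SL, t * t = 1 → s * t = t * s → ∀ u ∈ SL, u * u = 1 →
    u * s = s * u → u * t = t * u → s = 1 ∨ t = 1 ∨ u = 1 ∨ s = t ∨ s = u ∨ t = u ∨ s * t = u := by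
  decide +kernel

theorem sh_pure : ∀ (n m : V4) (x y : F2), (![x • n, y • n, 0] : W) ≠ 0 → (![x • n, y • n, 0] : W) = 0 ∨
    (![x • n, y • n, 0] : W) = ![m, 0, 0] ∨ (![x • n, y • n, 0] : W) = om ![m, 0, 0] ∨
    (![x • n, y • n, 0] : W) = om (om ![m, 0, 0]) → m = n := by decide +kernel

namespace St

variable {S : St G}

theorem sh1 {h r : G} (a : S.H h) (hK : h ∉ S.K) (hr : S.R r) (hQ : r ∉ S.Q) (e : S.R (h⁻¹ * r * h)) :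
    S.Ov h ![S.κ r, 0, 0] := by
  obtain ⟨m, hm⟩ := f_nd (S.κ (h⁻¹ * r * h)) fun k => hQ (by
    simpa [mul_assoc] using a.conj_Q ((S.κ_ker _ e).1 k))
  have k : ∀ c, h * S.ζ c * h⁻¹ ∈ S.L ∧ ∃ x y : F2, S.φ (h * S.ζ c * h⁻¹) = ![x • S.κ r, y • S.κ r, 0] :=
    fun c => by
    obtain ⟨l, hl, el⟩ := S.φ_sur ![c 1 • m, c 0 • m, 0]
    have l2 : S.φ l 2 = 0 := by rw [el]; rfl
    have xQ := a.conj_Q (inv_mem ((QL hl).2 l2))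
    obtain ⟨-, -, x, y, t⟩ := R_Q xQ
    obtain ⟨m1, m2⟩ := act2 hr xQ t
    have c1 := (act1 e hl l2).mul_left l⁻¹
    rw [el, inv_mul_cancel_left] at c1
    have c2 : S.Cz (S.ζ c) (S.ζ ![f (S.κ (h⁻¹ * r * h)) (c 0 • m), f (S.κ (h⁻¹ * r * h)) (c 1 • m), 0]) := by
      rw [f_smul_right, f_smul_right, hm, mul_one, mul_one]
      exact cz_ζ.2 ((by decide +kernel : ∀ c : V3, c = ![c 0, c 1, 0] ∨ c = ![c 0, c 1, 0] + e2) c)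
    have c3 := (c2.trans c1.symm).conj a
    rw [show h * (l⁻¹ * (h⁻¹ * r * h * l * (h⁻¹ * r * h)⁻¹)) * h⁻¹ =
      h * l⁻¹ * h⁻¹ * r * (h * l⁻¹ * h⁻¹)⁻¹ * r⁻¹ by group] at c3
    exact ⟨c3.mem S.z_L m1, x, y, (c3.φ m1).trans m2⟩
  have nb : S.Nb h := ⟨a, hK, fun c => (k c).1⟩
  have key : ∀ x y : F2, ∃ c, S.φ (h * S.ζ c * h⁻¹) = ![x • S.κ r, y • S.κ r, 0] := fun x y => by
    obtain ⟨-, x1, y1, f1⟩ := k ![1, 0, 0]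
    obtain ⟨-, x2, y2, f2⟩ := k ![0, 1, 0]
    have f3 := nb_add nb ![1, 0, 0] ![0, 1, 0]
    have n1 := nb_ne nb (c := ![1, 0, 0]) (by decide)
    have n2 := nb_ne nb (c := ![0, 1, 0]) (by decide)
    have n3 := nb_ne nb (c := ![1, 0, 0] + ![0, 1, 0]) (by decide)
    rw [f3, f1, f2] at n3
    rw [f1] at n1
    rw [f2] at n2
    have t : ∀ (n : V4) (x1 y1 x2 y2 : F2), (![x1 • n, y1 • n, 0] : W) ≠ 0 → (![x2 • n, y2 • n, 0] : W) ≠ 0 →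
        (![x1 • n, y1 • n, 0] + ![x2 • n, y2 • n, 0] : W) ≠ 0 → ∀ x y : F2, (0 : W) = ![x • n, y • n, 0] ∨
        (![x1 • n, y1 • n, 0] : W) = ![x • n, y • n, 0] ∨ (![x2 • n, y2 • n, 0] : W) = ![x • n, y • n, 0] ∨
        (![x1 • n, y1 • n, 0] + ![x2 • n, y2 • n, 0] : W) = ![x • n, y • n, 0] := by decide +kernel
    rcases t _ _ _ _ _ n1 n2 n3 x y with p | p | p | p
    exacts [⟨0, (nb_zero nb (by decide)).trans p⟩, ⟨_, f1.trans p⟩, ⟨_, f2.trans p⟩,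
      ⟨_, by rw [f3, f1, f2, p]⟩]
  have t : ∀ n : V4, (![(0 : F2) • n, (0 : F2) • n, 0] : W) = 0 ∧ (![(1 : F2) • n, (0 : F2) • n, 0] : W) = ![n, 0, 0] ∧
      (![(0 : F2) • n, (1 : F2) • n, 0] : W) = om ![n, 0, 0] ∧
      (![(1 : F2) • n, (1 : F2) • n, 0] : W) = om (om ![n, 0, 0]) := by decide +kernel
  obtain ⟨t0, t1, t2, t3⟩ := t (S.κ r)
  refine ⟨nb, fun u => ⟨?_, ?_⟩⟩
  · rintro ⟨c, rfl⟩
    obtain ⟨-, x, y, p⟩ := k c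
    rw [p]
    rcases F2_cases x with rfl | rfl <;> rcases F2_cases y with rfl | rfl
    exacts [Or.inl t0, Or.inr (Or.inr (Or.inl t2)), Or.inr (Or.inl t1), Or.inr (Or.inr (Or.inr t3))]
  · rintro (rfl | rfl | rfl | rfl)
    exacts [t0 ▸ key 0 0, t1 ▸ key 1 0, t2 ▸ key 0 1, t3 ▸ key 1 1]

theorem sh2 {h r : G} (a : S.Nb h) (hr : S.R r) {c : V3} (hc : Fr.Out c) {x y : F2}
    (e : S.φ (h * S.ζ c * h⁻¹) = ![x • S.κ r, y • S.κ r, 0]) : S.R (h⁻¹ * r * h) := by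
  have n0 := nb_ne a hc
  have mK : ∀ {s}, S.R s → f (S.κ s) (S.κ r) = 0 → h⁻¹ * s * h ∈ S.K := fun hs p => (nb_stab a hs hc).2 (by
    rw [e]
    exact ⟨by show f _ (x • _) = 0; rw [f_smul_right, p, mul_zero],
      by show f _ (y • _) = 0; rw [f_smul_right, p, mul_zero]⟩)
  have fin : ∀ s, S.R s → f (S.κ s) (S.κ r) = 0 → S.κ s ≠ 0 → S.σ (h⁻¹ * s * h) = 1 → S.R (h⁻¹ * r * h) :=
    fun s hs p s0 s1 => by
    have R0 : S.R (h⁻¹ * s * h) := ⟨mK hs p, s1, nb_tv a hs (mK hs p)⟩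
    have o := sh1 a.1 a.2.1 hs (fun k => s0 (κ_Q k)) R0
    have q := sh_pure (S.κ r) (S.κ s) x y (e ▸ n0) (e ▸ (o.2 _).1 ⟨c, rfl⟩)
    have := R0.mul (R_Q (a.1.conj_Q' ((κ_eq hr hs).1 q.symm)))
    rwa [show h⁻¹ * s * h * (h⁻¹ * (s⁻¹ * r) * h) = h⁻¹ * r * h by group] at this
  have ml : ∀ {s t}, h⁻¹ * s * h ∈ S.K → h⁻¹ * t * h ∈ S.K →
      S.σ (h⁻¹ * (s * t) * h) = S.σ (h⁻¹ * s * h) * S.σ (h⁻¹ * t * h) := fun p q => by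
    rw [← S.σ_mul _ p _ q]; congr 1; group
  have sq : ∀ {s}, S.R s → h⁻¹ * s * h ∈ S.K → S.σ (h⁻¹ * s * h) * S.σ (h⁻¹ * s * h) = 1 := fun hs p => by
    rw [← ml p p, σ_Q (a.1.conj_Q' (R_sq hs))]
  have cm : ∀ {s t}, S.R s → S.R t → h⁻¹ * s * h ∈ S.K → h⁻¹ * t * h ∈ S.K →
      S.σ (h⁻¹ * s * h) * S.σ (h⁻¹ * t * h) = S.σ (h⁻¹ * t * h) * S.σ (h⁻¹ * s * h) := fun {s t} hs ht p q => by
    have m := a.1.conj_Q' (R_comm hs ht)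
    rw [← S.σ_mul _ p _ q, ← S.σ_mul _ q _ p, show h⁻¹ * s * h * (h⁻¹ * t * h) =
      h⁻¹ * (s * t * s⁻¹ * t⁻¹) * h * (h⁻¹ * t * h * (h⁻¹ * s * h)) by group,
      S.σ_mul _ (K_Q m) _ (mul_mem q p), σ_Q m, one_mul]
  obtain ⟨n1, n2, n3, p1, p2, p3, z1, z2, z3, z4, z5, z6, z7⟩ := (by decide +kernel : ∀ n : V4, ∃ n1 n2 n3 : V4,
    f n1 n = 0 ∧ f n2 n = 0 ∧ f n3 n = 0 ∧ n1 ≠ 0 ∧ n2 ≠ 0 ∧ n3 ≠ 0 ∧ n1 + n2 ≠ 0 ∧ n1 + n3 ≠ 0 ∧ n2 + n3 ≠ 0 ∧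
      n1 + n2 + n3 ≠ 0) (S.κ r)
  obtain ⟨l1, h1, rfl⟩ := S.κ_sur n1
  obtain ⟨l2, h2, rfl⟩ := S.κ_sur n2
  obtain ⟨l3, h3, rfl⟩ := S.κ_sur n3
  have r1 := R_L h1
  have r2 := R_L h2
  have r3 := R_L h3
  have k1 := mK r1 p1
  have k2 := mK r2 p2
  have k3 := mK r3 p3
  have two : ∀ {s t}, S.R s → S.R t → f (S.κ s) (S.κ r) = 0 → f (S.κ t) (S.κ r) = 0 → S.κ s + S.κ t ≠ 0 →
      S.σ (h⁻¹ * s * h) = S.σ (h⁻¹ * t * h) → S.R (h⁻¹ * r * h) := fun hs ht p q z k =>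
    fin _ (hs.mul ht) (by rw [S.κ_mul _ _ hs ht, f_add_left, p, q, add_zero]) (by rwa [S.κ_mul _ _ hs ht])
      (by rw [ml (mK hs p) (mK ht q), k, sq ht (mK ht q)])
  rcases sh_noE8 _ (S.σ_mem _ k1) (sq r1 k1) _ (S.σ_mem _ k2) (sq r2 k2) (cm r1 r2 k1 k2) _ (S.σ_mem _ k3)
    (sq r3 k3) (cm r3 r1 k3 k1) (cm r3 r2 k3 k2) with p | p | p | p | p | p | p
  exacts [fin _ r1 p1 z1 p, fin _ r2 p2 z2 p, fin _ r3 p3 z3 p, two r1 r2 p1 p2 z4 p, two r1 r3 p1 p3 z5 p,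
    two r2 r3 p2 p3 z6 p, two (r1.mul r2) r3 (by rw [S.κ_mul _ _ r1 r2, f_add_left, p1, p2, add_zero]) p3
      (by rwa [S.κ_mul _ _ r1 r2]) (by rw [ml k1 k2, p])]

theorem ov_pure {h : G} {n m : V4} (a : S.Ov h ![n, 0, 0]) (b : S.Ov h ![m, 0, 0]) : n = m := by
  have e : (![(1 : F2) • n, (0 : F2) • n, 0] : W) = ![n, 0, 0] := by simp
  exact (sh_pure n m 1 0 (e ▸ ov_ne a) (e ▸ (b.2 _).1 ((a.2 _).2 (Or.inr (Or.inl rfl))))).symm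

end St

end H75.JT
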