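import Cfsg.Agent.Lib.J4T.CM
import Cfsg.Agent.Lib.J4T.SG
import Cfsg.Agent.Lib.LocStruct.SylowIn

/-! J4T package SIM1: see blueprint/J4T/README.md -/

set_option autoImplicit false

namespace H75.JT

open Subgroup Matrix H75.L7 H75.JT.Fr

variable {G : Type*} [Group G] [Finite G]

namespace St

variable {S : St G}

theorem sim1_lift {s : M4} (hs : s ∈ SL) : ∃ k ∈ S.K, k ∈ S.M ∧ S.σ k = s := by
  obtain ⟨k, hk, e1, e2⟩ := S.sur s hs 1 one_GL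
  exact ⟨k, hk, mem_M_of hk ⟨0, 0, by rw [e2, tv_zero]⟩, e1⟩

theorem sim1_R {D : Subgroup G} (h1 : S.X ≤ D) (h2 : D ≤ S.M) (h3 : ∀ m ∈ S.M, Nm m D) {d : G} (hd : d ∈ D)
    (hK : d ∈ S.K) (hX : d ∉ S.X) {r : G} (hr : S.R r) : r ∈ D := by
  have QD : S.Q ≤ D := le_sup_left.trans h1
  obtain ⟨r0, m0, R0, k0⟩ : ∃ r0 ∈ D, S.R r0 ∧ S.κ r0 ≠ 0 := by
    by_cases e : S.σ d = 1
    · obtain ⟨r, hr, i, rfl⟩ := MK_dec hK (h2 hd) e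
      have w : S.ω ^ i ∈ S.X := pow_mem (mem_sup_right (mem_zpowers _)) i
      exact ⟨r, (mul_mem_cancel_right (h1 w)).1 hd, hr, fun z =>
        hX (mul_mem (mem_sup_left ((S.κ_ker r hr).1 z)) w)⟩
    · have : ∀ s ∈ SL, s ≠ 1 → ∃ n : V4, s *ᵥ n + n ≠ 0 := by decide +kernel
      obtain ⟨n, hn⟩ := this _ (S.σ_mem d hK) e
      obtain ⟨l, hl, rfl⟩ := S.κ_sur n
      have a := (R_L hl).conj hK (h2 hd).1
      refine ⟨d * l * d⁻¹ * l⁻¹, ?_, a.mul (R_L hl).inv, ?_⟩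
      · have := mul_mem hd (h3 l (mem_M_of (S.LK hl) (R_L hl).2.2) _ (inv_mem hd))
        simpa only [mul_assoc] using this
      · rwa [S.κ_mul _ _ a (R_L hl).inv, κ_inv (R_L hl), S.κ_conj d hK (h2 hd).1 _ (R_L hl)]
  by_cases z : S.κ r = 0
  · exact QD ((S.κ_ker r hr).1 z)
  obtain ⟨s, hs, e⟩ := SL_trans _ _ k0 z
  obtain ⟨k, hk, hM, rfl⟩ := sim1_lift (S := S) hs
  have := QD ((κ_eq (R0.conj hk hM.1) hr).1 (by rw [S.κ_conj k hk hM.1 _ R0, e]))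
  exact inv_mem_iff.1 ((mul_mem_cancel_right (h3 k hM _ m0)).1 this)

theorem sim1_sig (hn : ∀ h, S.H h → S.N3 h) (hp : ∃ h n, S.Ov h ![n, 0, 0]) {D : Subgroup G}
    (h3 : ∀ m ∈ S.M, Nm m D) (hR : ∀ r, S.R r → r ∈ D) {s : M4} (hs : s ∈ SL) :
    ∃ m ∈ D, m ∈ S.K ∧ S.σ m = s := by
  have cj : ∀ s t u : M4, t ∈ SL → s * t = t * u → (∃ m ∈ D, m ∈ S.K ∧ S.σ m = s) →
      ∃ m ∈ D, m ∈ S.K ∧ S.σ m = u := by
    rintro _ t u ht e ⟨m, hm, mK, rfl⟩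
    obtain ⟨k, hk, hM, rfl⟩ := sim1_lift (S := S) ht
    refine ⟨_, h3 _ (inv_mem hM) m hm, mul_mem (mul_mem (inv_mem hk) mK) (inv_mem (inv_mem hk)), ?_⟩
    rw [σ_conj (inv_mem hk) mK, inv_inv, mul_assoc, e, ← mul_assoc, σ_inv' hk, one_mul]
  have mu : ∀ s t : M4, (∃ m ∈ D, m ∈ S.K ∧ S.σ m = s) → (∃ m ∈ D, m ∈ S.K ∧ S.σ m = t) →
      ∃ m ∈ D, m ∈ S.K ∧ S.σ m = s * t := by
    rintro _ _ ⟨m, hm, mK, rfl⟩ ⟨m', hm', mK', rfl⟩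
    exact ⟨_, mul_mem hm hm', mul_mem mK mK', S.σ_mul _ mK _ mK'⟩
  obtain ⟨h, n, hM, a⟩ : ∃ h n, h ∈ S.M ∧ S.Ov h ![n, 0, 0] := by
    obtain ⟨h, n, a⟩ := hp
    obtain ⟨t, tK, tH, -, -, -, e⟩ := S.ex_inv
    rcases e h a.1.1 (hn h a.1.1) with e | e
    exacts [⟨h, n, e, a⟩, ⟨_, n, e, ov_right a tK tH⟩]
  have n0 : n ≠ 0 := fun e => ov_ne a (by rw [e]; funext i; fin_cases i <;> rfl)
  have f1 : ∀ n : V4, n ≠ 0 → ∃ s ∈ SL, (∀ m : V4, f n m = 0 → s *ᵥ m = m ∨ s *ᵥ m = m + n) ∧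
      ∃ t ∈ SL, s * t = t * gT := by decide +kernel
  obtain ⟨s0, hs0, e0, t, ht, e1⟩ := f1 n n0
  obtain ⟨m, mK, mR, e2, -⟩ := sg_pu a hs0 e0
  have pT := cj _ _ _ ht e1 ⟨m, by simpa [mul_assoc] using h3 h hM _ (hR _ mR), mK, e2⟩
  have f2 : ∀ i : Fin 4, gen i = gT ∨ ∃ t ∈ SL, gT * t = t * m4 (c4 (gT * gen i)) := by decide +kernel
  have f3 : gT * gT = 1 := by decide +kernel
  refine SL_ind (P := fun s => ∃ m ∈ D, m ∈ S.K ∧ S.σ m = s) ⟨1, one_mem _, one_mem _, S.σ_one⟩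
    (fun s i p => mu _ _ ?_ p) hs
  rcases f2 i with e | ⟨t, ht, e⟩
  · rwa [e]
  · have := mu _ _ pT (cj _ _ _ ht e pT)
    rwa [m4_c4, ← mul_assoc, f3, one_mul] at this

theorem sim1 (hn : ∀ h, S.H h → S.N3 h) (c : Nat.card S.M = 2 ^ 20 * 10395) (hp : ∃ h n, S.Ov h ![n, 0, 0])
    {D : Subgroup G} (h1 : S.X ≤ D) (h2 : D ≤ S.M) (h3 : ∀ m ∈ S.M, Nm m D) {d : G} (hd : d ∈ D) (hK : d ∈ S.K)
    (hX : d ∉ S.X) : D = S.M := by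
  haveI : Fact (Nat.Prime 2) := ⟨Nat.prime_two⟩
  have hR : ∀ r, S.R r → r ∈ D := fun r hr => sim1_R h1 h2 h3 hd hK hX hr
  have MK : S.M ⊓ S.K ≤ D := fun k hk => by
    obtain ⟨m, hm, mK, e⟩ := sim1_sig hn hp h3 hR (S.σ_mem k hk.2)
    obtain ⟨r, hr, i, e'⟩ := MK_dec (mul_mem (inv_mem mK) hk.2) (mul_mem (inv_mem (h2 hm)) hk.1)
      (by rw [S.σ_mul _ (inv_mem mK) _ hk.2, ← e, σ_inv' mK])
    rw [inv_mul_eq_iff_eq_mul.1 e']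
    exact mul_mem hm (mul_mem (hR r hr) (h1 (pow_mem (mem_sup_right (mem_zpowers _)) i)))
  obtain ⟨P, hP, LP⟩ := H69.exists_isSylowIn_le (L := S.M ⊓ S.K) S.L_two
    fun l hl => ⟨mem_M_of (S.LK hl) (R_L hl).2.2, S.LK hl⟩
  have ix : (S.M ⊓ S.K).relIndex S.M = 231 := by
    have := H1.card_mul_relIndex_of_le (inf_le_left : S.M ⊓ S.K ≤ S.M)
    rw [S.card_MK, c] at this
    omega
  have hD := (hP.trans_of_not_dvd inf_le_left (by rw [ix]; norm_num)).mono (hP.le.trans MK) h2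
  refine le_antisymm h2 fun g hg => ?_
  obtain ⟨n, hn, a, ha, rfl⟩ := hD.frattini (h3 g hg).mem
  refine mul_mem hn (MK ⟨(mul_mem_cancel_left (h2 hn)).1 hg, S.ls a (fun l hl => ?_) fun l hl => ?_⟩)
  · exact (hP.le (H69.conj_mem_of_mem_normalizer ha (LP hl))).2
  · exact (hP.le (H69.conj_mem_of_mem_normalizer' ha (LP hl))).2

end St

end H75.JT
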