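import Cfsg.Agent.Lib.J4T.CM
import Cfsg.Agent.Lib.Core.GrpBasic

/-! J4T package SIM2: see blueprint/J4T/README.md -/

set_option autoImplicit false

namespace H75.JT

open Subgroup Matrix H75.L7 H75.JT.Fr

variable {G : Type*} [Group G] [Finite G]

/-- a normal subgroup of squarefree order has a nontrivial element centralised by all commutators -/
theorem sim2_cyc {Γ : Type*} [Group Γ] [Finite Γ] (N : Subgroup Γ) [N.Normal] (h : Squarefree (Nat.card N))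
    (n : N ≠ ⊥) : ∃ d ∈ N, d ≠ 1 ∧ ∀ a b : Γ, Commute (a * b * a⁻¹ * b⁻¹) d := by
  haveI := IsZGroup.of_squarefree h
  obtain ⟨C, hC, le, ne, cy⟩ : ∃ C : Subgroup Γ, C.Normal ∧ C ≤ N ∧ C ≠ ⊥ ∧ IsCyclic C := by
    by_cases e : commutator N = ⊥
    · haveI : IsMulCommutative N := ⟨⟨fun a b => by
        have := commutator_mem_commutator (mem_top a) (mem_top b)
        rw [← commutator_def, e, mem_bot] at this
        exact commutatorElement_eq_one_iff_mul_comm.1 this⟩⟩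
      letI : CommGroup N := IsMulCommutative.instCommGroup
      exact ⟨N, inferInstance, le_rfl, n, inferInstance⟩
    · refine ⟨(commutator N).map N.subtype, inferInstance, map_subtype_le _,
        fun z => e ((map_eq_bot_iff_of_injective _ N.subtype_injective).1 z), ?_⟩
      haveI := IsZGroup.isCyclic_commutator N
      exact isCyclic_of_surjective _ (equivMapOfInjective _ _ N.subtype_injective).surjective
  obtain ⟨d, rfl⟩ := (Subgroup.isCyclic_iff_exists_zpowers_eq_top C).1 cy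
  refine ⟨d, le (mem_zpowers d), fun z => ne (by rw [z, zpowers_one_eq_bot]), fun a b => ?_⟩
  obtain ⟨i, hi⟩ := hC.conj_mem d (mem_zpowers d) a⁻¹
  obtain ⟨j, hj⟩ := hC.conj_mem d (mem_zpowers d) b⁻¹
  simp only at hi hj
  have e1 : b⁻¹ * (a⁻¹ * d * a⁻¹⁻¹) * b⁻¹⁻¹ = a⁻¹ * (b⁻¹ * d * b⁻¹⁻¹) * a⁻¹⁻¹ := by
    rw [← hi, ← hj, ← conj_zpow, ← conj_zpow, ← hi, ← hj, ← _root_.zpow_mul, ← _root_.zpow_mul, mul_comm]
  calc a * b * a⁻¹ * b⁻¹ * d = a * b * (a⁻¹ * (b⁻¹ * d * b⁻¹⁻¹) * a⁻¹⁻¹) * a⁻¹ * b⁻¹ := by group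
    _ = d * (a * b * a⁻¹ * b⁻¹) := by rw [← e1]; group

namespace St

variable {S : St G}

theorem sim2 (hn : ∀ h, S.H h → S.N3 h) (c : Nat.card S.M = 2 ^ 20 * 10395) {D : Subgroup G} (h1 : S.X ≤ D)
    (h2 : D ≤ S.M) (h3 : ∀ m ∈ S.M, Nm m D) (h4 : ∀ d ∈ D, d ∈ S.K → d ∈ S.X) : D = S.X := by
  haveI nX : (S.X.subgroupOf S.M).Normal := ⟨fun x hx m => nm_X m.2.1 (hn _ m.2.1) _ hx⟩
  haveI nD : (D.subgroupOf S.M).Normal := ⟨fun x hx m => h3 _ m.2 _ hx⟩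
  let π := QuotientGroup.mk' (S.X.subgroupOf S.M)
  haveI := nD.map π (QuotientGroup.mk'_surjective _)
  have ker : ∀ m : S.M, π m = 1 ↔ m.1 ∈ S.X := fun m => QuotientGroup.eq_one_iff m
  have cN : Nat.card ((D.subgroupOf S.M).map π) = S.X.relIndex D := by
    rw [← relIndex_ker, QuotientGroup.ker_mk', relIndex_subgroupOf h2]
  have dv : S.X.relIndex D ∣ 231 := by
    have e1 := H1.card_sup_mul_card_inf_of_le_normalizer (H := S.M ⊓ S.K) (N := D) fun m hm => (h3 m hm.1).mem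
    have e2 : S.M ⊓ S.K ⊓ D = S.X :=
      le_antisymm (fun d hd => h4 d hd.2 hd.1.2) (le_inf (le_inf S.X_le_M S.X_le_K) h1)
    have e3 := card_dvd_of_le (sup_le inf_le_left h2 : S.M ⊓ S.K ⊔ D ≤ S.M)
    rw [e2, ← H1.card_mul_relIndex_of_le h1, S.card_MK, mul_comm (Nat.card S.X), ← mul_assoc] at e1
    rw [Nat.eq_of_mul_eq_mul_right Nat.card_pos e1, c] at e3
    exact Nat.dvd_of_mul_dvd_mul_left (k := 2 ^ 20 * 45) (by norm_num) e3
  refine le_antisymm (fun d0 hd0 => ?_) h1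
  by_contra hX
  obtain ⟨_, ⟨d, hd, rfl⟩, d1, cm⟩ := sim2_cyc ((D.subgroupOf S.M).map π)
    (Squarefree.squarefree_of_dvd (cN ▸ dv) (by decide +kernel)) fun z =>
      hX ((ker ⟨d0, h2 hd0⟩).1 (mem_bot.1 (z ▸ mem_map_of_mem π (mem_subgroupOf.2 hd0))))
  obtain ⟨k, hk, e1, e2⟩ := S.sur gX (gen_SL 0) 1 one_GL
  have kM : k ∈ S.M := mem_M_of hk ⟨0, 0, by rw [e2, tv_zero]⟩
  have LM : ∀ l ∈ S.L, l ∈ S.M := fun l hl => mem_M_of (S.LK hl) (R_L hl).2.2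
  have key : ∀ l (hl : l ∈ S.L), Commute (π ⟨l, LM l hl⟩) (π d) := fun l hl => by
    have f1 : ∀ n : V4, ∃ m : V4, gX *ᵥ m + m = n := by decide +kernel
    obtain ⟨m, hm⟩ := f1 (S.κ l)
    obtain ⟨r, hr, rfl⟩ := S.κ_sur m
    have a := (R_L hr).conj hk kM.1
    have b := (κ_eq (a.mul (R_L hr).inv) (R_L hl)).1 (by
      rw [S.κ_mul _ _ a (R_L hr).inv, κ_inv (R_L hr), S.κ_conj k hk kM.1 _ (R_L hr), e1, hm])
    have e := (ker ((⟨l, LM l hl⟩ : S.M)⁻¹ * (⟨k, kM⟩ * ⟨r, LM r hr⟩ * ⟨k, kM⟩⁻¹ * ⟨r, LM r hr⟩⁻¹))).2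
      (mem_sup_left b)
    rw [map_mul, map_inv, inv_mul_eq_one] at e
    rw [e, map_mul, map_mul, map_mul, map_inv, map_inv]
    exact cm _ _
  have fin : ∀ x : S.M, (∀ l (hl : l ∈ S.L), Commute (π ⟨l, LM l hl⟩) (π x)) →
      ∀ l ∈ S.L, x.1 * l * x.1⁻¹ ∈ S.K := fun x hx l hl => by
    have e := (ker (x * ⟨l, LM l hl⟩ * x⁻¹ * ⟨l, LM l hl⟩⁻¹)).1 (by
      rw [map_mul, map_mul, map_mul, map_inv, map_inv, ← (hx l hl).eq]; group)
    exact (mul_mem_cancel_right (inv_mem (S.LK hl))).1 (S.X_le_K e)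
  refine d1 ((ker d).2 (h4 _ hd (S.ls _ (fin d key) fun l hl => ?_)))
  simpa using fin d⁻¹ (fun l hl => by rw [map_inv]; exact (key l hl).inv_right) l hl

end St

end H75.JT
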