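import Cfsg.Agent.Lib.J4T.LS

/-! J4T package ST: see blueprint/J4T/README.md -/

set_option autoImplicit false
set_option linter.unusedSectionVars false

namespace H75.JT

open Subgroup Matrix H75.L7

variable {G : Type*} [Group G] [Finite G]

namespace Fr

variable {F : Fr G}

theorem st_dec (qs : F.QS) {r : G} (h : F.R r) : ∃ l ∈ F.L, ∃ x ∈ F.Q, r = l * x := by
  obtain ⟨k, s, a, b, e⟩ := h
  obtain ⟨x, hx, e'⟩ := qs.Qs a b
  obtain ⟨l, hl, e''⟩ := eq_mul_L k (qs.QR x hx).1 (s.trans (qs.QR x hx).2.1.symm) (e.trans e'.symm)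
  exact ⟨l, hl, x, hx, e''⟩

theorem st_κ (qs : F.QS) : ∃ κ : G → V4, ∀ l ∈ F.L, ∀ x ∈ F.Q, κ (l * x) = F.φ l 2 := by
  classical
  refine ⟨fun r => if h : F.R r then F.φ (st_dec qs h).choose 2 else 0, fun l hl x hx => ?_⟩
  have h := (R_L hl).mul (qs.QR x hx)
  simp only [dif_pos h]
  obtain ⟨hl', y, hy, e⟩ := (st_dec qs h).choose_spec
  generalize (st_dec qs h).choose = l' at hl' e
  have m : l⁻¹ * l' ∈ F.Q := by
    rw [show l⁻¹ * l' = x * y⁻¹ by rw [eq_mul_inv_iff_mul_eq, mul_assoc, ← e, inv_mul_cancel_left]]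
    exact mul_mem hx (inv_mem hy)
  rw [qs.QL _ (mul_mem (inv_mem hl) hl'), F.φ_mul _ (inv_mem hl) _ hl', φ_inv hl, Pi.add_apply, V4_add_eq_zero] at m
  exact m.symm

theorem st_two (qs : F.QS) {g : G} (a : F.H g) (b : Commute g (F.ζ ![1, 0, 0])) {l : G} (hl : l ∈ F.L) :
    g * l * g⁻¹ ∈ F.K := by
  obtain ⟨k, hk, s, t⟩ := F.sur 1 one_SL !![0, 0, 1; 0, 1, 0; 1, 0, 0] (mem_GL_of (by decide +kernel))
  have kz : k * F.z * k⁻¹ = F.ζ ![1, 0, 0] := by rw [z_eq, F.ζ_conj k hk, t, ζ_eq]; decide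
  have a' : F.H (k⁻¹ * g * k) := by
    have := b.map (MulAut.conj k⁻¹)
    rw [← kz] at this
    simpa [mul_assoc, H] using this
  obtain ⟨m, hm, e⟩ := F.φ_sur ![F.φ l 2, 0, 0]
  have mQ : m ∈ F.Q := (qs.QL m hm).2 (by rw [e]; rfl)
  have m' := conj_mem_L hk hm
  have l1 : l * (k * m * k⁻¹)⁻¹ ∈ F.Q := (qs.QL _ (mul_mem hl (inv_mem m'))).2 (by
    rw [F.φ_mul _ hl _ (inv_mem m'), φ_inv m', F.φ_conj k hk m hm, s, t, e, Pi.add_apply, V4_add_eq_zero]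
    simp [act])
  rw [show g * l * g⁻¹ = g * (l * (k * m * k⁻¹)⁻¹) * g⁻¹ * (k * (k⁻¹ * g * k * m * (k⁻¹ * g * k)⁻¹) * k⁻¹) by group]
  exact mul_mem (qs.QR _ (a.conj_Q l1)).1 (mul_mem (mul_mem hk (qs.QR _ (a'.conj_Q mQ)).1) (inv_mem hk))

theorem st_bl (qs : F.QS) {h : G} {c d : V3} (a : F.H h) (hc : Out c) (e : h * F.ζ c * h⁻¹ = F.ζ d) : h ∈ F.K := by
  have hd : Out d := by
    constructor <;> rintro rfl
    · rw [ζ_zero, conj_eq_one_iff, ζ_one] at e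
      exact hc.1 e
    · rw [← z_eq, ← a.conj_z, mul_left_inj, mul_right_inj, z_eq, ζ_eq] at e
      exact hc.2 e
  obtain ⟨k, hk, a1, e1⟩ := F.ex_conj_out hc
  obtain ⟨k', hk', a2, e2⟩ := F.ex_conj_out hd
  have b : Commute (k'⁻¹ * h * k) (F.ζ ![1, 0, 0]) := comm_of_conj_eq (by
    calc _ = k'⁻¹ * (h * (k * F.ζ ![1, 0, 0] * k⁻¹) * h⁻¹) * k' := by group
      _ = _ := by rw [e1, e, ← e2]; group)
  have a' := (a2.inv.mul a).mul a1
  have := ls (fun l hl => st_two qs a' b hl) fun l hl => by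
    have := st_two qs a'.inv b.inv_left hl
    rwa [inv_inv] at this
  rwa [mul_mem_cancel_right hk, mul_mem_cancel_left (inv_mem hk')] at this

theorem st (H : Ch2 G) (hH : ∃ h, F.H h ∧ h ∉ F.K) (qs : F.QS) : Nonempty (St G) := by
  obtain ⟨k, hk, s, t⟩ := F.sur 1 one_SL ω0 ω0_GL
  obtain ⟨κ, hκ⟩ := st_κ qs
  have k3 : k ^ 3 ∈ F.L := (F.ker _ (pow_mem hk 3)).2
    ⟨by rw [σ_pow hk, s, one_pow], by rw [θ_pow hk, t, pow_three', ω0_cube]⟩
  refine ⟨{ toFr := F, ω := k ^ 4, κ := κ, ch := H, qs := qs, hH := hH, ls := fun g => ls,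
            bl := fun h c d => st_bl qs, ωK := pow_mem hk 4, ω3 := ?_, ωσ := ?_, ωθ := ?_,
            κ_mul := fun r r' a b => ?_, κ_L := fun l hl => ?_, κ_ker := fun r a => ?_,
            κ_conj := fun g hg b r a => ?_ }⟩
  · rw [← pow_mul, mul_comm, pow_mul, L_pow4 k3]
  · rw [σ_pow hk, s, one_pow]
  · rw [θ_pow hk, t, pow_succ, pow_three', ω0_cube, one_mul]
  · obtain ⟨l, hl, x, hx, rfl⟩ := st_dec qs a
    obtain ⟨l', hl', x', hx', rfl⟩ := st_dec qs b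
    have xK := qs.QR x hx
    have m := conj_mem_L xK.1 hl'
    rw [show l * x * (l' * x') = l * (x * l' * x⁻¹) * (x * x') by group, hκ _ (mul_mem hl m) _ (mul_mem hx hx'),
      hκ l hl x hx, hκ l' hl' x' hx', F.φ_mul _ hl _ m, Pi.add_apply, φ_conj_two xK.1 xK.H hl', xK.2.1, one_mulVec]
  · simpa using hκ l hl 1 (one_mem _)
  · obtain ⟨l, hl, x, hx, rfl⟩ := st_dec qs a
    rw [hκ l hl x hx, mul_mem_cancel_right hx, qs.QL l hl]
  · obtain ⟨l, hl, x, hx, rfl⟩ := st_dec qs a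
    rw [← conj_mul, hκ _ (conj_mem_L hg hl) _ (b.conj_Q hx), hκ l hl x hx, φ_conj_two hg b hl]

end Fr

end H75.JT
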