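import Cfsg.Agent.Lib.J4T.Mat

/-! J4T package TIA: see blueprint/J4T/README.md -/

set_option autoImplicit false

namespace H75.JT

open Subgroup Matrix H75.L7

section
variable {Γ : Type*} [Group Γ]

theorem tia_inv {a b : Γ} (ha : a * a = 1) (hb : b * b = 1) (k : ℕ) : a * (a * b) ^ k * a⁻¹ = ((a * b) ^ k)⁻¹ := by
  rw [← conj_pow, ← inv_pow]
  congr 1
  rw [_root_.mul_inv_rev, inv_eq_of_mul_eq_one_right hb, ← mul_assoc, ha, one_mul]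

theorem tia_cj {x y : Γ} {k : ℕ} (h : y * x ^ k * y⁻¹ = (x ^ k)⁻¹) : x ^ k * y * (x ^ k)⁻¹ = x ^ (2 * k) * y := by
  have : y * (x ^ k)⁻¹ = x ^ k * y := by
    calc y * (x ^ k)⁻¹ = (y * x ^ k * y⁻¹)⁻¹ * y := by group
      _ = _ := by rw [h, inv_inv]
  rw [mul_assoc, this, two_mul, pow_add, mul_assoc]

variable [Finite Γ] {A N : Subgroup Γ} (hA : ∀ a ∈ A, a * a = 1) (AN : A ≤ N)
  (hN : ∀ n ∈ N, ∀ a ∈ A, n * a * n⁻¹ ∈ A) (ti : ∀ g, ∀ a ∈ A, a ≠ 1 → g * a * g⁻¹ ∈ N → g ∈ N)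
include hA AN hN ti

theorem tia_odd {a b h : Γ} (ha : a ∈ A) (a1 : a ≠ 1) (hb : b ∈ A) (b1 : b ≠ 1) (hh : h ∉ N) :
    Odd (orderOf (a * (h * b * h⁻¹))) := by
  set j := h * b * h⁻¹ with hj
  have j2 : j * j = 1 := by rw [hj, conj_mul, hA b hb]; group
  have a2 := hA a ha
  refine Nat.not_even_iff_odd.1 fun ⟨m, hm⟩ => ?_
  have pos := orderOf_pos (a * j)
  have i2 : (a * j) ^ m * (a * j) ^ m = 1 := by rw [← pow_add, ← hm, pow_orderOf_eq_one]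
  have i1 : (a * j) ^ m ≠ 1 := pow_ne_one_of_lt_orderOf (by omega) (by omega)
  have ca : a * (a * j) ^ m * a⁻¹ = (a * j) ^ m := by rw [tia_inv a2 j2, inv_eq_of_mul_eq_one_right i2]
  have cj : j * (a * j) ^ m * j⁻¹ = (a * j) ^ m := by
    have c0 := (Commute.self_pow (a * j) m).eq
    generalize (a * j) ^ m = i at c0 ca
    calc j * i * j⁻¹ = a⁻¹ * ((a * j) * i * (a * j)⁻¹) * a := by group
      _ = a⁻¹ * (a * i * a⁻¹) * a := by rw [ca, c0, mul_inv_cancel_right]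
      _ = _ := by group
  have iN : (a * j) ^ m ∈ N := ti _ a ha a1 (by
    rw [show (a * j) ^ m * a = a * (a * j) ^ m by rw [← mul_inv_eq_iff_eq_mul.1 ca], mul_inv_cancel_right]
    exact AN ha)
  have back : ∀ y c : Γ, c ∈ A → c ≠ 1 → (a * j) ^ m * a = y * c * y⁻¹ → (a * j) ^ m ∈ A := fun y c hc c1 e => by
    have := hN y (ti y c hc c1 (e ▸ mul_mem iN (AN ha))) c hc
    rw [← e] at this
    exact (mul_mem_cancel_right ha).1 this
  have iA : (a * j) ^ m ∈ A := by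
    rcases Nat.even_or_odd' m with ⟨k, e | e⟩
    · exact back ((a * j) ^ k) a ha a1 (by rw [tia_cj (tia_inv a2 j2 k), e])
    · refine back ((a * j) ^ k * a * h) b hb b1 ?_
      have e1 : a * j * a * (a * j) ^ k * (a * j * a)⁻¹ = ((a * j) ^ k)⁻¹ := by
        calc _ = a * j * (a * (a * j) ^ k * a⁻¹) * (a * j)⁻¹ := by group
          _ = _ := by rw [tia_inv a2 j2, (Commute.self_pow (a * j) k).inv_right.eq, mul_inv_cancel_right]
      rw [e, pow_succ, mul_assoc, ← tia_cj e1]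
      generalize (a * j) ^ k = y
      calc y * (a * j * a) * y⁻¹ = y * (a * j * a⁻¹) * y⁻¹ := by rw [inv_eq_of_mul_eq_one_right a2]
        _ = _ := by rw [hj]; group
  exact hh (ti h b hb b1 (ti j _ iA i1 (by rw [cj]; exact iN)))

end

theorem tia {Γ : Type*} [Group Γ] [Finite Γ] {A N : Subgroup Γ} (hA : ∀ a ∈ A, a * a = 1) (AN : A ≤ N)
    (hN : ∀ n ∈ N, ∀ a ∈ A, n * a * n⁻¹ ∈ A) (ti : ∀ g, ∀ a ∈ A, a ≠ 1 → g * a * g⁻¹ ∈ N → g ∈ N) {g : Γ} (hg : g ∉ N)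
    {a₀ : Γ} (h0 : a₀ ∈ A) (h1 : a₀ ≠ 1) :
    ∃ d : Γ → Γ, (∀ a ∈ A, a ≠ 1 → d a ∈ N ∧ d a * a₀ * (d a)⁻¹ = a ∧ Odd (orderOf (d a))) ∧
      ∀ a ∈ A, a ≠ 1 → ∀ b ∈ A, b ≠ 1 → Odd (orderOf ((d a)⁻¹ * d b)) := by
  have g2 : g * a₀ * g⁻¹ * (g * a₀ * g⁻¹) = 1 := by rw [conj_mul, hA _ h0]; group
  have : ∀ a, ∃ h, a ∈ A → a ≠ 1 → h * a * h⁻¹ * a * (h * a * h⁻¹)⁻¹ = g * a₀ * g⁻¹ := fun a => by
    by_cases ha : a ∈ A
    swap
    · exact ⟨1, fun h => absurd h ha⟩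
    by_cases a1 : a = 1
    · exact ⟨1, fun _ h => absurd a1 h⟩
    obtain ⟨k, hk⟩ := tia_odd hA AN hN ti ha a1 h0 h1 hg
    have a2 := hA a ha
    generalize g * a₀ * g⁻¹ = b at g2 hk
    have o : (a * b) ^ (2 * k + 1) = 1 := by rw [← hk, pow_orderOf_eq_one]
    refine ⟨(a * b) ^ (k * (k + 1)), fun _ _ => ?_⟩
    have e : (a * b) ^ (2 * (k * (k + 1))) = (a * b) ^ k := by
      rw [show 2 * (k * (k + 1)) = (2 * k + 1) * k + k by ring, pow_add, pow_mul, o, one_pow, one_mul]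
    rw [tia_cj (tia_inv a2 g2 _), e]
    calc (a * b) ^ k * a * a * ((a * b) ^ k * a)⁻¹ = (a * b) ^ k * a * ((a * b) ^ k)⁻¹ := by group
      _ = (a * b)⁻¹ * (a * b) ^ (2 * k + 1) * a := by rw [tia_cj (tia_inv a2 g2 _), pow_succ', inv_mul_cancel_left]
      _ = b := by rw [o, mul_one, _root_.mul_inv_rev, inv_mul_cancel_right, inv_eq_of_mul_eq_one_right g2]
  choose h hh using this
  have j2 : ∀ a ∈ A, h a * a * (h a)⁻¹ * (h a * a * (h a)⁻¹) = 1 := fun a ha => by rw [conj_mul, hA a ha]; group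
  have mv : ∀ a ∈ A, a ≠ 1 → ∀ b ∈ A, b ≠ 1 → h a * a * (h a)⁻¹ * (h b * b * (h b)⁻¹) * b *
      (h a * a * (h a)⁻¹ * (h b * b * (h b)⁻¹))⁻¹ = a := fun a ha a1 b hb b1 => by
    have e1 := hh a ha a1
    have e2 := hh b hb b1
    have e3 := j2 a ha
    generalize h a * a * (h a)⁻¹ = x at *
    generalize h b * b * (h b)⁻¹ = y at *
    calc _ = x * (y * b * y⁻¹) * x⁻¹ := by group
      _ = x * x * a * (x * x)⁻¹ := by rw [e2, ← e1]; group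
      _ = a := by rw [e3]; group
  have od : ∀ a ∈ A, a ≠ 1 → ∀ b ∈ A, b ≠ 1 → Odd (orderOf (h a * a * (h a)⁻¹ * (h b * b * (h b)⁻¹))) :=
    fun a ha a1 b hb b1 => by
      have e : h a * a * (h a)⁻¹ * (h b * b * (h b)⁻¹) =
          h a * (a * ((h a)⁻¹ * h b * b * ((h a)⁻¹ * h b)⁻¹)) * (h a)⁻¹ := by group
      by_cases m : (h a)⁻¹ * h b ∈ N
      · have mN := ti _ b hb b1 (by rw [mv a ha a1 b hb b1]; exact AN ha)
        rw [e] at mN ⊢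
        by_cases z : a * ((h a)⁻¹ * h b * b * ((h a)⁻¹ * h b)⁻¹) = 1
        · rw [z]; simp
        have m2 := AN (hN _ (ti _ _ (mul_mem ha (hN _ m b hb)) z mN) a ha)
        exact absurd (ti g _ h0 h1 (hh a ha a1 ▸ mul_mem (mul_mem m2 (AN ha)) (inv_mem m2))) hg
      · rw [e, ← MulAut.conj_apply, MulEquiv.orderOf_eq]
        exact tia_odd hA AN hN ti ha a1 hb b1 m
  refine ⟨fun a => h a * a * (h a)⁻¹ * (h a₀ * a₀ * (h a₀)⁻¹), fun a ha a1 => ⟨?_, mv a ha a1 _ h0 h1,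
    od a ha a1 _ h0 h1⟩, fun a ha a1 b hb b1 => ?_⟩
  · exact ti _ _ h0 h1 (by rw [mv a ha a1 _ h0 h1]; exact AN ha)
  · have := od a ha a1 b hb b1
    have e := inv_eq_of_mul_eq_one_right (j2 a ha)
    simp only
    generalize h a * a * (h a)⁻¹ = x at *
    generalize h b * b * (h b)⁻¹ = y at *
    generalize h a₀ * a₀ * (h a₀)⁻¹ = w
    rw [show (x * w)⁻¹ * (y * w) = w⁻¹ * (x⁻¹ * y) * w⁻¹⁻¹ by group, e, ← MulAut.conj_apply, MulEquiv.orderOf_eq]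
    exact this

theorem tia_pow {s : M4} (hs : s ∈ SL) (h : s ^ 15 = 1) :
    m4 (c4 (s * s)) * s = 1 ∨ m4 (c4 (m4 (c4 (s * s)) * s)) * m4 (c4 (s * s)) = 1 := by
  have : ∀ s ∈ SL, m4 (c4 (s * s)) * m4 (c4 (s * s)) = 1 ∨
      m4 (c4 (m4 (c4 (s * s)) * s)) * m4 (c4 (s * s)) = 1 ∨
      m4 (c4 (m4 (c4 (s * s)) * s)) * m4 (c4 (m4 (c4 (s * s)) * s)) = 1 := by decide +kernel
  have k := this s hs
  simp only [m4_c4] at k ⊢
  rcases k with k | k | k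
  · left
    have e4 : s ^ 4 = 1 := by rw [← k]; simp only [pow_succ, pow_zero, one_mul, mul_assoc]
    calc s * s * s = (s ^ 4) ^ 3 * s ^ 3 := by rw [e4, one_pow, one_mul, pow_three']
      _ = 1 := by rw [← pow_mul, ← pow_add, h]
  · exact Or.inr k
  · left
    have e6 : s ^ 6 = 1 := by rw [← k]; simp only [pow_succ, pow_zero, one_mul, mul_assoc]
    calc s * s * s = (s ^ 6) ^ 2 * s ^ 3 := by rw [e6, one_pow, one_mul, pow_three']
      _ = 1 := by rw [← pow_mul, ← pow_add, h]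

theorem no_sharp (d : V4 → M4) (h : ∀ n ≠ 0, d n ∈ SL ∧ d n *ᵥ ![1, 0, 0, 0] = n ∧ d n ^ 15 = 1)
    (h' : ∀ n ≠ 0, ∀ m ≠ 0, ∃ s ∈ SL, s ^ 15 = 1 ∧ d n * s = d m) : False := by
  obtain ⟨B0, hB, cB, f2⟩ : ∃ B0 : Finset V4, 0 ∉ B0 ∧ B0.card = 5 ∧ ∀ s ∈ SL,
      (m4 (c4 (s * s)) * s = 1 ∨ m4 (c4 (m4 (c4 (s * s)) * s)) * m4 (c4 (s * s)) = 1) →
      (B0.filter fun u => s *ᵥ u ∈ B0).card % 4 = 1 :=
    ⟨{![1, 0, 0, 0], ![0, 1, 1, 0], ![0, 1, 1, 1], ![1, 0, 1, 0], ![0, 0, 1, 1]}, by decide +kernel,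
      by decide +kernel, by decide +kernel⟩
  have f1 : ∀ s ∈ SL, (m4 (c4 (s * s)) * s = 1 ∨ m4 (c4 (m4 (c4 (s * s)) * s)) * m4 (c4 (s * s)) = 1) →
      ∀ u : V4, u ≠ 0 → s *ᵥ u = u → s = 1 := by decide +kernel
  have c15 : (Finset.univ.filter fun n : V4 => n ≠ 0).card = 15 := by decide +kernel
  set T := Finset.univ.filter fun n : V4 => n ≠ 0 with hT
  have mT : ∀ n, n ∈ T ↔ n ≠ 0 := fun n => by simp [hT]
  have col : ∀ u ∈ B0, (T.filter fun n => d n *ᵥ u ∈ B0).card = 5 := fun u hu => by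
    have u0 : u ≠ 0 := fun e => hB (e ▸ hu)
    have inj : ∀ n ∈ T, ∀ m ∈ T, d n *ᵥ u = d m *ᵥ u → n = m := fun n hn m hm e => by
      rw [mT] at hn hm
      obtain ⟨s, hs, s15, e1⟩ := h' n hn m hm
      rw [← e1, ← mulVec_mulVec] at e
      rw [f1 s hs (tia_pow hs s15) u u0 (SL_inj (h n hn).1 e).symm, mul_one] at e1
      rw [← (h n hn).2.1, e1, (h m hm).2.1]
    have sur := Finset.surj_on_of_inj_on_of_card_le (s := T) (t := T) (fun n _ => d n *ᵥ u)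
      (fun n hn => (mT _).2 fun e => u0 (SL_inj (h n ((mT n).1 hn)).1 (by rw [e, mulVec_zero])))
      (fun n m hn hm e => inj n hn m hm e) le_rfl
    rw [← cB]
    refine Finset.card_bij (fun n _ => d n *ᵥ u) (fun n hn => (Finset.mem_filter.1 hn).2)
      (fun n hn m hm e => inj n (Finset.mem_filter.1 hn).1 m (Finset.mem_filter.1 hm).1 e) fun b hb => ?_
    obtain ⟨n, hn, e⟩ := sur b ((mT b).2 fun e => hB (e ▸ hb))
    exact ⟨n, Finset.mem_filter.2 ⟨hn, e ▸ hb⟩, e.symm⟩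
  have e1 : ∑ n ∈ T, (B0.filter fun u => d n *ᵥ u ∈ B0).card = 25 := by
    refine (Finset.sum_card_bipartiteAbove_eq_sum_card_bipartiteBelow (r := fun n u => d n *ᵥ u ∈ B0)).trans
      ((Finset.sum_congr rfl col).trans ?_)
    rw [Finset.sum_const, cB]
    rfl
  have e2 := Finset.sum_nat_mod T 4 fun n => (B0.filter fun u => d n *ᵥ u ∈ B0).card
  rw [e1, Finset.sum_congr rfl fun n hn => f2 _ (h n ((mT n).1 hn)).1
    (tia_pow (h n ((mT n).1 hn)).1 (h n ((mT n).1 hn)).2.2), Finset.sum_const, c15] at e2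
  simp at e2

end H75.JT
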