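import Cfsg.Agent.Lib.J4T.SH

/-! J4T package TY: see blueprint/J4T/README.md -/

set_option autoImplicit false
set_option synthInstance.maxSize 100000
set_option synthInstance.maxHeartbeats 400000
set_option maxRecDepth 100000

namespace H75.JT

open Subgroup Matrix H75.L7 H75.JT.Fr

theorem ty_f1 : ∀ a b : V4, a ≠ 0 → b ≠ 0 → a ≠ b → (b = J *ᵥ a ∨ b = J *ᵥ (J *ᵥ a)) ∨
    (SL.filter fun s => s *ᵥ a = a ∧ s *ᵥ b = b).length ≤ 2 := by decide +kernel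

theorem ty_f2 : ∀ a b : V4, a ≠ 0 → (b = J *ᵥ a ∨ b = J *ᵥ (J *ᵥ a)) → ∀ c d : V4,
    (d = J *ᵥ c ∨ d = J *ᵥ (J *ᵥ c)) → (b + d = J *ᵥ (a + c) ∨ b + d = J *ᵥ (J *ᵥ (a + c))) → c ≠ 0 → a + c ≠ 0 →
    (∀ n, f n a = 0 → f n b = 0 → f n c = 0) → (c = b ∧ d = a + b) ∨ (a + c = b ∧ b + d = a + b) := by
  decide +kernel

theorem ty_len {P : M4 → Prop} [DecidablePred P] {l : List M4} (h : l.Nodup) (k : ∀ s ∈ l, s ∈ SL ∧ P s) :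
    l.length ≤ (SL.filter fun s => P s).length :=
  (List.subperm_of_subset h fun s hs => List.mem_filter.2 ⟨(k s hs).1, by simpa using (k s hs).2⟩).length_le

variable {G : Type*} [Group G] [Finite G]

namespace St

variable {S : St G}

theorem ty_cm {h k r : G} (a : S.H h) (hk : k ∈ S.K) (e : S.R (h⁻¹ * k * h)) (hr : S.R r)
    (e' : h⁻¹ * r * h ∈ S.K) : ∃ y, S.R y ∧ S.R (h⁻¹ * y * h) ∧ S.κ y = S.σ k *ᵥ S.κ r + S.κ r := by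
  have b : S.H k := by simpa [mul_assoc] using a.conj e.H
  have c : S.H (h⁻¹ * r * h) := by simpa using a.inv.conj hr.H
  refine ⟨k * r * k⁻¹ * r⁻¹, (hr.conj hk b).mul hr.inv, ?_, by
    rw [S.κ_mul _ _ (hr.conj hk b) hr.inv, κ_inv hr, S.κ_conj k hk b r hr]⟩
  convert e.mul (e.inv.conj e' c) using 1
  group

theorem ty_fq {h : G} (a : S.Nb h) (c : V3) : f (S.φ (h * S.ζ c * h⁻¹) 0) (S.φ (h * S.ζ c * h⁻¹) 1) = 0 := by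
  have := S.sq _ (a.2.2 c)
  rw [conj_mul, ζ_sq, mul_one, mul_inv_cancel] at this
  exact congrFun (ζ_one.1 this.symm) 2

theorem ty_pu {h : G} (a : S.Nb h) {c : V3} (hc : Fr.Out c) {n : V4} {x y : F2}
    (e : S.φ (h * S.ζ c * h⁻¹) = ![x • n, y • n, 0]) : ∃ r, S.R r ∧ r ∉ S.Q ∧ S.κ r = n ∧ S.R (h⁻¹ * r * h) := by
  obtain ⟨r, hr, rfl⟩ := S.κ_sur n
  refine ⟨r, R_L hr, fun k => nb_ne a hc ?_, rfl, sh2 a (R_L hr) hc e⟩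
  rw [e, κ_Q k]
  ext i; fin_cases i <;> simp

theorem ty_ind {h : G} (a : S.Nb h) (ns : ∀ r, S.R r → S.R (h⁻¹ * r * h) → r ∈ S.Q) {c : V3} (hc : Fr.Out c) :
    S.φ (h * S.ζ c * h⁻¹) 0 ≠ 0 ∧ S.φ (h * S.ζ c * h⁻¹) 1 ≠ 0 ∧
      S.φ (h * S.ζ c * h⁻¹) 0 ≠ S.φ (h * S.ζ c * h⁻¹) 1 := by
  have k : ∀ (n : V4) (x y : F2), S.φ (h * S.ζ c * h⁻¹) 0 = x • n → S.φ (h * S.ζ c * h⁻¹) 1 = y • n → False :=
    fun n x y e e' => by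
      obtain ⟨r, h1, h2, -, h3⟩ := ty_pu a hc (n := n) (x := x) (y := y) (by
        funext i; fin_cases i
        exacts [e, e', nb_two a c])
      exact h2 (ns r h1 h3)
  exact ⟨fun e => k _ 0 1 (by simpa using e) (one_smul ..).symm, fun e => k _ 1 0 (one_smul ..).symm (by simpa using e),
    fun e => k _ 1 1 (one_smul ..).symm (by simpa using e.symm)⟩

theorem ty_ns {h : G} (a : S.H h) (ns : ∀ r, S.R r → S.R (h⁻¹ * r * h) → r ∈ S.Q) :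
    ∀ r, S.R r → S.R (h⁻¹⁻¹ * r * h⁻¹) → r ∈ S.Q := fun r h1 h2 =>
  a.conj_Q_iff.1 (ns _ (by simpa using h2) (by simpa [mul_assoc] using h1))

/-- the elements of `K ∩ R_h` -/
def TyM (S : St G) (h m : G) : Prop := m ∈ S.K ∧ S.R (h⁻¹ * m * h) ∧ ∃ x y, S.θ m = tv x y

theorem TyM.mul {h m m' : G} (a : S.TyM h m) (b : S.TyM h m') :
    S.TyM h (m * m') ∧ S.κ (h⁻¹ * (m * m') * h) = S.κ (h⁻¹ * m * h) + S.κ (h⁻¹ * m' * h) := by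
  obtain ⟨a1, a2, x, y, a3⟩ := a
  obtain ⟨b1, b2, x', y', b3⟩ := b
  have e : h⁻¹ * (m * m') * h = h⁻¹ * m * h * (h⁻¹ * m' * h) := by group
  exact ⟨⟨mul_mem a1 b1, e ▸ a2.mul b2, _, _, by rw [S.θ_mul _ a1 _ b1, a3, b3, tv_mul]⟩,
    e ▸ S.κ_mul _ _ a2 b2⟩

theorem TyM.sq {h m : G} (a : S.TyM h m) (b : S.H h) : S.σ m * S.σ m = 1 := by
  rw [← S.σ_mul _ a.1 _ a.1]
  refine σ_Q ?_
  convert b.conj_Q (R_sq a.2.1) using 1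
  group

theorem ty_ex {h : G} (a : S.Nb h) {c : V3} (hc : Fr.Out c) {n : V4}
    (h1 : f n (S.φ (h⁻¹ * S.ζ c * h⁻¹⁻¹) 0) = 0) (h2 : f n (S.φ (h⁻¹ * S.ζ c * h⁻¹⁻¹) 1) = 0) :
    ∃ m, S.TyM h m ∧ S.κ (h⁻¹ * m * h) = n := by
  obtain ⟨r, hr, rfl⟩ := S.κ_sur n
  have k := (nb_stab (nb_symm a) (R_L hr) hc).2 ⟨h1, h2⟩
  have e : h⁻¹ * (h⁻¹⁻¹ * r * h⁻¹) * h = r := by group
  exact ⟨_, ⟨k, e.symm ▸ R_L hr, nb_tv (nb_symm a) (R_L hr) k⟩, by rw [e]⟩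

/-- four distinct images -/
theorem ty_four {h m m' : G} (a : S.H h) (b : S.TyM h m) (b' : S.TyM h m') (h1 : S.σ m ≠ 1) (h2 : S.σ m' ≠ 1)
    (h3 : S.σ (m * m') ≠ 1) : [1, S.σ m, S.σ m', S.σ (m * m')].Nodup := by
  have e := S.σ_mul _ b.1 _ b'.1
  have k1 : S.σ m ≠ S.σ m' := fun k => h3 (by rw [e, k, b'.sq a])
  have k2 : S.σ m ≠ S.σ (m * m') := fun k => h2 (by
    rw [← one_mul (S.σ m'), ← b.sq a, mul_assoc, ← e, ← k])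
  have k3 : S.σ m' ≠ S.σ (m * m') := fun k => h1 (by
    rw [← mul_one (S.σ m), ← b'.sq a, ← mul_assoc, ← e, ← k])
  simp [h1.symm, h2.symm, h3.symm, k1, k2, k3]

theorem ty_fix {h m : G} (a : S.Nb h) (ns : ∀ r, S.R r → S.R (h⁻¹ * r * h) → r ∈ S.Q) {c : V3} (hc : Fr.Out c)
    (b : S.TyM h m) : S.σ m *ᵥ S.φ (h * S.ζ c * h⁻¹) 0 = S.φ (h * S.ζ c * h⁻¹) 0 ∧
      S.σ m *ᵥ S.φ (h * S.ζ c * h⁻¹) 1 = S.φ (h * S.ζ c * h⁻¹) 1 := by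
  have k : ∀ n, f n (S.φ (h * S.ζ c * h⁻¹) 0) = 0 → f n (S.φ (h * S.ζ c * h⁻¹) 1) = 0 → S.σ m *ᵥ n = n :=
    fun n h1 h2 => by
      obtain ⟨r, hr, rfl⟩ := S.κ_sur n
      obtain ⟨y, y1, y2, y3⟩ := ty_cm a.1 b.1 b.2.1 (R_L hr) ((nb_stab a (R_L hr) hc).2 ⟨h1, h2⟩)
      exact V4_add_eq_zero.1 (y3 ▸ κ_Q (ns y y1 y2))
  exact ⟨k _ (f_self _) (ty_fq a c), k _ (f_comm _ _ ▸ ty_fq a c) (f_self _)⟩

theorem ty_two {h : G} (a : S.Nb h) (ns : ∀ r, S.R r → S.R (h⁻¹ * r * h) → r ∈ S.Q) :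
    ∃ m m', S.TyM h m ∧ S.TyM h m' ∧ [1, S.σ m, S.σ m', S.σ (m * m')].Nodup := by
  have hc : Fr.Out ![1, 0, 0] := by decide
  obtain ⟨u0, u1, u2⟩ := ty_ind (nb_symm a) (ty_ns a.1 ns) hc
  have q := ty_fq (nb_symm a) ![1, 0, 0]
  obtain ⟨m, b, e⟩ := ty_ex a hc (f_self _) q
  obtain ⟨m', b', e'⟩ := ty_ex a hc (f_comm _ _ ▸ q) (f_self _)
  have k : ∀ x, S.TyM h x → S.σ x = 1 → S.κ (h⁻¹ * x * h) = 0 := fun x hx e =>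
    κ_Q (a.1.conj_Q' (ns x ⟨hx.1, e, hx.2.2⟩ hx.2.1))
  exact ⟨m, m', b, b', ty_four a.1 b b' (fun t => u0 (e ▸ k _ b t)) (fun t => u1 (e' ▸ k _ b' t)) fun t =>
    u2 (V4_add_eq_zero.1 (by rw [← e, ← e', ← (b.mul b').2, k _ (b.mul b').1 t]))⟩

theorem ty_ff {h : G} (a : S.Nb h) (ns : ∀ r, S.R r → S.R (h⁻¹ * r * h) → r ∈ S.Q) {c : V3} (hc : Fr.Out c) :
    FF (S.φ (h * S.ζ c * h⁻¹)) := by
  obtain ⟨v0, v1, v2⟩ := ty_ind a ns hc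
  obtain ⟨m, m', b, b', nd⟩ := ty_two a ns
  refine ⟨nb_two a c, v0, (ty_f1 _ _ v0 v1 v2).resolve_right fun k => ?_⟩
  refine absurd ((ty_len nd ?_).trans k) (by simp)
  simp only [List.mem_cons, List.not_mem_nil, or_false]
  rintro s (rfl | rfl | rfl | rfl)
  exacts [⟨one_SL, one_mulVec _, one_mulVec _⟩, ⟨S.σ_mem _ b.1, ty_fix a ns hc b⟩,
    ⟨S.σ_mem _ b'.1, ty_fix a ns hc b'⟩, ⟨S.σ_mem _ (b.mul b').1.1, ty_fix a ns hc (b.mul b').1⟩]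

theorem ty {h : G} (a : S.Nb h) : (∃ n, S.Ov h ![n, 0, 0]) ∨ ∃ v, FF v ∧ S.Ov h v := by
  refine or_iff_not_imp_left.2 fun k => ?_
  have ns : ∀ r, S.R r → S.R (h⁻¹ * r * h) → r ∈ S.Q := fun r h1 h2 =>
    by_contra fun q => k ⟨_, sh1 a.1 a.2.1 h1 q h2⟩
  have c1 : Fr.Out ![1, 0, 0] := by decide
  have c2 : Fr.Out ![0, 1, 0] := by decide
  have c3 : Fr.Out (![1, 0, 0] + ![0, 1, 0]) := by decide
  have f1 := ty_ff a ns c1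
  have f2 := ty_ff a ns c2
  have f3 := ty_ff a ns c3
  have ad := nb_add a ![1, 0, 0] ![0, 1, 0]
  rw [ad] at f3
  refine ⟨_, f1, ov_of a c1 ?_⟩
  rcases ty_f2 _ _ f1.2.1 f1.2.2 _ _ f2.2.2 f3.2.2 f2.2.1 f3.2.1 fun n h1 h2 => by
    obtain ⟨r, hr, rfl⟩ := S.κ_sur n
    exact ((nb_stab a (R_L hr) c2).1 ((nb_stab a (R_L hr) c1).2 ⟨h1, h2⟩)).1 with ⟨e, e'⟩ | ⟨e, e'⟩
  · refine ⟨![0, 1, 0], funext fun i => ?_⟩
    fin_cases i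
    exacts [e, e', f2.1.trans f1.1.symm]
  · refine ⟨_, ad.trans (funext fun i => ?_)⟩
    fin_cases i
    exacts [e, e', f3.1.trans f1.1.symm]

end St

end H75.JT
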