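import Cfsg.Agent.Lib.J4T.TY

/-! J4T package XN: see blueprint/J4T/README.md -/

set_option autoImplicit false

namespace H75.JT

open Subgroup Matrix H75.L7 H75.JT.Fr

theorem xn_abs {Ω : Type*} {a b : Ω → Ω} {x : Ω} (h3 : ∀ y, a (a (a y)) = y) (bi : Function.Injective b)
    (b0 : b (b x) = x) (b1 : b (b (a x)) = a x) (c0 : a (b x) = b (a x)) (c1 : a (b (a x)) = b (a (a x)))
    (hb : b x ≠ x)
    (h : x = a x ∨ x = a (a x) ∨ x = b x ∨ x = b (a x) ∨ a x = a (a x) ∨ a x = b x ∨ a x = b (a x) ∨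
      a (a x) = b x ∨ a (a x) = b (a x) ∨ b x = b (a x)) : x = a x := by
  have ai : Function.Injective a := fun y z e => by rw [← h3 y, e, h3]
  have k1 : x = a (a x) → x = a x := fun e => ai (ai (by rw [h3, ← e]))
  have k2 : a x = b x → x = a x := fun e => k1 (by rw [e, c0, e, b0])
  rcases h with e | e | e | e | e | e | e | e | e | e
  · exact e
  · exact k1 e
  · exact absurd e.symm hb
  · exact k2 (by rw [← b1, ← e])
  · exact ai e
  · exact k2 e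
  · exact absurd (ai (c0.trans e.symm)) hb
  · calc x = b (b x) := b0.symm
      _ = b (a (a x)) := by rw [e]
      _ = a (a (b x)) := by rw [← c1, ← c0]
      _ = a x := by rw [← e, h3]
  · exact k2 (ai (e.trans c0.symm))
  · exact bi e

set_option synthInstance.maxSize 100000 in
set_option synthInstance.maxHeartbeats 200000 in
theorem xn_php : ∀ p q r s t : F2 × F2,
    p = q ∨ p = r ∨ p = s ∨ p = t ∨ q = r ∨ q = s ∨ q = t ∨ r = s ∨ r = t ∨ s = t := by decide +kernel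

theorem xn_cls : ∀ e e' : V3, (e 0, e 1) = (e' 0, e' 1) → e = e' ∨ e = e' + e2 := by decide +kernel

theorem xn_fix : ∀ g ∈ GL3, g 2 = e2 → g * g * g = 1 → g ≠ 1 → ∀ s ∈ SL, s * s * s = 1 → s ≠ 1 →
    ∃ n m : V4, (g 0 0 • s *ᵥ n + g 0 1 • s *ᵥ m = n ∧ g 1 0 • s *ᵥ n + g 1 1 • s *ᵥ m = m) ∧ n ≠ 0 := by
  decide +kernel

variable {G : Type*} [Group G] [Finite G]

namespace St

variable {S : St G}

theorem xn_ovω {h : G} {v : W} (a : S.Ov h v) : S.Ov (S.ω * h) v := by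
  refine ⟨nb_left a.1 S.ωK S.H_ω, fun u => ?_⟩
  have e : ∀ c, S.φ (S.ω * h * S.ζ c * (S.ω * h)⁻¹) = om (S.φ (h * S.ζ c * h⁻¹)) := fun c => by
    rw [φ_left a.1 S.ωK, S.ωσ, S.ωθ, act_ω0]
  have o0 : om 0 = 0 := by decide
  simp only [e]
  constructor
  · rintro ⟨c, rfl⟩
    rcases (a.2 _).1 ⟨c, rfl⟩ with h | h | h | h <;> rw [h]
    · exact .inl o0
    · exact .inr (.inr (.inl rfl))
    · exact .inr (.inr (.inr rfl))
    · exact .inr (.inl (om_cube v))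
  · intro hu
    obtain ⟨c, hc⟩ := (a.2 (om (om u))).2 (by
      rcases hu with h | h | h | h <;> rw [h]
      · exact .inl (by rw [o0, o0])
      · exact .inr (.inr (.inr rfl))
      · exact .inr (.inl (om_cube v))
      · exact .inr (.inr (.inl (by rw [om_cube]))))
    exact ⟨c, by rw [hc, om_cube]⟩

theorem xn_class (S : St G) (v : W) : ∃ p : G → F2 × F2, ∀ g g', S.Ov g v → S.Ov g' v → p g = p g' →
    (g : G ⧸ S.K) = g' := by
  obtain ⟨b, hb, rfl⟩ := S.φ_sur v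
  have key : ∀ g, ∃ e : V3, S.Ov g (S.φ b) → ∃ d, Out d ∧ g * S.ζ d * g⁻¹ = b * S.ζ e := fun g => by
    by_cases a : S.Ov g (S.φ b)
    · obtain ⟨d, hd, e⟩ := ov_ex a
      obtain ⟨e', he⟩ := (φ_eq (a.1.2.2 d) hb).1 e
      exact ⟨e', fun _ => ⟨d, hd, he⟩⟩
    · exact ⟨0, fun h => absurd h a⟩
  choose e he using key
  refine ⟨fun g => (e g 0, e g 1), fun g g' a a' h => ?_⟩
  obtain ⟨d, -, h1⟩ := he g a
  obtain ⟨d', hd', h2⟩ := he g' a'
  refine QuotientGroup.eq.2 (same' a'.1.1 a.1.1 hd' (d := d) ?_)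
  rw [h1, h2]
  exact (cz_ζ.2 (xn_cls _ _ h.symm)).mul_left b

theorem xn_K {h : G} (a : S.Nb h) : h⁻¹ * S.ω * h ∈ S.K := by
  obtain ⟨v, ov⟩ : ∃ v, S.Ov h v := (ty a).elim (fun ⟨_, h⟩ => ⟨_, h⟩) fun ⟨_, _, h⟩ => ⟨_, h⟩
  obtain ⟨c, hc, e⟩ := ov_ex ov
  obtain ⟨l, hl, hK⟩ : ∃ l ∈ S.L, h⁻¹ * l * h ∉ S.K := by
    obtain ⟨m, hm⟩ : ∃ m, f (v 0) m = 1 ∨ f (v 1) m = 1 := by
      by_cases h0 : v 0 = 0
      · refine (f_nd (v 1) fun h1 => ov_ne ov ?_).imp fun _ => .inr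
        have h2 := nb_two a c
        rw [e] at h2
        ext1 i; fin_cases i <;> assumption
      · exact (f_nd _ h0).imp fun _ => .inl
    obtain ⟨l, hl, rfl⟩ := S.κ_sur m
    refine ⟨l, hl, fun k => ?_⟩
    have := (nb_stab a (R_L hl) hc).1 k
    rw [e, f_comm, f_comm (S.κ l)] at this
    rw [this.1, this.2, or_self] at hm
    exact zero_ne_one hm
  have rl := R_L hl
  have hq : ∀ g, S.H g → ∀ x ∈ S.Q, x • (g : G ⧸ S.K) = g := fun g a x hx =>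
    (QuotientGroup.eq.2 (by simpa [mul_assoc] using K_Q (a.conj_Q' hx))).symm
  have h2 : ∀ g, S.H g → l • l • (g : G ⧸ S.K) = g := fun g a => by rw [← mul_smul, hq g a _ (R_sq rl)]
  have hc : ∀ g, S.H g → S.ω • l • (g : G ⧸ S.K) = l • S.ω • (g : G ⧸ S.K) := fun g a => by
    have h1 := (κ_eq (rl.conj S.ωK S.H_ω) rl).1 (κ_ω rl)
    have := hq _ (S.H_ω.mul a) _ h1
    change _ • S.ω • (g : G ⧸ S.K) = S.ω • (g : G ⧸ S.K) at this
    rw [← mul_smul, mul_assoc, inv_mul_cancel_right, mul_smul, inv_smul_eq_iff, mul_smul] at this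
    exact this
  obtain ⟨p, hp⟩ := S.xn_class v
  have o1 := xn_ovω ov
  have o2 := xn_ovω o1
  have o3 := ov_left ov rl
  have o4 := ov_left o1 rl
  have := xn_abs (a := fun y => S.ω • y) (b := fun y => l • y) (x := (h : G ⧸ S.K))
    (fun y => by rw [← mul_smul, ← mul_smul, ← pow_three', S.ω3, one_smul]) (MulAction.injective l)
    (h2 h a.1) (h2 _ o1.1.1) (hc h a.1) (hc _ o1.1.1)
    (fun e => hK (by simpa [mul_assoc] using QuotientGroup.eq.1 (show (h : G ⧸ S.K) = (l * h : G) from e.symm)))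
    ((xn_php (p h) (p (S.ω * h)) (p (S.ω * (S.ω * h))) (p (l * h)) (p (l * (S.ω * h)))).imp (hp _ _ ov o1) <|
      Or.imp (hp _ _ ov o2) <| Or.imp (hp _ _ ov o3) <| Or.imp (hp _ _ ov o4) <| Or.imp (hp _ _ o1 o2) <|
      Or.imp (hp _ _ o1 o3) <| Or.imp (hp _ _ o1 o4) <| Or.imp (hp _ _ o2 o3) <| Or.imp (hp _ _ o2 o4)
      (hp _ _ o3 o4))
  simpa [mul_assoc] using QuotientGroup.eq.1 (show (h : G ⧸ S.K) = (S.ω * h : G) from this)

theorem xn {h : G} (a : S.Nb h) : S.N3 h := by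
  have yK : h * S.ω * h⁻¹ ∈ S.K := by simpa using xn_K (nb_symm a)
  have yH := a.1.conj S.H_ω
  have fpf : ∀ x ∈ S.Q, S.Cz (h * S.ω * h⁻¹ * x * (h * S.ω * h⁻¹)⁻¹) x → S.Cz x 1 := fun x hx e => by
    have := (ω_fpf (a.1.conj_Q' hx) (by simpa [mul_assoc] using e.conj a.1.inv)).conj a.1
    simpa [mul_assoc] using this
  have y3 : (h * S.ω * h⁻¹) ^ 3 = 1 := by rw [conj_pow, S.ω3, mul_one, mul_inv_cancel]
  show ∃ x ∈ S.Q, _
  generalize h * S.ω * h⁻¹ = y at yK yH fpf y3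
  have θ1 : S.θ y ≠ 1 := fun e => by
    have := fpf _ (S.ζ_Q ![1, 0, 0]) (.inl (conj_eq_of_comm (cent_of yK e _)))
    rw [← S.ζ_zero, cz_ζ] at this
    revert this
    decide
  refine three yK yH y3 (by_contra fun σ1 => ?_) θ1
  have g2 := (H_iff yK).1 yH
  obtain ⟨n, m, ⟨e1, e2⟩, n0⟩ := xn_fix _ (S.θ_mem y yK) g2
    (by rw [← pow_three', ← θ_pow yK, y3, θ_one]) θ1 _ (S.σ_mem y yK)
    (by rw [← pow_three', ← σ_pow yK, y3, σ_one]) σ1
  have fx : act (S.σ y) (S.θ y) ![n, m, 0] = ![n, m, 0] := by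
    ext1 i
    fin_cases i
    · simpa [act] using e1
    · simpa [act] using e2
    · exact (act_two g2 _ _).trans (by simp)
  obtain ⟨l, hl, e⟩ := S.φ_sur ![n, m, 0]
  have lQ : l ∈ S.Q := (QL hl).2 (by rw [e]; rfl)
  have l1 := conj_mem_L yK hl
  have l2 := conj_mem_L yK l1
  have q1 := yH.conj_Q lQ
  have q2 := yH.conj_Q q1
  have p1 : S.φ (y * l * y⁻¹) = ![n, m, 0] := by rw [S.φ_conj y yK l hl, e, fx]
  have p2 : S.φ (y * (y * l * y⁻¹) * y⁻¹) = ![n, m, 0] := by rw [S.φ_conj y yK _ l1, p1, fx]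
  have h3 : y * (y * (y * l * y⁻¹) * y⁻¹) * y⁻¹ = l := by
    calc _ = y ^ 3 * l * (y ^ 3)⁻¹ := by rw [pow_three']; group
      _ = l := by rw [y3]; group
  have h4 := fpf _ (mul_mem lQ (mul_mem q1 q2)) (by
    have := S.qs.cm _ (mul_mem q1 q2) l lQ
    rwa [← conj_mul, ← conj_mul, h3, ← mul_assoc])
  have h5 := h4.φ (one_mem _)
  rw [S.φ_mul _ hl _ (mul_mem l1 l2), S.φ_mul _ l1 _ l2, p1, p2, W_add_self, add_zero, e, φ_one] at h5
  exact n0 (congrFun h5 0)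

end St

end H75.JT
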